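import Mathlib

set_option autoImplicit false

/-!
# Tables of permutations of `Fin n`

A permutation of `Fin n` is determined by the list of its images; products of permutations
correspond to the composition `tmul` of tables, so identities between explicit permutations
reduce to computations with lists of natural numbers.
-/

namespace Cfsg.Agent.Lib.Helper66.PermTabN

variable {n : ℕ}

/-- The table of images of a permutation. -/
def tab (π : Equiv.Perm (Fin n)) : List Nat := (List.finRange n).map (fun i => (π i : Nat))

theorem tab_length (π : Equiv.Perm (Fin n)) : (tab π).length = n := by simp [tab]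

theorem tab_getElem (π : Equiv.Perm (Fin n)) (i : ℕ) (hi : i < (tab π).length) :
    (tab π)[i] = (π ⟨i, by rw [tab_length] at hi; exact hi⟩ : ℕ) := by
  simp [tab]

theorem tab_getD (π : Equiv.Perm (Fin n)) (i : Fin n) : (tab π).getD i 0 = π i := by
  have hi : (i : ℕ) < (tab π).length := by rw [tab_length]; exact i.2
  rw [List.getD_eq_getElem?_getD, List.getElem?_eq_getElem hi, Option.getD_some, tab_getElem]

theorem tab_injective : Function.Injective (tab (n := n)) := by
  intro π ρ h
  ext i
  rw [← tab_getD π i, ← tab_getD ρ i, h]

/-- Composition of tables. -/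
def tmul (s t : List Nat) : List Nat := t.map (fun j => s.getD j 0)

theorem tab_mul (π ρ : Equiv.Perm (Fin n)) : tab (π * ρ) = tmul (tab π) (tab ρ) := by
  have h1 : tab (π * ρ) = (List.finRange n).map (fun i => ((π (ρ i) : Fin n) : ℕ)) := rfl
  have h2 : tmul (tab π) (tab ρ)
      = (List.finRange n).map (fun i => (tab π).getD ((ρ i : Fin n) : ℕ) 0) := by
    show List.map (fun j => (tab π).getD j 0) (List.map (fun i => ((ρ i : Fin n) : ℕ))
      (List.finRange n)) = _
    rw [List.map_map]
    rfl
  rw [h1, h2]
  apply List.map_congr_left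
  intro i _
  exact (tab_getD π (ρ i)).symm

theorem tab_one : tab (1 : Equiv.Perm (Fin n)) = List.range n := by
  unfold tab
  simp [List.map_coe_finRange_eq_range]

/-- A permutation whose images are read off a list of length `n` has that list as table. -/
theorem tab_of_getD (π : Equiv.Perm (Fin n)) (row : List Nat) (hlen : row.length = n)
    (h : ∀ i : Fin n, ((π i : Fin n) : ℕ) = row.getD i 0) : tab π = row := by
  apply List.ext_getElem
  · rw [tab_length, hlen]
  · intro i h1 h2
    have hi : i < n := by rw [tab_length] at h1; exact h1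
    rw [tab_getElem, h ⟨i, hi⟩]
    show row.getD i 0 = row[i]
    rw [List.getD_eq_getElem?_getD, List.getElem?_eq_getElem h2, Option.getD_some]

/-! ### Fast composition through a packed table

For `n ≤ 512` a table is packed into one natural number with 9-bit digits, so that the kernel
looks up an entry with one shift instead of walking down a list. -/

/-- The packed table. -/
def enc (s : List Nat) : Nat := s.foldr (fun x acc => x + 512 * acc) 0

theorem enc_nil : enc [] = 0 := rfl

theorem enc_cons (x : Nat) (xs : List Nat) : enc (x :: xs) = x + 512 * enc xs := rfl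

theorem enc_lookup : ∀ (s : List Nat), (∀ x ∈ s, x < 512) → ∀ j : ℕ,
    (enc s >>> (9 * j)) % 512 = s.getD j 0 := by
  intro s
  induction s with
  | nil =>
    intro _ j
    rw [enc_nil, Nat.zero_shiftRight]
    rfl
  | cons x xs ih =>
    intro h j
    have hx : x < 512 := h x (List.mem_cons_self ..)
    have hxs : ∀ y ∈ xs, y < 512 := fun y hy => h y (List.mem_cons_of_mem _ hy)
    rw [enc_cons]
    cases j with
    | zero =>
      rw [Nat.mul_zero, Nat.shiftRight_zero, Nat.add_mul_mod_self_left, Nat.mod_eq_of_lt hx]
      rfl
    | succ k =>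
      have e1 : 9 * (k + 1) = 9 + 9 * k := by ring
      have e2 : (x + 512 * enc xs) >>> 9 = enc xs := by
        rw [Nat.shiftRight_eq_div_pow]
        show (x + 512 * enc xs) / 512 = enc xs
        rw [Nat.add_mul_div_left _ _ (by norm_num : 0 < 512), Nat.div_eq_of_lt hx, zero_add]
      rw [e1, Nat.shiftRight_add, e2, ih hxs k]
      rfl

/-- Fast composition of tables. -/
def tmulF (s t : List Nat) : List Nat := t.map (fun j => (enc s >>> (9 * j)) % 512)

theorem tmulF_eq (s t : List Nat) (hs : ∀ x ∈ s, x < 512) : tmulF s t = tmul s t := by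
  unfold tmulF tmul
  apply List.map_congr_left
  intro j _
  exact enc_lookup s hs j

theorem tab_lt (hn : n ≤ 512) (π : Equiv.Perm (Fin n)) : ∀ x ∈ tab π, x < 512 := by
  intro x hx
  unfold tab at hx
  obtain ⟨i, -, rfl⟩ := List.mem_map.mp hx
  exact lt_of_lt_of_le (π i).2 hn

/-- The table of a product, in the fast form. -/
theorem tab_mulF (hn : n ≤ 512) (π ρ : Equiv.Perm (Fin n)) :
    tab (π * ρ) = tmulF (tab π) (tab ρ) := by
  rw [tab_mul, tmulF_eq _ _ (tab_lt hn π)]

/-- Equality of permutations from equality of tables. -/
theorem eq_of_tab {π ρ : Equiv.Perm (Fin n)} (h : tab π = tab ρ) : π = ρ := tab_injective h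

theorem ne_of_tab {π ρ : Equiv.Perm (Fin n)} (h : tab π ≠ tab ρ) : π ≠ ρ :=
  fun e => h (by rw [e])

end Cfsg.Agent.Lib.Helper66.PermTabN
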