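import Cfsg.Agent.Lib.Helper60.J2PermData
import Cfsg.Agent.Lib.Helper35.StemC
import Cfsg.Agent.Lib.Helper35.AltMult
import Cfsg.Agent.Lib.Helper66.PermTabN
import Cfsg.Agent.Lib.Helper66.ExtraCard

set_option autoImplicit false

/-!
# The 3-part and the 5-part of the Schur multiplier of the Hall-Janko group

Piece ODD of S2040.  `G` is any group of permutations of 315 points of order 604800 containing
four permutations `g 0, ..., g 3` whose tables of images are the rows of `j2Tab` (the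
conjugation action of four generating reflections on the 315 reflections).  A stem extension
of `G` whose kernel has exponent 3 or 5 is an isomorphism: a Sylow 3-subgroup is extraspecial
of order 27 with an involution inverting both generators, a Sylow 5-subgroup is elementary
abelian of order 25 with an involution inverting one generator and centralising the other.
-/

namespace Cfsg.Agent.Lib.Helper66.J2Odd

open Cfsg Cfsg.Agent.H60J2 Cfsg.Agent.Lib.Helper35.StemB Cfsg.Agent.Lib.Helper66.PermTabN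
  Cfsg.Agent.Lib.Helper66.ExtraCard
open scoped commutatorElement

/-- The rows of the table of generators. -/
def row (t : ℕ) : List Nat := j2Tab.getD t []

theorem row_length : ∀ t : Fin 4, (row (t : ℕ)).length = 315 := by decide +kernel

def a3T : List Nat := [146, 72, 217, 22, 28, 299, 288, 185, 264, 234, 297, 310, 189, 300, 165, 225, 11, 160, 168, 70, 87, 6, 289, 102, 123, 30, 100, 112, 298, 18, 169, 5, 73, 84, 80, 172, 154, 138, 179, 174, 148, 192, 228, 207, 131, 151, 204, 210, 159, 97, 200, 115, 55, 280, 134, 313, 292, 232, 141, 302, 221, 312, 61, 197, 110, 273, 27, 8, 91, 24, 122, 75, 265, 113, 68, 90, 256, 191, 186, 287, 195, 41, 98, 243, 101, 26, 23, 103, 278, 199, 71, 74, 231, 290, 218, 261, 42, 223, 242, 83, 85, 33, 86, 20, 268, 227, 275, 266, 167, 236, 303, 59, 66, 32, 56, 293, 276, 182, 157, 237, 208, 285, 19, 69, 294, 177, 213, 271, 129, 314, 47, 211, 143, 240, 281, 53, 214, 253, 178, 38, 65, 272, 133, 235, 262, 180,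 147, 0, 173, 35, 46, 205, 246, 244, 175, 39, 119, 238, 43, 206, 296, 10, 254, 251, 13, 301, 109, 239, 29, 25, 171, 311, 149, 40, 155, 36, 124, 295, 37, 139, 263, 144, 277, 116, 2, 216, 286, 57, 88, 226, 60, 257, 81, 222, 305, 34, 76, 230, 15, 279, 219, 79, 203, 308, 150, 45, 48, 158, 284, 121, 130, 44, 127, 270, 252, 137, 7, 184, 260, 50, 93, 190, 304, 49, 104, 198, 12, 269, 96, 194, 63, 291, 187, 95, 241, 132, 166, 156, 118, 108, 142, 9, 82, 99, 247, 152, 245, 153, 249, 306, 162, 255, 136, 215, 250, 163, 196, 77, 307, 258, 94, 233, 181, 145, 67, 1, 274, 106, 224, 105, 126, 212, 58, 140, 107, 267, 183, 117, 188, 89, 135, 54, 309, 282, 120, 209, 78, 201, 21, 3, 220, 92, 114, 51, 176, 125, 17, 161, 4, 31, 164, 14, 111, 64, 193, 229, 248, 259, 202, 283, 16, 170, 62, 52, 128]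
def b3T : List Nat := [162, 32, 305, 212, 248, 73, 180, 63, 282, 238, 310, 157, 148, 191, 223, 285, 292, 10, 127, 145, 307, 188, 218, 20, 268, 286, 153, 8, 129, 104, 88, 67, 283, 59, 166, 134, 155, 92, 225, 203, 215, 208, 143, 159, 164, 187, 76, 177, 170, 183, 130, 313, 118, 192, 220, 296, 51, 277, 106, 152, 2, 98, 82, 304, 26, 68, 4, 128, 107, 94, 78, 58, 28, 249, 194, 302, 200, 45, 95, 69, 198, 253, 99, 61, 197, 274, 103, 259, 105, 29, 230, 244, 226, 38, 79, 70, 232, 295, 83, 62, 229, 272, 87, 258, 89, 30, 71, 65, 173, 290, 217, 267, 113, 314, 161, 234, 301, 205, 297, 55, 280, 179, 278, 271, 151, 240, 25, 287, 31, 72, 276, 57, 257, 210, 214, 40, 139, 239, 137, 236, 184, 246, 49, 182, 24, 269, 254, 250, 284, 15, 125, 235, 33, 64, 39, 202, 16, 293, 48, 171, 115, 241, 163, 0, 176, 47, 209, 41, 260, 263, 158, 43, 109, 291, 308, 174, 44, 165, 120, 281, 213, 3, 42, 142, 247, 141, 227, 77, 233, 81, 85, 228, 231, 75, 303, 54, 14, 275,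 252, 22, 46, 289, 36, 154, 116, 300, 311, 206, 167, 34, 256, 132, 181, 6, 35, 135, 111, 266, 199, 97, 195, 91, 101, 196, 201, 93, 37, 288, 13, 273, 245, 53, 294, 21, 160, 124, 136, 9, 237, 138, 150, 114, 243, 312, 221, 90, 185, 140, 66, 5, 255, 146, 80, 189, 251, 147, 133, 211, 86, 102, 262, 169, 168, 261, 306, 264, 110, 216, 144, 19, 122, 279, 222, 100, 190, 84, 50, 131, 270, 123, 178, 121, 27, 1, 12, 149, 126, 18, 186, 224, 172, 108, 156, 11, 96, 219, 119, 52, 309, 298, 117, 204, 193, 74, 7, 60, 265, 23, 175, 299, 17, 207, 242, 56, 112]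
def c3T : List Nat := [0, 31, 26, 29, 32, 27, 30, 33, 28, 313, 237, 241, 239, 235, 240, 236, 234, 238, 24, 21, 20, 25, 18, 23, 22, 19, 68, 72, 73, 69, 70, 66, 67, 71, 35, 38, 36, 41, 34, 39, 37, 40, 45, 43, 42, 44, 47, 49, 48, 46, 14, 10, 16, 12, 15, 11, 17, 13, 63, 58, 64, 61, 62, 59, 65, 60, 1, 4, 2, 3, 6, 7, 5, 8, 184, 185, 177, 176, 180, 181, 172, 173, 82, 83, 75, 74, 86, 87, 78, 79, 216, 217, 208, 209, 212, 213, 205, 204, 98, 99, 91, 90, 102, 103, 94, 95, 304, 305, 280, 281, 273, 272, 265, 264, 296, 297, 256, 257, 292, 293, 253, 252, 288, 289, 277, 276, 269, 268, 248, 249, 223, 228, 232, 219, 225, 226, 220, 231, 192, 195, 190, 197, 200, 187, 199, 188, 146, 147, 138, 139, 130, 131, 106, 107, 154, 155, 115, 114, 158, 159, 118, 119, 162, 163, 143, 142, 134, 135, 123, 122, 170, 171, 179, 178, 174, 175, 182, 183, 81, 80, 88, 89, 77, 76, 85, 84, 263, 164, 286, 108, 303, 124, 148, 246, 247, 149, 125, 302, 109, 287, 165, 262, 202,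 203, 210, 211, 206, 207, 215, 214, 97, 96, 104, 105, 93, 92, 101, 100, 127, 301, 285, 110, 245, 150, 260, 166, 167, 261, 151, 244, 111, 284, 300, 126, 52, 57, 54, 51, 56, 53, 50, 55, 242, 243, 266, 267, 275, 274, 283, 282, 250, 251, 290, 291, 254, 255, 295, 294, 258, 259, 271, 270, 279, 278, 298, 299, 229, 222, 218, 233, 227, 224, 230, 221, 194, 193, 196, 191, 186, 201, 189, 198, 129, 128, 137, 136, 145, 144, 169, 168, 121, 120, 160, 161, 117, 116, 157, 156, 113, 112, 132, 133, 141, 140, 152, 153, 309, 307, 308, 314, 9, 311, 312, 310, 306]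
def g10T : List Nat := [291, 259, 314, 281, 247, 301, 267, 3, 289, 257, 310, 221, 150, 169, 304, 287, 187, 12, 41, 141, 165, 194, 228, 260, 269, 308, 298, 96, 204, 103, 270, 198, 302, 95, 191, 136, 306, 243, 153, 26, 278, 224, 213, 293, 158, 69, 252, 235, 44, 184, 82, 283, 177, 285, 77, 233, 75, 275, 237, 292, 251, 211, 183, 67, 52, 161, 120, 174, 250, 253, 54, 43, 202, 236, 61, 284, 307, 78, 58, 282, 166, 249, 274, 64, 245, 142, 105, 241, 277, 128, 312, 90, 303, 25, 262, 147, 19, 299, 272, 109, 22, 271, 133, 264, 85, 234, 296, 125, 117, 313, 214, 179, 110, 297, 192, 209, 295, 106, 294, 122, 276, 86, 100, 273, 311, 114, 239, 71, 170, 226, 99, 265, 255, 139, 216, 201, 279, 31, 134, 254, 180, 231, 39, 268, 244, 88, 207, 197, 155, 309, 42, 238, 248, 81, 92, 263, 14, 305, 29, 242, 222, 173, 286, 16, 188, 219, 240, 57, 40, 261, 162, 229, 203, 73, 225, 127, 63, 218, 118, 215, 212, 51, 220, 145, 45, 210, 232, 20, 148, 227, 130, 230, 208,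 38, 223, 113, 10, 217, 32, 206, 205, 157, 175, 66, 112, 195, 189, 23, 149, 190, 56, 185, 178, 119, 46, 182, 186, 131, 60, 199, 196, 126, 144, 200, 172, 37, 193, 163, 17, 181, 171, 27, 156, 176, 159, 121, 84, 160, 49, 104, 68, 50, 5, 300, 70, 53, 135, 138, 164, 35, 80, 167, 7, 288, 30, 152, 132, 98, 89, 143, 48, 72, 9, 256, 146, 93, 36, 140, 102, 21, 1, 280, 108, 101, 59, 83, 8, 266, 87, 129, 137, 28, 62, 76, 0, 290, 124, 111, 97, 18, 65, 74, 168, 13, 2, 258, 94, 24, 11, 151, 55, 47, 123, 107, 4, 246, 79, 34, 33, 154, 15, 116, 115, 91, 6]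
def b5T : List Nat := [74, 143, 6, 28, 138, 47, 140, 281, 18, 98, 15, 126, 42, 261, 4, 111, 20, 150, 224, 231, 219, 223, 17, 48, 21, 33, 11, 19, 112, 264, 1, 32, 123, 147, 230, 279, 79, 300, 81, 298, 87, 172, 119, 13, 29, 253, 7, 121, 158, 45, 274, 76, 218, 290, 78, 176, 284, 83, 160, 168, 167, 185, 145, 174, 177, 173, 276, 225, 80, 288, 77, 293, 175, 84, 211, 0, 34, 58, 237, 62, 240, 35, 59, 52, 53, 39, 234, 50, 266, 170, 115, 312, 107, 308, 9, 197, 141, 151, 108, 313, 228, 280, 139, 146, 142, 159, 94, 114, 106, 91, 46, 215, 214, 24, 208, 190, 258, 296, 2, 100, 8, 105, 22, 101, 116, 192, 104, 43, 162, 193, 109, 93, 152, 254, 186, 157, 129, 198, 216, 30, 212, 27, 26, 102, 70, 277, 23, 217, 263, 154, 213, 49, 164, 249, 303, 256, 304, 246, 103, 5, 144, 73, 124, 187, 148, 199, 68, 275, 278, 72, 286, 181, 66, 236, 37, 71, 67, 60, 294, 182, 178, 283, 196, 88, 69, 56, 156, 165, 155, 163, 99, 171, 149, 153, 200, 297, 310, 131, 302, 189,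 195, 305, 127, 120, 110, 113, 227, 260, 309, 130, 75, 210, 118, 122, 252, 220, 232, 265, 251, 206, 10, 239, 244, 205, 203, 243, 38, 16, 12, 51, 229, 96, 14, 63, 242, 86, 245, 222, 184, 85, 250, 82, 301, 55, 54, 285, 201, 134, 188, 136, 166, 57, 3, 97, 270, 248, 255, 272, 128, 268, 44, 202, 257, 132, 207, 25, 306, 180, 133, 194, 259, 137, 117, 271, 292, 64, 289, 36, 241, 226, 31, 204, 183, 307, 291, 65, 311, 179, 299, 41, 161, 61, 40, 169, 314, 89, 262, 269, 221, 238, 233, 235, 273, 125, 247, 135, 282, 191, 95, 92, 287, 295, 209, 90, 267]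
def t5T : List Nat := [185, 133, 180, 110, 186, 86, 178, 112, 172, 117, 179, 85, 122, 175, 134, 182, 199, 119, 66, 19, 189, 195, 42, 29, 200, 197, 239, 27, 46, 23, 268, 273, 271, 131, 181, 193, 183, 176, 136, 126, 82, 120, 22, 72, 146, 299, 28, 234, 264, 288, 168, 191, 167, 173, 160, 174, 74, 177, 244, 87, 83, 75, 266, 243, 251, 84, 18, 300, 68, 151, 237, 261, 43, 285, 56, 61, 171, 222, 144, 88, 80, 129, 40, 60, 65, 11, 5, 59, 79, 124, 130, 190, 192, 147, 272, 265, 96, 184, 296, 312, 150, 198, 270, 260, 298, 301, 257, 149, 262, 115, 3, 196, 7, 194, 154, 109, 170, 9, 267, 17, 41, 242, 12, 137, 89, 309, 39, 169, 311, 81, 90, 33, 188, 1, 14, 135, 38, 123, 156, 259, 294, 141, 221, 254, 78, 306, 44, 93, 255, 107, 100, 69, 155, 279, 114, 152, 138, 157, 207, 235, 54, 245, 295, 219, 256, 227, 166, 52, 50, 127, 116, 76, 8, 53, 55, 13, 37, 57, 6, 10, 2, 34, 15, 36, 97, 0, 4, 206, 132, 20, 91, 51, 92, 35, 113, 21, 111, 25, 101, 16, 24, 201,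 293, 289, 252, 269, 187, 158, 303, 313, 291, 284, 314, 228, 281, 310, 304, 308, 275, 163, 287, 142, 77, 297, 276, 233, 249, 165, 213, 307, 283, 231, 247, 225, 47, 159, 290, 70, 253, 26, 240, 292, 121, 63, 58, 161, 246, 232, 263, 226, 250, 64, 204, 238, 143, 148, 164, 106, 286, 139, 103, 71, 108, 248, 48, 95, 62, 118, 30, 205, 102, 32, 94, 31, 278, 218, 224, 282, 274, 153, 302, 214, 277, 230, 211, 73, 258, 220, 49, 203, 236, 210, 241, 202, 140, 162, 98, 223, 104, 45, 67, 105, 280, 208, 216, 305, 145, 229, 217, 125, 215, 128, 99, 209, 212]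
def x5T : List Nat := [58, 192, 263, 281, 298, 106, 132, 150, 224, 312, 88, 134, 3, 136, 39, 266, 52, 96, 203, 42, 218, 51, 231, 14, 229, 81, 247, 12, 204, 237, 125, 170, 286, 35, 53, 169, 179, 243, 71, 211, 240, 289, 28, 249, 78, 162, 17, 94, 4, 128, 166, 73, 105, 2, 284, 87, 126, 47, 103, 37, 199, 26, 196, 67, 187, 181, 172, 274, 241, 277, 48, 143, 30, 212, 160, 77, 84, 158, 291, 182, 82, 293, 174, 121, 118, 74, 177, 250, 253, 184, 257, 206, 254, 92, 91, 114, 100, 116, 209, 296, 214, 295, 154, 216, 156, 98, 109, 270, 130, 219, 22, 306, 110, 230, 259, 272, 271, 301, 148, 112, 18, 9, 19, 311, 273, 147, 186, 153, 198, 131, 20, 309, 113, 261, 264, 201, 197, 111, 221, 303, 152, 228, 304, 149, 23, 310, 232, 279, 223, 265, 141, 258, 24, 308, 25, 314, 260, 305, 138, 108, 146, 140, 302, 190, 21, 313, 278, 189, 300, 139, 69, 269, 41, 283, 225, 1, 50, 165, 245, 32, 236, 194, 123, 45, 145, 11, 207, 99, 294, 115, 117, 297, 217, 93, 155, 255,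 101, 208, 215, 90, 256, 157, 193, 8, 122, 34, 57, 244, 268, 16, 70, 144, 164, 27, 46, 282, 239, 226, 159, 251, 183, 75, 185, 76, 120, 292, 175, 83, 252, 161, 290, 119, 85, 176, 60, 64, 307, 61, 62, 0, 59, 63, 167, 40, 56, 191, 135, 29, 178, 95, 168, 5, 7, 124, 202, 180, 267, 234, 137, 43, 54, 129, 86, 205, 222, 38, 97, 173, 13, 188, 127, 15, 242, 10, 68, 163, 66, 287, 233, 72, 89, 213, 49, 200, 104, 171, 288, 31, 36, 276, 6, 142, 80, 102, 285, 238, 235, 248, 210, 79, 55, 275, 220, 33, 44, 246, 151, 195, 107, 133, 280, 299, 227, 262, 65]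
def a5T : List Nat := [158, 147, 223, 150, 211, 130, 205, 96, 203, 206, 45, 29, 7, 95, 74, 253, 121, 119, 120, 3, 105, 161, 42, 85, 290, 71, 44, 252, 213, 291, 33, 184, 69, 293, 118, 102, 31, 292, 1, 160, 82, 66, 281, 308, 284, 198, 231, 109, 39, 137, 168, 140, 9, 148, 126, 240, 134, 106, 138, 225, 313, 304, 123, 50, 190, 269, 289, 166, 233, 310, 14, 192, 303, 152, 103, 48, 212, 4, 104, 32, 63, 143, 67, 94, 164, 58, 187, 59, 162, 62, 86, 251, 261, 133, 219, 270, 112, 273, 227, 301, 110, 299, 265, 221, 207, 312, 20, 202, 16, 218, 19, 97, 122, 53, 127, 234, 10, 167, 21, 204, 224, 91, 12, 288, 220, 35, 264, 93, 111, 208, 52, 268, 34, 136, 237, 135, 114, 266, 210, 25, 113, 214, 260, 217, 232, 101, 239, 169, 51, 226, 100, 271, 230, 92, 38, 285, 244, 157, 298, 209, 216, 132, 215, 272, 229, 296, 300, 90, 243, 154, 145, 248, 276, 194, 274, 125, 250, 99, 307, 170, 283, 188, 286, 128, 196, 247, 222, 117, 245, 257, 242, 255, 279, 309, 294,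 267, 311, 259, 306, 262, 314, 201, 131, 18, 27, 84, 5, 185, 43, 83, 23, 146, 24, 228, 22, 151, 75, 72, 98, 159, 49, 70, 26, 73, 8, 68, 30, 47, 46, 6, 2, 28, 0, 87, 165, 163, 200, 142, 182, 77, 174, 176, 199, 80, 11, 195, 246, 78, 236, 107, 37, 108, 17, 302, 129, 173, 65, 177, 15, 153, 56, 197, 64, 76, 61, 175, 124, 181, 249, 178, 193, 88, 60, 183, 278, 115, 41, 280, 55, 139, 238, 141, 258, 155, 186, 297, 277, 89, 287, 172, 263, 156, 241, 149, 191, 79, 275, 180, 144, 179, 40, 189, 282, 81, 54, 305, 116, 256, 254, 13, 295, 36, 57, 235, 171]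

/-! ### The elements -/

section Elts

variable (g : Fin 4 → Equiv.Perm (Fin 315))

/-- A second reflection. -/
def r146 : Equiv.Perm (Fin 315) := g 1 * g 2 * g 0 * g 2 * g 3 * g 2 * g 0 * g 2 * g 3 * g 2 * g 0 * g 2 * g 1

/-- A third reflection. -/
def r162 : Equiv.Perm (Fin 315) := g 0 * g 1 * g 2 * g 3 * g 0 * g 1 * g 0 * g 1 * g 0 * g 3 * g 2 * g 1 * g 0

def a3 : Equiv.Perm (Fin 315) := g 0 * r146 g

def b3 : Equiv.Perm (Fin 315) := g 0 * r162 g

def c3 : Equiv.Perm (Fin 315) := a3 g * b3 g * (a3 g * a3 g) * (b3 g * b3 g)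

def g10 : Equiv.Perm (Fin 315) := g 0 * g 2 * g 3 * g 1

def b5 : Equiv.Perm (Fin 315) := g10 g * g10 g

def t5 : Equiv.Perm (Fin 315) := b5 g * b5 g * g10 g

def x5 : Equiv.Perm (Fin 315) := (g 2 * g 3 * g 1 * g 2 * g 0) * b5 g * (g 0 * g 2 * g 1 * g 3 * g 2)

def a5 : Equiv.Perm (Fin 315) := x5 g * t5 g * (x5 g * x5 g * x5 g * x5 g) * t5 g

end Elts

/-! ### Tables -/

theorem tm (π ρ : Equiv.Perm (Fin 315)) : tab (π * ρ) = tmulF (tab π) (tab ρ) :=
  tab_mulF (by norm_num) π ρ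

section Tabs

variable (g : Fin 4 → Equiv.Perm (Fin 315))
  (hg : ∀ (t : Fin 4) (i : Fin 315),
    ((g t i : Fin 315) : ℕ) = (j2Tab.getD (t : ℕ) []).getD (i : ℕ) 0)
include hg

theorem tab_g (t : Fin 4) : tab (g t) = row (t : ℕ) := tab_of_getD _ _ (row_length t) (hg t)

theorem tab_a3 : tab (a3 g) = a3T := by
  unfold a3 r146
  simp only [tm, tab_g g hg]
  decide +kernel

theorem tab_b3 : tab (b3 g) = b3T := by
  unfold b3 r162
  simp only [tm, tab_g g hg]
  decide +kernel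

theorem tab_c3 : tab (c3 g) = c3T := by
  unfold c3
  simp only [tm, tab_a3 g hg, tab_b3 g hg]
  decide +kernel

theorem tab_g10 : tab (g10 g) = g10T := by
  unfold g10
  simp only [tm, tab_g g hg]
  decide +kernel

theorem tab_b5 : tab (b5 g) = b5T := by
  unfold b5
  simp only [tm, tab_g10 g hg]
  decide +kernel

theorem tab_t5 : tab (t5 g) = t5T := by
  unfold t5
  simp only [tm, tab_g10 g hg, tab_b5 g hg]
  decide +kernel

theorem tab_x5 : tab (x5 g) = x5T := by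
  unfold x5
  simp only [tm, tab_g g hg, tab_b5 g hg]
  decide +kernel

theorem tab_a5 : tab (a5 g) = a5T := by
  unfold a5
  simp only [tm, tab_x5 g hg, tab_t5 g hg]
  decide +kernel

/-! ### Relations at the prime 3 -/

theorem t3_sq : g 0 * g 0 = 1 := by
  apply tab_injective
  rw [tm, tab_g g hg, tab_one]
  decide +kernel

theorem a3_cube : a3 g * a3 g * a3 g = 1 := by
  apply tab_injective
  rw [tm, tm, tab_a3 g hg, tab_one]
  decide +kernel

theorem b3_cube : b3 g * b3 g * b3 g = 1 := by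
  apply tab_injective
  rw [tm, tm, tab_b3 g hg, tab_one]
  decide +kernel

theorem c3_cube : c3 g * c3 g * c3 g = 1 := by
  apply tab_injective
  rw [tm, tm, tab_c3 g hg, tab_one]
  decide +kernel

theorem a3_ne : a3 g ≠ 1 := by
  apply ne_of_tab
  rw [tab_a3 g hg, tab_one]
  decide +kernel

theorem b3_ne : b3 g ≠ 1 := by
  apply ne_of_tab
  rw [tab_b3 g hg, tab_one]
  decide +kernel

theorem c3_ne : c3 g ≠ 1 := by
  apply ne_of_tab
  rw [tab_c3 g hg, tab_one]
  decide +kernel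

theorem c3_a3 : c3 g * a3 g = a3 g * c3 g := by
  apply tab_injective
  rw [tm, tm, tab_c3 g hg, tab_a3 g hg]
  decide +kernel

theorem c3_b3 : c3 g * b3 g = b3 g * c3 g := by
  apply tab_injective
  rw [tm, tm, tab_c3 g hg, tab_b3 g hg]
  decide +kernel

theorem t3_a3_aux : g 0 * a3 g * g 0 * a3 g = 1 := by
  apply tab_injective
  rw [tm, tm, tm, tab_g g hg, tab_a3 g hg, tab_one]
  decide +kernel

theorem t3_b3_aux : g 0 * b3 g * g 0 * b3 g = 1 := by
  apply tab_injective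
  rw [tm, tm, tm, tab_g g hg, tab_b3 g hg, tab_one]
  decide +kernel

theorem t3_inv : (g 0)⁻¹ = g 0 := inv_eq_of_mul_eq_one_right (t3_sq g hg)

theorem t3_a3 : g 0 * a3 g * (g 0)⁻¹ = (a3 g)⁻¹ := by
  rw [t3_inv g hg]
  exact eq_inv_of_mul_eq_one_left (t3_a3_aux g hg)

theorem t3_b3 : g 0 * b3 g * (g 0)⁻¹ = (b3 g)⁻¹ := by
  rw [t3_inv g hg]
  exact eq_inv_of_mul_eq_one_left (t3_b3_aux g hg)

theorem comm3 : ⁅a3 g, b3 g⁆ = c3 g := by
  have ha : (a3 g)⁻¹ = a3 g * a3 g :=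
    inv_eq_of_mul_eq_one_right (by rw [← mul_assoc]; exact a3_cube g hg)
  have hb : (b3 g)⁻¹ = b3 g * b3 g :=
    inv_eq_of_mul_eq_one_right (by rw [← mul_assoc]; exact b3_cube g hg)
  rw [commutatorElement_def, ha, hb]
  rfl

/-! ### Relations at the prime 5 -/

theorem t5_sq : t5 g * t5 g = 1 := by
  apply tab_injective
  rw [tm, tab_t5 g hg, tab_one]
  decide +kernel

theorem a5_pow : a5 g * a5 g * a5 g * a5 g * a5 g = 1 := by
  apply tab_injective
  rw [tm, tm, tm, tm, tab_a5 g hg, tab_one]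
  decide +kernel

theorem b5_pow : b5 g * b5 g * b5 g * b5 g * b5 g = 1 := by
  apply tab_injective
  rw [tm, tm, tm, tm, tab_b5 g hg, tab_one]
  decide +kernel

theorem a5_ne : a5 g ≠ 1 := by
  apply ne_of_tab
  rw [tab_a5 g hg, tab_one]
  decide +kernel

theorem b5_ne : b5 g ≠ 1 := by
  apply ne_of_tab
  rw [tab_b5 g hg, tab_one]
  decide +kernel

theorem a5_b5 : a5 g * b5 g = b5 g * a5 g := by
  apply tab_injective
  rw [tm, tm, tab_a5 g hg, tab_b5 g hg]
  decide +kernel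

theorem t5_a5_aux : t5 g * a5 g * t5 g * a5 g = 1 := by
  apply tab_injective
  rw [tm, tm, tm, tab_t5 g hg, tab_a5 g hg, tab_one]
  decide +kernel

theorem t5_b5_aux : t5 g * b5 g = b5 g * t5 g := by
  apply tab_injective
  rw [tm, tm, tab_t5 g hg, tab_b5 g hg]
  decide +kernel

theorem t5_inv : (t5 g)⁻¹ = t5 g := inv_eq_of_mul_eq_one_right (t5_sq g hg)

theorem t5_a5 : t5 g * a5 g * (t5 g)⁻¹ = (a5 g)⁻¹ := by
  rw [t5_inv g hg]
  exact eq_inv_of_mul_eq_one_left (t5_a5_aux g hg)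

theorem t5_b5 : t5 g * b5 g * (t5 g)⁻¹ = b5 g := by
  rw [t5_b5_aux g hg, mul_inv_cancel_right]

end Tabs

/-! ### The main theorems -/

theorem fact5 : Fact (Nat.Prime 5) := ⟨by norm_num⟩

/-- The 3-part: a stem extension of `G` with kernel of exponent 3 is an isomorphism. -/
theorem j2_three (g : Fin 4 → Equiv.Perm (Fin 315))
    (hg : ∀ (t : Fin 4) (i : Fin 315),
      ((g t i : Fin 315) : ℕ) = (j2Tab.getD (t : ℕ) []).getD (i : ℕ) 0)
    (G : Subgroup (Equiv.Perm (Fin 315))) (hG : ∀ t, g t ∈ G) (hcard : Nat.card G = 604800)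
    (Γ : Type) [Group Γ] [Finite Γ] (σ : Γ →* ↥G) (hσ : Cfsg.IsStemExtension σ)
    (hexp : ∀ k ∈ σ.ker, k ^ 3 = 1) : σ.ker = ⊥ := by
  obtain ⟨hsurj, hcen, hcomm⟩ := hσ
  have hma : a3 g ∈ G := by
    unfold a3 r146
    repeat' (first | exact hG _ | apply Subgroup.mul_mem)
  have hmb : b3 g ∈ G := by
    unfold b3 r162
    repeat' (first | exact hG _ | apply Subgroup.mul_mem)
  obtain ⟨A, hA⟩ : ∃ A : ↥G, (A : Equiv.Perm (Fin 315)) = a3 g := ⟨⟨a3 g, hma⟩, rfl⟩
  obtain ⟨B, hB⟩ : ∃ B : ↥G, (B : Equiv.Perm (Fin 315)) = b3 g := ⟨⟨b3 g, hmb⟩, rfl⟩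
  obtain ⟨T, hT⟩ : ∃ T : ↥G, (T : Equiv.Perm (Fin 315)) = g 0 := ⟨⟨g 0, hG 0⟩, rfl⟩
  have hC : ((⁅A, B⁆ : ↥G) : Equiv.Perm (Fin 315)) = c3 g := by
    show ⁅(A : Equiv.Perm (Fin 315)), (B : Equiv.Perm (Fin 315))⁆ = c3 g
    rw [hA, hB]
    exact comm3 g hg
  have hAo : orderOf A = 3 := by
    apply orderOf_eq_prime
    · apply Subtype.ext
      show (A : Equiv.Perm (Fin 315)) ^ 3 = 1
      rw [hA, pow_succ, pow_two]
      exact a3_cube g hg
    · intro h
      exact a3_ne g hg (by rw [← hA, h]; rfl)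
  have hBo : orderOf B = 3 := by
    apply orderOf_eq_prime
    · apply Subtype.ext
      show (B : Equiv.Perm (Fin 315)) ^ 3 = 1
      rw [hB, pow_succ, pow_two]
      exact b3_cube g hg
    · intro h
      exact b3_ne g hg (by rw [← hB, h]; rfl)
  have hCo : orderOf ⁅A, B⁆ = 3 := by
    apply orderOf_eq_prime
    · apply Subtype.ext
      show ((⁅A, B⁆ : ↥G) : Equiv.Perm (Fin 315)) ^ 3 = 1
      rw [hC, pow_succ, pow_two]
      exact c3_cube g hg
    · intro h
      exact c3_ne g hg (by rw [← hC, h]; rfl)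
  have hCA : ⁅A, B⁆ * A = A * ⁅A, B⁆ := by
    apply Subtype.ext
    show ((⁅A, B⁆ : ↥G) : Equiv.Perm (Fin 315)) * A = A * ((⁅A, B⁆ : ↥G) : Equiv.Perm (Fin 315))
    rw [hC, hA]
    exact c3_a3 g hg
  have hCB : ⁅A, B⁆ * B = B * ⁅A, B⁆ := by
    apply Subtype.ext
    show ((⁅A, B⁆ : ↥G) : Equiv.Perm (Fin 315)) * B = B * ((⁅A, B⁆ : ↥G) : Equiv.Perm (Fin 315))
    rw [hC, hB]
    exact c3_b3 g hg
  have hTA : T * A * T⁻¹ = A⁻¹ := by
    apply Subtype.ext
    show (T : Equiv.Perm (Fin 315)) * A * (T : Equiv.Perm (Fin 315))⁻¹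
      = (A : Equiv.Perm (Fin 315))⁻¹
    rw [hT, hA]
    exact t3_a3 g hg
  have hTB : T * B * T⁻¹ = B⁻¹ := by
    apply Subtype.ext
    show (T : Equiv.Perm (Fin 315)) * B * (T : Equiv.Perm (Fin 315))⁻¹
      = (B : Equiv.Perm (Fin 315))⁻¹
    rw [hT, hB]
    exact t3_b3 g hg
  obtain ⟨al, hal⟩ := hsurj A
  obtain ⟨bl, hbl⟩ := hsurj B
  obtain ⟨tl, htl⟩ := hsurj T
  rw [eq_bot_iff]
  intro z hz
  rw [Subgroup.mem_bot]
  by_contra hz1
  have hzord : orderOf z = 3 := orderOf_eq_prime (hexp z hz) hz1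
  have hfin : Finite ↥G := inferInstance
  have hcl : Nat.card (Subgroup.closure ({A, B} : Set ↥G)) = 3 * 3 * 3 :=
    card_extra 3 Nat.prime_three hAo hBo hCA hCB hCo
  have hidx : (Subgroup.closure ({A, B} : Set ↥G)).index = 22400 := by
    have h1 := Subgroup.card_mul_index (Subgroup.closure ({A, B} : Set ↥G))
    rw [hcl, hcard] at h1
    omega
  have h3 : z ∈ ⁅(Subgroup.closure ({A, B} : Set ↥G)).comap σ,
      (Subgroup.closure ({A, B} : Set ↥G)).comap σ⁆ := by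
    have hfi : ((Subgroup.closure ({A, B} : Set ↥G)).comap σ).FiniteIndex := inferInstance
    apply Cfsg.Agent.Lib.Helper35.Stem.mem_commutator_of_coprime _ (hcen hz) (hcomm hz)
    rw [Subgroup.index_comap_of_surjective _ hsurj, hzord, hidx]
    decide
  have hap : A ^ 3 = 1 := by rw [← hAo]; exact pow_orderOf_eq_one A
  exact hz1 (eq_one_of_extraspecial σ hcen 3 (by decide) hexp al bl tl
    (by rw [hal, hbl]; exact hCA) (by rw [hal, hbl]; exact hCB)
    (by rw [hal]; exact hap) (by rw [hal, hbl]; exact hCo)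
    (by rw [htl, hal]; exact hTA) (by rw [htl, hbl]; exact hTB)
    hz (by rw [hal, hbl]; exact h3))

/-- The 5-part: a stem extension of `G` with kernel of exponent 5 is an isomorphism. -/
theorem j2_five (g : Fin 4 → Equiv.Perm (Fin 315))
    (hg : ∀ (t : Fin 4) (i : Fin 315),
      ((g t i : Fin 315) : ℕ) = (j2Tab.getD (t : ℕ) []).getD (i : ℕ) 0)
    (G : Subgroup (Equiv.Perm (Fin 315))) (hG : ∀ t, g t ∈ G) (hcard : Nat.card G = 604800)
    (Γ : Type) [Group Γ] [Finite Γ] (σ : Γ →* ↥G) (hσ : Cfsg.IsStemExtension σ)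
    (hexp : ∀ k ∈ σ.ker, k ^ 5 = 1) : σ.ker = ⊥ := by
  obtain ⟨hsurj, hcen, hcomm⟩ := hσ
  have := fact5
  have hma : a5 g ∈ G := by
    unfold a5 x5 t5 b5 g10
    repeat' (first | exact hG _ | apply Subgroup.mul_mem)
  have hmb : b5 g ∈ G := by
    unfold b5 g10
    repeat' (first | exact hG _ | apply Subgroup.mul_mem)
  have hmt : t5 g ∈ G := by
    unfold t5 b5 g10
    repeat' (first | exact hG _ | apply Subgroup.mul_mem)
  obtain ⟨A, hA⟩ : ∃ A : ↥G, (A : Equiv.Perm (Fin 315)) = a5 g := ⟨⟨a5 g, hma⟩, rfl⟩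
  obtain ⟨B, hB⟩ : ∃ B : ↥G, (B : Equiv.Perm (Fin 315)) = b5 g := ⟨⟨b5 g, hmb⟩, rfl⟩
  obtain ⟨T, hT⟩ : ∃ T : ↥G, (T : Equiv.Perm (Fin 315)) = t5 g := ⟨⟨t5 g, hmt⟩, rfl⟩
  have hAo : orderOf A = 5 := by
    apply orderOf_eq_prime
    · apply Subtype.ext
      show (A : Equiv.Perm (Fin 315)) ^ 5 = 1
      rw [hA, pow_succ, pow_succ, pow_succ, pow_two]
      exact a5_pow g hg
    · intro h
      exact a5_ne g hg (by rw [← hA, h]; rfl)
  have hBo : orderOf B = 5 := by
    apply orderOf_eq_prime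
    · apply Subtype.ext
      show (B : Equiv.Perm (Fin 315)) ^ 5 = 1
      rw [hB, pow_succ, pow_succ, pow_succ, pow_two]
      exact b5_pow g hg
    · intro h
      exact b5_ne g hg (by rw [← hB, h]; rfl)
  have hAB : A * B = B * A := by
    apply Subtype.ext
    show (A : Equiv.Perm (Fin 315)) * B = B * A
    rw [hA, hB]
    exact a5_b5 g hg
  have hTA : T * A * T⁻¹ = A⁻¹ := by
    apply Subtype.ext
    show (T : Equiv.Perm (Fin 315)) * A * (T : Equiv.Perm (Fin 315))⁻¹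
      = (A : Equiv.Perm (Fin 315))⁻¹
    rw [hT, hA]
    exact t5_a5 g hg
  have hTB : T * B * T⁻¹ = B := by
    apply Subtype.ext
    show (T : Equiv.Perm (Fin 315)) * B * (T : Equiv.Perm (Fin 315))⁻¹ = B
    rw [hT, hB]
    exact t5_b5 g hg
  have hne : ∀ i < 5, B ≠ A ^ i := by
    intro i _ h
    have h1 : T * B * T⁻¹ = B⁻¹ := by
      rw [h, ← conj_pow, hTA, inv_pow]
    rw [hTB] at h1
    have h2 : B ^ 2 = 1 := by
      rw [pow_two]
      nth_rewrite 2 [h1]
      exact mul_inv_cancel B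
    have h3 := orderOf_dvd_of_pow_eq_one h2
    rw [hBo] at h3
    exact absurd h3 (by decide)
  obtain ⟨al, hal⟩ := hsurj A
  obtain ⟨bl, hbl⟩ := hsurj B
  obtain ⟨tl, htl⟩ := hsurj T
  rw [eq_bot_iff]
  intro z hz
  rw [Subgroup.mem_bot]
  by_contra hz1
  have hzord : orderOf z = 5 := orderOf_eq_prime (hexp z hz) hz1
  have hfin : Finite ↥G := inferInstance
  have hidx : ((Subgroup.closure ({A, B} : Set ↥G)).index).Coprime 5 :=
    Cfsg.Agent.Lib.Helper35.AltMult.index_coprime_of_pair 5 (by norm_num) hAo hBo hAB hne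
      (m := 24192) (by rw [hcard]; norm_num) (by decide)
  have h3 : z ∈ ⁅(Subgroup.closure ({A, B} : Set ↥G)).comap σ,
      (Subgroup.closure ({A, B} : Set ↥G)).comap σ⁆ := by
    have hfi : ((Subgroup.closure ({A, B} : Set ↥G)).comap σ).FiniteIndex := inferInstance
    apply Cfsg.Agent.Lib.Helper35.Stem.mem_commutator_of_coprime _ (hcen hz) (hcomm hz)
    rw [Subgroup.index_comap_of_surjective _ hsurj, hzord]
    exact hidx
  exact hz1 (eq_one_of_abelian_pair σ hcen 5 (by decide) hexp al bl tl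
    (by rw [hal, hbl]; exact hAB)
    (by rw [htl, hal]; exact hTA)
    (by rw [htl, hbl]; exact hTB)
    (by rw [hal, hbl]; exact h3))

end Cfsg.Agent.Lib.Helper66.J2Odd
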