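import Mathlib
import Cfsg.Agent.Lib.Helper94.OPStmt
import Cfsg.Agent.Lib.Helper44.NegPairs

/-!
# S5989 / INVOLP (call by helper94)

An isometry of the plus form with `x * x = 1` fixes a nondegenerate `m`-space isometric to `W₀`
(`m` odd, `m < d`): the space is the orthogonal sum of the two eigenspaces, one of them has
dimension greater than `m`, and every subspace of an eigenspace is invariant.
-/

set_option autoImplicit false

universe u

open scoped Matrix

namespace Cfsg.Agent.Lib.Helper66.OPINVOLP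

open Cfsg.Agent.Lib.Helper94.OPStmt
open QuadraticMap

/-- the `-1`-eigenspace -/
def FmP {F : Type u} [Field F] {d : ℕ} (x : Matrix (P d) (P d) F) : Submodule F (P d → F) :=
  LinearMap.ker (Matrix.toLin' x + LinearMap.id)

theorem mem_FmP {F : Type u} [Field F] {d : ℕ} (x : Matrix (P d) (P d) F) (v : P d → F) :
    v ∈ FmP x ↔ x *ᵥ v = -v := by
  unfold FmP
  rw [LinearMap.mem_ker, LinearMap.add_apply, Matrix.toLin'_apply, LinearMap.id_apply,
    add_eq_zero_iff_eq_neg]

theorem two_ne_zero_of_odd (F : Type u) [Field F] [Fintype F] (h : Odd (Fintype.card F)) :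
    (2 : F) ≠ 0 := by
  apply Ring.two_ne_zero
  intro hc
  have := FiniteField.even_card_iff_char_two.mp hc
  rw [Nat.odd_iff] at h
  omega

theorem pol_neg_right (d : ℕ) (F : Type u) [Field F] (x y : P d → F) :
    polar (Cfsg.quadFormPlus d F) x (-y) = - polar (Cfsg.quadFormPlus d F) x y :=
  polar_neg_right (Cfsg.Agent.Lib.Helper44.NegPairs.plusQ d F) x y

theorem pol_add_left (d : ℕ) (F : Type u) [Field F] (x x' y : P d → F) :
    polar (Cfsg.quadFormPlus d F) (x + x') y =
      polar (Cfsg.quadFormPlus d F) x y + polar (Cfsg.quadFormPlus d F) x' y :=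
  polar_add_left (Cfsg.Agent.Lib.Helper44.NegPairs.plusQ d F) x x' y

theorem pol_comm (d : ℕ) (F : Type u) [Field F] (x y : P d → F) :
    polar (Cfsg.quadFormPlus d F) x y = polar (Cfsg.quadFormPlus d F) y x :=
  polar_comm _ x y

theorem pol_zero_left (d : ℕ) (F : Type u) [Field F] (y : P d → F) :
    polar (Cfsg.quadFormPlus d F) 0 y = 0 :=
  polar_zero_left (Cfsg.Agent.Lib.Helper44.NegPairs.plusQ d F) y

/-- the decomposition into the two eigenspaces of an isometry with `x * x = 1` -/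
theorem dec (hTop : TopNDP.{u}) (F : Type u) [Field F] [Fintype F] (hodd : Odd (Fintype.card F))
    (d : ℕ) (x : Matrix.GeneralLinearGroup (P d) F)
    (hx : x ∈ Cfsg.isometryGroup F (Cfsg.quadFormPlus d F))
    (hx2M : (x : Matrix (P d) (P d) F) * (x : Matrix (P d) (P d) F) = 1) :
    NDegP d F (FxP (x : Matrix (P d) (P d) F)) ∧ NDegP d F (FmP (x : Matrix (P d) (P d) F)) ∧
      Module.finrank F ↥(FxP (x : Matrix (P d) (P d) F)) +
        Module.finrank F ↥(FmP (x : Matrix (P d) (P d) F)) = 2 * d := by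
  classical
  have h2 : (2 : F) ≠ 0 := two_ne_zero_of_odd F hodd
  have hQ : ∀ u : P d → F, Cfsg.quadFormPlus d F ((x : Matrix (P d) (P d) F) *ᵥ u)
      = Cfsg.quadFormPlus d F u := fun u => hx u u
  have hpol : ∀ u v : P d → F, polar (Cfsg.quadFormPlus d F) ((x : Matrix (P d) (P d) F) *ᵥ u)
      ((x : Matrix (P d) (P d) F) *ᵥ v) = polar (Cfsg.quadFormPlus d F) u v := by
    intro u v
    unfold polar
    rw [← Matrix.mulVec_add, hQ, hQ, hQ]
  have hxx : ∀ v : P d → F,
      (x : Matrix (P d) (P d) F) *ᵥ ((x : Matrix (P d) (P d) F) *ᵥ v) = v := by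
    intro v
    rw [Matrix.mulVec_mulVec, hx2M, Matrix.one_mulVec]
  have horth : ∀ u ∈ FxP (x : Matrix (P d) (P d) F), ∀ v ∈ FmP (x : Matrix (P d) (P d) F),
      polar (Cfsg.quadFormPlus d F) u v = 0 := by
    intro u hu v hv
    have h1 := hpol u v
    rw [(mem_FxP _ _).1 hu, (mem_FmP _ _).1 hv, pol_neg_right] at h1
    have h3 : (2 : F) * polar (Cfsg.quadFormPlus d F) u v = 0 := by
      have : polar (Cfsg.quadFormPlus d F) u v + polar (Cfsg.quadFormPlus d F) u v = 0 := by
        nth_rewrite 1 [← h1]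
        exact neg_add_cancel _
      rw [two_mul]
      exact this
    rcases mul_eq_zero.1 h3 with h | h
    · exact absurd h h2
    · exact h
  have hinf : FxP (x : Matrix (P d) (P d) F) ⊓ FmP (x : Matrix (P d) (P d) F) = ⊥ := by
    rw [eq_bot_iff]
    intro v hv
    obtain ⟨hv1, hv2⟩ := Submodule.mem_inf.1 hv
    have h1 : v = -v := by
      rw [← (mem_FmP _ _).1 hv2]
      exact ((mem_FxP _ _).1 hv1).symm
    have h3 : (2 : F) • v = 0 := by
      rw [two_smul]
      nth_rewrite 1 [h1]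
      exact neg_add_cancel _
    rcases smul_eq_zero.1 h3 with h | h
    · exact absurd h h2
    · exact (Submodule.mem_bot F).2 h
  have hdec : ∀ v : P d → F, ∃ a ∈ FxP (x : Matrix (P d) (P d) F),
      ∃ b ∈ FmP (x : Matrix (P d) (P d) F), v = a + b := by
    intro v
    refine ⟨(2 : F)⁻¹ • (v + (x : Matrix (P d) (P d) F) *ᵥ v), ?_,
      (2 : F)⁻¹ • (v - (x : Matrix (P d) (P d) F) *ᵥ v), ?_, ?_⟩
    · rw [mem_FxP, Matrix.mulVec_smul, Matrix.mulVec_add, hxx, add_comm]
    · rw [mem_FmP, Matrix.mulVec_smul, Matrix.mulVec_sub, hxx, ← smul_neg, neg_sub]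
    · rw [← smul_add]
      have : v + (x : Matrix (P d) (P d) F) *ᵥ v + (v - (x : Matrix (P d) (P d) F) *ᵥ v)
          = (2 : F) • v := by
        rw [two_smul]; abel
      rw [this, smul_smul, inv_mul_cancel₀ h2, one_smul]
  have hsup : FxP (x : Matrix (P d) (P d) F) ⊔ FmP (x : Matrix (P d) (P d) F) = ⊤ := by
    rw [eq_top_iff]
    intro v _
    obtain ⟨a, ha, b, hb, rfl⟩ := hdec v
    exact Submodule.add_mem _ (Submodule.mem_sup_left ha) (Submodule.mem_sup_right hb)
  have hVdim : Module.finrank F (P d → F) = 2 * d := by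
    rw [Module.finrank_pi]
    simp
    omega
  refine ⟨?_, ?_, ?_⟩
  · intro w hw hw0
    obtain ⟨⟨y, -, hyw⟩, -⟩ := hTop F hodd d w Submodule.mem_top hw0
    obtain ⟨a, ha, b, hb, rfl⟩ := hdec y
    have h1 : polar (Cfsg.quadFormPlus d F) a w ≠ 0 := by
      rw [pol_add_left, pol_comm d F b w, horth w hw b hb, add_zero] at hyw
      exact hyw
    refine ⟨⟨a, ha, h1⟩, ⟨a, ha, ?_⟩⟩
    rw [pol_comm]
    exact h1
  · intro w hw hw0
    obtain ⟨⟨y, -, hyw⟩, -⟩ := hTop F hodd d w Submodule.mem_top hw0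
    obtain ⟨a, ha, b, hb, rfl⟩ := hdec y
    have h1 : polar (Cfsg.quadFormPlus d F) b w ≠ 0 := by
      rw [pol_add_left, horth a ha w hw, zero_add] at hyw
      exact hyw
    refine ⟨⟨b, hb, h1⟩, ⟨b, hb, ?_⟩⟩
    rw [pol_comm]
    exact h1
  · have h := Submodule.finrank_sup_add_finrank_inf_eq (FxP (x : Matrix (P d) (P d) F))
      (FmP (x : Matrix (P d) (P d) F))
    rw [hinf, finrank_bot, add_zero, hsup, finrank_top, hVdim] at h
    exact h.symm

theorem main (hOS : OddSub.{u}) (hTop : TopNDP.{u}) : InvolP.{u} := by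
  intro F _ _ hodd d m hm hmd W₀ hW₀dim hW₀nd x hx hx2M
  obtain ⟨hnd₁, hnd₂, hdim⟩ := dec hTop F hodd d x hx hx2M
  have hbot : NDegP d F (⊥ : Submodule F (P d → F)) := by
    intro w hw hw0
    exact absurd ((Submodule.mem_bot F).mp hw) hw0
  have horth : ∀ Y : Submodule F (P d → F), ∀ u ∈ (⊥ : Submodule F (P d → F)), ∀ v ∈ Y,
      QuadraticMap.polar (Cfsg.quadFormPlus d F) u v = 0 := by
    intro Y u hu v _
    rw [(Submodule.mem_bot F).mp hu]
    exact pol_zero_left d F v
  have hev : Even (Module.finrank F ↥(⊥ : Submodule F (P d → F))) := by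
    rw [finrank_bot]
    exact ⟨0, rfl⟩
  have hpos : Module.finrank F ↥(⊥ : Submodule F (P d → F)) < m := by
    rw [finrank_bot]
    obtain ⟨k, rfl⟩ := hm
    omega
  have hcase : m < Module.finrank F ↥(FxP (x : Matrix (P d) (P d) F)) ∨
      m < Module.finrank F ↥(FmP (x : Matrix (P d) (P d) F)) := by omega
  rcases hcase with h | h
  · have h' : m - Module.finrank F ↥(⊥ : Submodule F (P d → F)) <
        Module.finrank F ↥(FxP (x : Matrix (P d) (P d) F)) := by
      rw [finrank_bot]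
      exact h
    obtain ⟨W₁, hW₁Y, hMem⟩ := hOS F hodd d m hm W₀ hW₀dim hW₀nd ⊥ _ hbot hnd₁
      (horth _) hev hpos h'
    rw [bot_sup_eq] at hMem
    refine ⟨W₁, hMem, ?_⟩
    rintro _ ⟨w, hw, rfl⟩
    rw [Matrix.toLin'_apply, (mem_FxP _ w).mp (hW₁Y hw)]
    exact hw
  · have h' : m - Module.finrank F ↥(⊥ : Submodule F (P d → F)) <
        Module.finrank F ↥(FmP (x : Matrix (P d) (P d) F)) := by
      rw [finrank_bot]
      exact h
    obtain ⟨W₁, hW₁Y, hMem⟩ := hOS F hodd d m hm W₀ hW₀dim hW₀nd ⊥ _ hbot hnd₂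
      (horth _) hev hpos h'
    rw [bot_sup_eq] at hMem
    refine ⟨W₁, hMem, ?_⟩
    rintro _ ⟨w, hw, rfl⟩
    rw [Matrix.toLin'_apply, (mem_FmP _ w).mp (hW₁Y hw)]
    exact Submodule.neg_mem _ hw

end Cfsg.Agent.Lib.Helper66.OPINVOLP
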