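import Mathlib
import Cfsg.Prelude.Def_GeometricClasses

/-!
# Eigenspace decomposition of an involutory isometry (any index type, any quadratic form)

For a quadratic form `Q` on `ι → F` (`2 ≠ 0`) whose polar form is nondegenerate and a matrix `x`
with `Q (x v) = Q v` and `x * x = 1`: the `+1`- and `-1`-eigenspaces are nondegenerate, orthogonal,
meet trivially and their dimensions add up to `card ι`; every subspace of an eigenspace is
invariant.
-/

set_option autoImplicit false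

universe u

open scoped Matrix

namespace Cfsg.Agent.Lib.Helper66.InvolDec

open QuadraticMap

variable {F : Type u} [Field F] {ι : Type} [Fintype ι] [DecidableEq ι]

/-- the `+1`-eigenspace -/
def Ep (x : Matrix ι ι F) : Submodule F (ι → F) :=
  LinearMap.ker (Matrix.toLin' x - LinearMap.id)

/-- the `-1`-eigenspace -/
def Em (x : Matrix ι ι F) : Submodule F (ι → F) :=
  LinearMap.ker (Matrix.toLin' x + LinearMap.id)

theorem mem_Ep (x : Matrix ι ι F) (v : ι → F) : v ∈ Ep x ↔ x *ᵥ v = v := by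
  unfold Ep
  rw [LinearMap.mem_ker, LinearMap.sub_apply, Matrix.toLin'_apply, LinearMap.id_apply,
    sub_eq_zero]

theorem mem_Em (x : Matrix ι ι F) (v : ι → F) : v ∈ Em x ↔ x *ᵥ v = -v := by
  unfold Em
  rw [LinearMap.mem_ker, LinearMap.add_apply, Matrix.toLin'_apply, LinearMap.id_apply,
    add_eq_zero_iff_eq_neg]

/-- a subspace of the `+1`-eigenspace is invariant -/
theorem map_le_of_le_Ep (x : Matrix ι ι F) (W : Submodule F (ι → F)) (hW : W ≤ Ep x) :
    W.map (Matrix.toLin' x) ≤ W := by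
  rintro _ ⟨w, hw, rfl⟩
  rw [Matrix.toLin'_apply, (mem_Ep x w).mp (hW hw)]
  exact hw

/-- a subspace of the `-1`-eigenspace is invariant -/
theorem map_le_of_le_Em (x : Matrix ι ι F) (W : Submodule F (ι → F)) (hW : W ≤ Em x) :
    W.map (Matrix.toLin' x) ≤ W := by
  rintro _ ⟨w, hw, rfl⟩
  rw [Matrix.toLin'_apply, (mem_Em x w).mp (hW hw)]
  exact Submodule.neg_mem _ hw

/-- the decomposition into the two eigenspaces of an isometry with `x * x = 1` -/
theorem dec (Q : QuadraticForm F (ι → F)) (h2 : (2 : F) ≠ 0)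
    (hTop : ∀ w : ι → F, w ≠ 0 → ∃ y, polar Q y w ≠ 0)
    (x : Matrix ι ι F) (hQ : ∀ u : ι → F, Q (x *ᵥ u) = Q u) (hx2M : x * x = 1) :
    Cfsg.Geo.IsNondegenerateOn (polar Q) (Ep x) ∧ Cfsg.Geo.IsNondegenerateOn (polar Q) (Em x) ∧
      (∀ u ∈ Ep x, ∀ v ∈ Em x, polar Q u v = 0) ∧ Ep x ⊓ Em x = ⊥ ∧
      Module.finrank F ↥(Ep x) + Module.finrank F ↥(Em x) = Fintype.card ι := by
  classical
  have hpol : ∀ u v : ι → F, polar Q (x *ᵥ u) (x *ᵥ v) = polar Q u v := by
    intro u v
    unfold polar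
    rw [← Matrix.mulVec_add, hQ, hQ, hQ]
  have hxx : ∀ v : ι → F, x *ᵥ (x *ᵥ v) = v := by
    intro v
    rw [Matrix.mulVec_mulVec, hx2M, Matrix.one_mulVec]
  have horth : ∀ u ∈ Ep x, ∀ v ∈ Em x, polar Q u v = 0 := by
    intro u hu v hv
    have h1 := hpol u v
    rw [(mem_Ep _ _).1 hu, (mem_Em _ _).1 hv, polar_neg_right] at h1
    have h3 : (2 : F) * polar Q u v = 0 := by
      have : polar Q u v + polar Q u v = 0 := by
        nth_rewrite 1 [← h1]
        exact neg_add_cancel _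
      rw [two_mul]
      exact this
    rcases mul_eq_zero.1 h3 with h | h
    · exact absurd h h2
    · exact h
  have hinf : Ep x ⊓ Em x = ⊥ := by
    rw [eq_bot_iff]
    intro v hv
    obtain ⟨hv1, hv2⟩ := Submodule.mem_inf.1 hv
    have h1 : v = -v := by
      rw [← (mem_Em _ _).1 hv2]
      exact ((mem_Ep _ _).1 hv1).symm
    have h3 : (2 : F) • v = 0 := by
      rw [two_smul]
      nth_rewrite 1 [h1]
      exact neg_add_cancel _
    rcases smul_eq_zero.1 h3 with h | h
    · exact absurd h h2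
    · exact (Submodule.mem_bot F).2 h
  have hdec : ∀ v : ι → F, ∃ a ∈ Ep x, ∃ b ∈ Em x, v = a + b := by
    intro v
    refine ⟨(2 : F)⁻¹ • (v + x *ᵥ v), ?_, (2 : F)⁻¹ • (v - x *ᵥ v), ?_, ?_⟩
    · rw [mem_Ep, Matrix.mulVec_smul, Matrix.mulVec_add, hxx, add_comm]
    · rw [mem_Em, Matrix.mulVec_smul, Matrix.mulVec_sub, hxx, ← smul_neg, neg_sub]
    · rw [← smul_add]
      have : v + x *ᵥ v + (v - x *ᵥ v) = (2 : F) • v := by
        rw [two_smul]; abel
      rw [this, smul_smul, inv_mul_cancel₀ h2, one_smul]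
  have hsup : Ep x ⊔ Em x = ⊤ := by
    rw [eq_top_iff]
    intro v _
    obtain ⟨a, ha, b, hb, rfl⟩ := hdec v
    exact Submodule.add_mem _ (Submodule.mem_sup_left ha) (Submodule.mem_sup_right hb)
  have hVdim : Module.finrank F (ι → F) = Fintype.card ι := Module.finrank_pi F
  refine ⟨?_, ?_, horth, hinf, ?_⟩
  · intro w hw hw0
    obtain ⟨y, hyw⟩ := hTop w hw0
    obtain ⟨a, ha, b, hb, rfl⟩ := hdec y
    have h1 : polar Q a w ≠ 0 := by
      rw [polar_add_left, polar_comm Q b w, horth w hw b hb, add_zero] at hyw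
      exact hyw
    refine ⟨⟨a, ha, h1⟩, ⟨a, ha, ?_⟩⟩
    rw [polar_comm]
    exact h1
  · intro w hw hw0
    obtain ⟨y, hyw⟩ := hTop w hw0
    obtain ⟨a, ha, b, hb, rfl⟩ := hdec y
    have h1 : polar Q b w ≠ 0 := by
      rw [polar_add_left, horth a ha w hw, zero_add] at hyw
      exact hyw
    refine ⟨⟨b, hb, h1⟩, ⟨b, hb, ?_⟩⟩
    rw [polar_comm]
    exact h1
  · have h := Submodule.finrank_sup_add_finrank_inf_eq (Ep x) (Em x)
    rw [hinf, finrank_bot, add_zero, hsup, finrank_top, hVdim] at h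
    exact h.symm

end Cfsg.Agent.Lib.Helper66.InvolDec
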