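import Mathlib
import Cfsg.Agent.Lib.Helper94.OPStmt

/-!
# S5989 / B1P (call by helper94)

Under the arithmetic condition `CondP`, every isometry `y` of the plus form with `y ^ r = 1`
fixes a nondegenerate `m`-space isometric to `W₀`: a block `E` of dimension `j' c` without fixed
vectors, completed inside the fixed space.
-/

set_option autoImplicit false

universe u

open scoped Matrix

namespace Cfsg.Agent.Lib.Helper66.OPB1P

open Cfsg.Agent.Lib.Helper37.HypStmt (cc IPos)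
open Cfsg.Agent.Lib.Helper94.OPStmt

theorem cc_cases (i : ℕ) : (Even i ∧ cc i = i) ∨ (Odd i ∧ cc i = 2 * i) := by
  unfold cc
  by_cases h : Even i
  · left
    exact ⟨h, if_pos h⟩
  · right
    exact ⟨Nat.not_even_iff_odd.mp h, if_neg h⟩

theorem cc_even (i : ℕ) : Even (cc i) := by
  rcases cc_cases i with ⟨h, e⟩ | ⟨_, e⟩
  · rw [e]; exact h
  · rw [e]; exact even_two_mul i

theorem cc_pos {i : ℕ} (hi : 0 < i) : 0 < cc i := by
  rcases cc_cases i with ⟨_, e⟩ | ⟨_, e⟩
  · rw [e]; exact hi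
  · rw [e]; omega

theorem main (hIPos : IPos.{u}) (hTop : TopNDP.{u}) (hFixND : FixNDP.{u}) (hDim : DimObsP.{u})
    (hBlocks : BlocksP.{u}) (hNF : NoFreeP.{u}) (hOS : OddSub.{u}) : B1P.{u} := by
  intro F _ _ p _ _ hodd d m hd hm hmd W₀ hW₀dim hW₀nd r _ hr2 hrp hcond y hy hyr
  have hi : 0 < orderOf ((Fintype.card F : ℕ) : ZMod r) := hIPos F p r hrp
  obtain ⟨i, hidef⟩ : ∃ i : ℕ, i = orderOf ((Fintype.card F : ℕ) : ZMod r) := ⟨_, rfl⟩
  rw [← hidef] at hi hcond
  obtain ⟨c, hcdef⟩ : ∃ c : ℕ, c = cc i := ⟨_, rfl⟩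
  have hcpos : 0 < c := hcdef ▸ cc_pos hi
  have hceven : Even c := hcdef ▸ cc_even i
  obtain ⟨f, hfdef⟩ : ∃ f : ℕ, f = Module.finrank F ↥(FxP (y : Matrix (P d) (P d) F)) :=
    ⟨_, rfl⟩
  have hVdim : Module.finrank F (P d → F) = 2 * d := by
    rw [Module.finrank_pi]
    simp
    omega
  have hfle : f ≤ 2 * d := by
    rw [hfdef, ← hVdim]
    exact Submodule.finrank_le _
  -- `c` divides `2 d - f`
  have hdvd : c ∣ 2 * d - f := by
    have h := hDim F p hodd d r hr2 hrp y hy hyr ⊤ le_top (hTop F hodd d)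
    rw [top_inf_eq, finrank_top, hVdim, ← hidef, ← hcdef, ← hfdef] at h
    exact h
  obtain ⟨j, hj⟩ := hdvd
  have h2d : 2 * d = f + c * j := by omega
  have hmod : (2 * d) % c = f % c := by
    rw [h2d, Nat.add_mul_mod_self_left]
  have hfmod : f % c ≤ f := Nat.mod_le f c
  have hmlt : m % c < c := Nat.mod_lt m hcpos
  -- the key inequality
  have hkey : m % c < f := by
    unfold CondP at hcond
    rw [← hcdef] at hcond
    rcases hcond with ⟨_, _, _, h⟩ | ⟨hev, ⟨h0, hoddq⟩ | ⟨_, _, h⟩⟩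
    · omega
    · have hf0 : f ≠ 0 := by
        intro hf
        have hbot : FxP (y : Matrix (P d) (P d) F) = ⊥ := by
          apply Submodule.finrank_eq_zero.mp
          rw [← hfdef]
          exact hf
        have h1 := hNF F p hodd d (by omega) r hr2 hrp (hidef ▸ hev) y hy hyr hbot
        rw [← hidef] at h1
        exact (Nat.not_even_iff_odd.mpr hoddq) h1
      have hcf : c ∣ f := by
        apply Nat.dvd_of_mod_eq_zero
        rw [← hmod]
        exact h0
      have := Nat.le_of_dvd (Nat.pos_of_ne_zero hf0) hcf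
      omega
    · omega
  -- the block
  obtain ⟨j', hj'def⟩ : ∃ j' : ℕ, j' = min (m / c) j := ⟨_, rfl⟩
  have hj'1 : j' ≤ m / c := hj'def ▸ min_le_left _ _
  have hj'2 : j' ≤ j := hj'def ▸ min_le_right _ _
  have hj'3 : j' = m / c ∨ j' = j := by
    rcases min_choice (m / c) j with h | h
    · left; rw [hj'def, h]
    · right; rw [hj'def, h]
  obtain ⟨A, hAdef⟩ : ∃ A : ℕ, A = j' * c := ⟨_, rfl⟩
  have hdm : c * (m / c) + m % c = m := Nat.div_add_mod m c
  have hA1 : A ≤ c * (m / c) := by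
    rw [hAdef, mul_comm c]
    exact Nat.mul_le_mul_right c hj'1
  have hA2 : A ≤ c * j := by
    rw [hAdef, mul_comm c]
    exact Nat.mul_le_mul_right c hj'2
  have hA3 : A = c * (m / c) ∨ A = c * j := by
    rcases hj'3 with h | h
    · left; rw [hAdef, h, mul_comm]
    · right; rw [hAdef, h, mul_comm]
  have hAeven : Even A := hAdef ▸ Even.mul_left hceven j'
  obtain ⟨E, hEst, hEnd, hEdim, hEF, hEorth⟩ := hBlocks F p hodd d r hr2 hrp y hy hyr j' (by
    rw [← hidef, ← hcdef, ← hfdef, ← hAdef]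
    omega)
  rw [← hidef, ← hcdef, ← hAdef] at hEdim
  have hYnd : NDegP d F (FxP (y : Matrix (P d) (P d) F)) := hFixND F p hodd d r hrp y hy hyr
  obtain ⟨a, ha⟩ := hAeven
  obtain ⟨k, hk⟩ := hm
  obtain ⟨W₁, hW₁Y, hMem⟩ := hOS F hodd d m ⟨k, hk⟩ W₀ hW₀dim hW₀nd E
    (FxP (y : Matrix (P d) (P d) F)) hEnd hYnd hEorth (by rw [hEdim]; exact ⟨a, ha⟩)
    (by rw [hEdim]; omega) (by
      rw [hEdim, ← hfdef]
      rcases hA3 with h | h
      · omega
      · omega)
  refine ⟨E ⊔ W₁, hMem, ?_⟩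
  unfold StabP
  rw [Submodule.map_sup]
  apply sup_le_sup hEst
  rintro _ ⟨w, hw, rfl⟩
  rw [Matrix.toLin'_apply, (mem_FxP _ w).mp (hW₁Y hw)]
  exact hw

end Cfsg.Agent.Lib.Helper66.OPB1P
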