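import Mathlib
import Cfsg.Agent.Lib.Helper41.EMStmt
import Cfsg.Agent.Lib.Helper41.TMStmt
import Cfsg.Agent.Lib.Helper44.NegPairs
import Cfsg.Agent.Lib.Helper66.OPB1P

/-!
# S5990 / B1E (call by helper41)

Under the arithmetic condition `CondEM`, every isometry `y` of the minus form with `y ^ r = 1`
(`r` odd, `r ≠ p`) fixes an elliptic `m`-space: `W = W_F ⊥ E`, `E` a sum of `j` blocks,
`W_F ≤ Fix y` of dimension `m - j c`, the types of `W_F` and `E` being different.
-/

set_option autoImplicit false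

universe u

open scoped Matrix

namespace Cfsg.Agent.Lib.Helper66.EMB1E

open Cfsg.Agent.Lib.Helper37.HypStmt (cc IPos)
open Cfsg.Agent.Lib.Helper45.OMiStmt (M Aniso FxM NDegM StabM mem_FxM)
open Cfsg.Agent.Lib.Helper41.TMTwoStmt (PlusM)
open Cfsg.Agent.Lib.Helper41.EMStmt
open Cfsg.Agent.Lib.Helper44.NegPairs (minusQ)
open Cfsg.Agent.Lib.Helper66.OPB1P (cc_cases cc_even cc_pos)

/-- the orthogonal sum of `WF ≤ Fix y` and an invariant `E ⊥ Fix y` of different types is an
invariant elliptic space -/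
theorem glue (hCancel : CancelM.{u})
    (hOrth : Cfsg.Agent.Lib.Helper41.TMStmt.OrthSum.{u})
    {F : Type u} [Field F] [Fintype F] (a₀ b₀ : F) (hab : Aniso a₀ b₀) {d : ℕ}
    (y : Matrix (M d) (M d) F)
    (WF E : Submodule F (M d → F)) (m : ℕ)
    (hWF : WF ≤ FxM y) (hWFnd : NDegM d F a₀ b₀ WF) (hEst : StabM y E)
    (hEnd : NDegM d F a₀ b₀ E)
    (hEorth : ∀ u ∈ E, ∀ v ∈ FxM y,
      QuadraticMap.polar (Cfsg.quadFormMinus (d - 1) F a₀ b₀) u v = 0)
    (hdim : Module.finrank F ↥WF + Module.finrank F ↥E = m)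
    (htype : PlusM d F a₀ b₀ WF ↔ ¬ PlusM d F a₀ b₀ E) :
    ∃ W : Submodule F (M d → F), MemEM d F a₀ b₀ m W ∧ StabM y W := by
  have horth : ∀ u ∈ WF, ∀ v ∈ E,
      QuadraticMap.polar (Cfsg.quadFormMinus (d - 1) F a₀ b₀) u v = 0 := by
    intro u hu v hv
    rw [QuadraticMap.polar_comm]
    exact hEorth v hv u (hWF hu)
  have horth' : ∀ u ∈ E, ∀ v ∈ WF,
      QuadraticMap.polar (Cfsg.quadFormMinus (d - 1) F a₀ b₀) u v = 0 :=
    fun u hu v hv => hEorth u hu v (hWF hv)
  obtain ⟨hnd, -, hfin⟩ := hOrth F a₀ b₀ hab d WF E hWFnd hEnd horth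
  have hnP : ¬ PlusM d F a₀ b₀ (WF ⊔ E) := by
    intro hP
    by_cases hE : PlusM d F a₀ b₀ E
    · have hP' : PlusM d F a₀ b₀ (E ⊔ WF) := by
        rw [sup_comm]
        exact hP
      have h1 : PlusM d F a₀ b₀ WF := hCancel F a₀ b₀ hab d E WF hEnd hWFnd horth' hP' hE
      exact (htype.mp h1) hE
    · have h1 : PlusM d F a₀ b₀ WF := htype.mpr hE
      exact hE (hCancel F a₀ b₀ hab d WF E hWFnd hEnd horth hP h1)
  have hfin' : Module.finrank F ↥(WF ⊔ E) = m := by
    rw [← hdim]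
    exact hfin
  refine ⟨WF ⊔ E, ⟨hfin', hnd, hnP⟩, ?_⟩
  unfold StabM
  rw [Submodule.map_sup]
  refine sup_le_sup ?_ hEst
  rintro _ ⟨w, hw, rfl⟩
  rw [Matrix.toLin'_apply, (mem_FxM _ w).mp (hWF hw)]
  exact hw

theorem main (hIPos : IPos.{u}) (hTop : Cfsg.Agent.Lib.Helper41.TMStmt.Top.{u})
    (hFixND : Cfsg.Agent.Lib.Helper41.TMStmt.FixND.{u})
    (hFxType : Cfsg.Agent.Lib.Helper41.TMStmt.FxType.{u})
    (hTE : Cfsg.Agent.Lib.Helper41.TMStmt.TypeEven.{u})
    (hHO : Cfsg.Agent.Lib.Helper41.TMStmt.HalfOdd.{u})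
    (hOrth : Cfsg.Agent.Lib.Helper41.TMStmt.OrthSum.{u})
    (hCancel : CancelM.{u})
    (hDim : DimObsA.{u}) (hBlocks : BlocksA.{u}) (hSub : SubTypeE.{u}) : B1E.{u} := by
  intro F _ _ a₀ b₀ hab p _ _ d m hd hm2 hmev hmd r _ hr2 hrp hcond y hy hyr
  have hi : 0 < orderOf ((Fintype.card F : ℕ) : ZMod r) := hIPos F p r hrp
  obtain ⟨i, hidef⟩ : ∃ i : ℕ, i = orderOf ((Fintype.card F : ℕ) : ZMod r) := ⟨_, rfl⟩
  rw [← hidef] at hi hcond
  obtain ⟨c, hcdef⟩ : ∃ c : ℕ, c = cc i := ⟨_, rfl⟩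
  have hcpos : 0 < c := hcdef ▸ cc_pos hi
  have hceven : Even c := hcdef ▸ cc_even i
  have hcc : (Even i ∧ c = i) ∨ (Odd i ∧ c = 2 * i) := hcdef ▸ cc_cases i
  obtain ⟨f, hfdef⟩ : ∃ f : ℕ, f = Module.finrank F ↥(FxM (y : Matrix (M d) (M d) F)) :=
    ⟨_, rfl⟩
  have hVdim : Module.finrank F (M d → F) = 2 * d := by
    rw [Module.finrank_pi]
    simp
    omega
  have hfle : f ≤ 2 * d := by
    rw [hfdef, ← hVdim]
    exact Submodule.finrank_le _
  have hTopnd : NDegM d F a₀ b₀ ⊤ := (hTop F a₀ b₀ hab d).1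
  have hdvd : c ∣ 2 * d - f := by
    have h := hDim F a₀ b₀ hab p d r hr2 hrp y hy hyr ⊤ le_top hTopnd
    rw [top_inf_eq, finrank_top, hVdim, ← hidef, ← hcdef, ← hfdef] at h
    exact h
  obtain ⟨s, hs⟩ := hdvd
  have h2d : 2 * d = f + c * s := by omega
  have hYnd : NDegM d F a₀ b₀ (FxM (y : Matrix (M d) (M d) F)) :=
    hFixND F a₀ b₀ hab p d r hrp y hy hyr
  -- blocks with their type
  have hblock : ∀ j : ℕ, j ≤ s → ∃ E : Submodule F (M d → F),
      StabM (y : Matrix (M d) (M d) F) E ∧ NDegM d F a₀ b₀ E ∧ Module.finrank F ↥E = c * j ∧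
      (∀ u ∈ E, ∀ v ∈ FxM (y : Matrix (M d) (M d) F),
        QuadraticMap.polar (Cfsg.quadFormMinus (d - 1) F a₀ b₀) u v = 0) ∧
      (PlusM d F a₀ b₀ E ↔ (Odd i ∨ Even j)) := by
    intro j hj
    have hle : c * j ≤ c * s := Nat.mul_le_mul_left c hj
    obtain ⟨E, hEst, hEnd, hEdim, hEF, hEorth⟩ :=
      hBlocks F a₀ b₀ hab p d r hr2 hrp y hy hyr j (by
        rw [← hidef, ← hcdef, ← hfdef, mul_comm j c]
        omega)
    rw [← hidef, ← hcdef, mul_comm j c] at hEdim
    refine ⟨E, hEst, hEnd, hEdim, hEorth, ?_⟩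
    rcases hcc with ⟨hev, hci⟩ | ⟨hodd, hci⟩
    · have h : PlusM d F a₀ b₀ E ↔ Even (Module.finrank F ↥E / i) := by
        rw [hidef]
        exact hTE F a₀ b₀ hab p d r hr2 hrp (hidef ▸ hev) y hy hyr E hEst hEnd hEF
      rw [hEdim, hci, Nat.mul_div_cancel_left j hi] at h
      constructor
      · intro hP
        exact Or.inr (h.mp hP)
      · rintro (ho | he)
        · exact absurd hev (Nat.not_even_iff_odd.mpr ho)
        · exact h.mpr he
    · obtain ⟨U, hUle, -, hUts, hUdim⟩ :=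
        hHO F a₀ b₀ hab p d r hr2 hrp (hidef ▸ hodd) y hy hyr E hEst hEnd hEF
      constructor
      · intro _
        exact Or.inl hodd
      · intro _
        exact ⟨U, hUle, hUts, hUdim⟩
  -- free choice of the type inside the fixed space
  have hfree : ∀ j e : ℕ, j ≤ s → e + c * j = m → Even e → (e ≠ 0 → e < f) →
      ((Odd i ∨ Even j) → e ≠ 0) →
      ∃ W : Submodule F (M d → F),
        MemEM d F a₀ b₀ m W ∧ StabM (y : Matrix (M d) (M d) F) W := by
    intro j e hj hsum heven hlt hne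
    obtain ⟨E, hEst, hEnd, hEdim, hEorth, hEtype⟩ := hblock j hj
    by_cases he0 : e = 0
    · have hnP : ¬ PlusM d F a₀ b₀ E := fun hP => hne (hEtype.mp hP) he0
      have hEm : Module.finrank F ↥E = m := by
        rw [hEdim]
        omega
      exact ⟨E, ⟨hEm, hEnd, hnP⟩, hEst⟩
    · have hef : e < Module.finrank F ↥(FxM (y : Matrix (M d) (M d) F)) := by
        rw [← hfdef]
        exact hlt he0
      obtain ⟨⟨Wp, hWpU, hWpdim, hWpnd, hWpP⟩, hell⟩ :=
        hSub F a₀ b₀ hab d e (FxM (y : Matrix (M d) (M d) F)) hYnd heven hef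
      by_cases hP : PlusM d F a₀ b₀ E
      · have h2e : 2 ≤ e := by
          obtain ⟨a, ha⟩ := heven
          omega
        obtain ⟨Wm, hWmU, hWmM⟩ := hell h2e
        obtain ⟨hWmdim, hWmnd, hWmnP⟩ := hWmM
        exact glue hCancel hOrth a₀ b₀ hab (y : Matrix (M d) (M d) F) Wm E m hWmU hWmnd hEst
          hEnd hEorth (by rw [hWmdim, hEdim]; exact hsum)
          ⟨fun h => absurd h hWmnP, fun h => absurd hP h⟩
      · exact glue hCancel hOrth a₀ b₀ hab (y : Matrix (M d) (M d) F) Wp E m hWpU hWpnd hEst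
          hEnd hEorth (by rw [hWpdim, hEdim]; exact hsum)
          ⟨fun _ => hP, fun _ => hWpP⟩
  -- the type of the fixed space
  have hFx : PlusM d F a₀ b₀ (FxM (y : Matrix (M d) (M d) F)) ↔
      (Even i ∧ Odd ((2 * d - f) / i)) := by
    rw [hidef, hfdef]
    exact hFxType F a₀ b₀ hab p d r (by omega) hr2 hrp y hy hyr
  -- no fixed vectors: `i` even and `2 d / i` odd
  have hf0 : f = 0 → Even i ∧ Odd (2 * d / i) := by
    intro hf0
    have hbot : FxM (y : Matrix (M d) (M d) F) = ⊥ := by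
      apply Submodule.finrank_eq_zero.mp
      rw [← hfdef]
      exact hf0
    have hP : PlusM d F a₀ b₀ (FxM (y : Matrix (M d) (M d) F)) := by
      refine ⟨⊥, bot_le, ?_, ?_⟩
      · intro w hw
        rw [(Submodule.mem_bot F).mp hw]
        show minusQ (d - 1) F a₀ b₀ 0 = 0
        exact map_zero _
      · rw [hbot]
        simp
    have h := hFx.mp hP
    rw [hf0, Nat.sub_zero] at h
    exact h
  -- the whole fixed space
  have hforced : ∀ j : ℕ, j ≤ s → f + c * j = m → (Odd i ∨ (Even i ∧ Even (s + j))) →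
      ∃ W : Submodule F (M d → F),
        MemEM d F a₀ b₀ m W ∧ StabM (y : Matrix (M d) (M d) F) W := by
    intro j hj hsum hcase
    obtain ⟨E, hEst, hEnd, hEdim, hEorth, hEtype⟩ := hblock j hj
    refine glue hCancel hOrth a₀ b₀ hab (y : Matrix (M d) (M d) F)
      (FxM (y : Matrix (M d) (M d) F)) E m le_rfl hYnd hEst hEnd hEorth
      (by rw [← hfdef, hEdim]; exact hsum) ?_
    rcases hcase with ho | ⟨hev, hsj⟩
    · constructor
      · intro hP
        exact absurd (hFx.mp hP).1 (Nat.not_even_iff_odd.mpr ho)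
      · intro hnE
        exact absurd (hEtype.mpr (Or.inl ho)) hnE
    · have hci : c = i := by
        rcases hcc with ⟨_, h⟩ | ⟨ho, _⟩
        · exact h
        · exact absurd hev (Nat.not_even_iff_odd.mpr ho)
      have hq : (2 * d - f) / i = s := by
        have h1 : 2 * d - f = i * s := by
          rw [← hci]
          omega
        rw [h1, Nat.mul_div_cancel_left s hi]
      rw [hq] at hFx
      constructor
      · intro hP hPE
        have h1 : Odd s := (hFx.mp hP).2
        have h2 : Even j := by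
          rcases hEtype.mp hPE with ho | he
          · exact absurd hev (Nat.not_even_iff_odd.mpr ho)
          · exact he
        exact (Nat.not_even_iff_odd.mpr (h1.add_even h2)) hsj
      · intro hnPE
        apply hFx.mpr
        refine ⟨hev, ?_⟩
        have h2 : Odd j := by
          rcases Nat.even_or_odd j with h | h
          · exact absurd (hEtype.mpr (Or.inr h)) hnPE
          · exact h
        rcases Nat.even_or_odd s with h | h
        · exact absurd hsj (Nat.not_even_iff_odd.mpr (h.add_odd h2))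
        · exact h
  -- arithmetic
  by_cases hA : c * s < m
  · have hcs : Even (c * s) := hceven.mul_right s
    have hev : Even (m - c * s) :=
      (Nat.even_sub (le_of_lt hA)).mpr ⟨fun _ => hcs, fun _ => hmev⟩
    exact hfree s (m - c * s) le_rfl (by omega) hev (fun _ => by omega) (fun _ => by omega)
  have hA' : m ≤ c * s := not_lt.mp hA
  obtain ⟨μ, hμdef⟩ : ∃ μ : ℕ, μ = m / c := ⟨_, rfl⟩
  obtain ⟨l, hldef⟩ : ∃ l : ℕ, l = m % c := ⟨_, rfl⟩
  have hm : c * μ + l = m := by
    rw [hμdef, hldef]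
    exact Nat.div_add_mod m c
  have hl : l < c := by
    rw [hldef]
    exact Nat.mod_lt m hcpos
  obtain ⟨t, htdef⟩ : ∃ t : ℕ, t = f / c := ⟨_, rfl⟩
  obtain ⟨k, hkdef⟩ : ∃ k : ℕ, k = f % c := ⟨_, rfl⟩
  have hf : c * t + k = f := by
    rw [htdef, hkdef]
    exact Nat.div_add_mod f c
  have hk : k < c := by
    rw [hkdef]
    exact Nat.mod_lt f hcpos
  have hmod : (2 * d) % c = k := by
    rw [h2d, Nat.add_mul_mod_self_left, hkdef]
  have hμs : μ ≤ s := by
    apply Nat.le_of_mul_le_mul_left _ hcpos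
    omega
  have hleven : Even l := by
    have h1 : Even (c * μ) := hceven.mul_right μ
    have h2 : Even (c * μ + l) := hm.symm ▸ hmev
    exact (Nat.even_add.mp h2).mp h1
  have hμpos : l = 0 → 0 < μ := by
    intro hl0
    rcases Nat.eq_zero_or_pos μ with h | h
    · rw [h, mul_zero] at hm
      omega
    · exact h
  -- `c ≤ f` when `k = 0` and `f ≠ 0`
  have hcf : k = 0 → f ≠ 0 → c ≤ f := by
    intro hk0 hfne
    have htpos : 1 ≤ t := by
      rcases Nat.eq_zero_or_pos t with h | h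
      · rw [h, mul_zero] at hf
        omega
      · exact h
    have := Nat.mul_le_mul_left c htpos
    omega
  -- `l ≠ 0`, `l < f`
  have hB1 : l ≠ 0 → l < f →
      ∃ W : Submodule F (M d → F),
        MemEM d F a₀ b₀ m W ∧ StabM (y : Matrix (M d) (M d) F) W := by
    intro hl0 hlf
    exact hfree μ l hμs (by omega) hleven (fun _ => hlf) (fun _ => hl0)
  -- `l = 0`, `μ` odd, `i` even
  have hB3 : l = 0 → Even i → Odd μ →
      ∃ W : Submodule F (M d → F),
        MemEM d F a₀ b₀ m W ∧ StabM (y : Matrix (M d) (M d) F) W := by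
    intro hl0 hev hμo
    refine hfree μ 0 hμs (by omega) ⟨0, rfl⟩ (fun h => absurd rfl h) ?_
    rintro (ho | he)
    · exact absurd hev (Nat.not_even_iff_odd.mpr ho)
    · exact absurd he (Nat.not_even_iff_odd.mpr hμo)
  unfold CondEM at hcond
  rw [← hcdef, hmod, ← hldef] at hcond
  rcases hcond with ⟨ho, hk0 | ⟨_, h1, h2⟩⟩ |
    ⟨hev, ⟨hk0, heven2 | ⟨hl0, hoddm⟩⟩ |
      ⟨hkpos, _, ⟨h1, h2⟩ | ⟨hl0, hoddm⟩ | ⟨hlk, heven3⟩⟩⟩
  · -- `i` odd, `k = 0`
    have hfne : f ≠ 0 := fun h0 => absurd (hf0 h0).1 (Nat.not_even_iff_odd.mpr ho)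
    have hcf' := hcf hk0 hfne
    by_cases hl0 : l = 0
    · have hμ1 : 0 < μ := hμpos hl0
      obtain ⟨μ', hμ'⟩ : ∃ μ' : ℕ, μ = μ' + 1 := ⟨μ - 1, by omega⟩
      have hmul : c * μ = c * μ' + c := by rw [hμ', Nat.mul_succ]
      by_cases hlt : c < f
      · exact hfree μ' c (by omega) (by omega) hceven (fun _ => hlt) (fun _ => by omega)
      · exact hforced μ' (by omega) (by omega) (Or.inl ho)
    · exact hB1 hl0 (by omega)
  · -- `i` odd, `0 < l ≤ k`
    by_cases hlf : l < f
    · exact hB1 (by omega) hlf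
    · exact hforced μ hμs (by omega) (Or.inl ho)
  · -- `i` even, `k = 0`, `2 d / i` even
    have hci : c = i := by
      rcases hcc with ⟨_, h⟩ | ⟨ho, _⟩
      · exact h
      · exact absurd hev (Nat.not_even_iff_odd.mpr ho)
    have hfne : f ≠ 0 := fun h0 => absurd heven2 (Nat.not_even_iff_odd.mpr (hf0 h0).2)
    have hcf' := hcf hk0 hfne
    by_cases hl0 : l = 0
    · rcases Nat.even_or_odd μ with hμe | hμo
      · have hμ1 : 0 < μ := hμpos hl0
        obtain ⟨μ', hμ'⟩ : ∃ μ' : ℕ, μ = μ' + 1 := ⟨μ - 1, by omega⟩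
        have hmul : c * μ = c * μ' + c := by rw [hμ', Nat.mul_succ]
        by_cases hlt : c < f
        · exact hfree μ' c (by omega) (by omega) hceven (fun _ => hlt) (fun _ => by omega)
        · have hfc : f = c := by omega
          have h2di : 2 * d / i = s + 1 := by
            have h3 : 2 * d = i * (s + 1) := by
              rw [Nat.mul_succ, ← hci]
              omega
            rw [h3, Nat.mul_div_cancel_left _ hi]
          rw [h2di] at heven2
          have heven' : Even (s + μ') := by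
            obtain ⟨a, ha⟩ := heven2
            obtain ⟨b, hb⟩ := hμe
            exact ⟨a + b - 1, by omega⟩
          exact hforced μ' (by omega) (by omega) (Or.inr ⟨hev, heven'⟩)
      · exact hB3 hl0 hev hμo
    · exact hB1 hl0 (by omega)
  · -- `i` even, `k = 0`, `l = 0`, `m / i` odd
    have hci : c = i := by
      rcases hcc with ⟨_, h⟩ | ⟨ho, _⟩
      · exact h
      · exact absurd hev (Nat.not_even_iff_odd.mpr ho)
    have hmi : m / i = μ := by
      rw [← hm, hl0, add_zero, hci, Nat.mul_div_cancel_left μ hi]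
    rw [hmi] at hoddm
    exact hB3 hl0 hev hoddm
  · -- `0 < l < k`
    exact hB1 (by omega) (by omega)
  · -- `l = 0`, `0 < k`, `m / i` odd
    have hci : c = i := by
      rcases hcc with ⟨_, h⟩ | ⟨ho, _⟩
      · exact h
      · exact absurd hev (Nat.not_even_iff_odd.mpr ho)
    have hmi : m / i = μ := by
      rw [← hm, hl0, add_zero, hci, Nat.mul_div_cancel_left μ hi]
    rw [hmi] at hoddm
    exact hB3 hl0 hev hoddm
  · -- `0 < l = k`
    have hci : c = i := by
      rcases hcc with ⟨_, h⟩ | ⟨ho, _⟩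
      · exact h
      · exact absurd hev (Nat.not_even_iff_odd.mpr ho)
    by_cases hlf : l < f
    · exact hB1 (by omega) hlf
    · have hfk : f = k := by omega
      have h3 : 2 * d + m - 2 * k = i * (s + μ) := by
        rw [Nat.mul_add, ← hci]
        omega
      rw [h3, Nat.mul_div_cancel_left _ hi] at heven3
      exact hforced μ hμs (by omega) (Or.inr ⟨hev, heven3⟩)

end Cfsg.Agent.Lib.Helper66.EMB1E
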