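import Mathlib
import Cfsg.Agent.Lib.Helper23.HNStmt
import Cfsg.Agent.Lib.Helper54.FpfCyclic
import Cfsg.Agent.Lib.Helper54.UniqueSubgroup

/-!
# S1438 / CYCP (helper66, third seat): a finite commutative subgroup without `Z_p × Z_p` is cyclic
-/

set_option autoImplicit false

namespace Cfsg.Agent.Lib.Helper66.HNCYCP

universe u

open Cfsg.Agent.Lib.Helper23.HNStmt

theorem main : CycPure.{u} := by
  intro G _ _ X hX hno
  have hUI : ∀ (p : ℕ) [Fact p.Prime], Cfsg.Agent.Lib.Helper54.UniqueSubgroup.UI p ↥X := by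
    intro p hp g h hg hh hg1
    have hpp : p.Prime := hp.out
    let E : Subgroup G :=
      { carrier := {x | x ∈ X ∧ x ^ p = 1}
        mul_mem' := by
          intro a b ha hb
          refine ⟨X.mul_mem ha.1 hb.1, ?_⟩
          have hc : Commute a b := hX a ha.1 b hb.1
          rw [hc.mul_pow, ha.2, hb.2, one_mul]
        one_mem' := ⟨X.one_mem, one_pow p⟩
        inv_mem' := by
          intro a ha
          exact ⟨X.inv_mem ha.1, by rw [inv_pow, ha.2, inv_one]⟩ }
    have hEX : E ≤ X := fun x hx => hx.1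
    have hEp : ∀ x ∈ E, x ^ p = 1 := fun x hx => hx.2
    have hE : IsPGroup p ↥E := by
      intro x
      refine ⟨1, Subtype.ext ?_⟩
      rw [pow_one, Subgroup.coe_pow, Subgroup.coe_one]
      exact x.2.2
    obtain ⟨k, hk⟩ := IsPGroup.iff_card.1 hE
    have hgE : (g : G) ∈ E := ⟨g.2, by rw [← Subgroup.coe_pow, hg, Subgroup.coe_one]⟩
    have hhE : (h : G) ∈ E := ⟨h.2, by rw [← Subgroup.coe_pow, hh, Subgroup.coe_one]⟩
    rcases Nat.lt_or_ge k 2 with hk2 | hk2
    · have hcardE : Nat.card ↥E ≤ p := by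
        rw [hk]
        calc p ^ k ≤ p ^ 1 := Nat.pow_le_pow_right hpp.pos (by omega)
          _ = p := pow_one p
      have hg1' : (g : G) ≠ 1 := fun h0 => hg1 (Subtype.ext h0)
      have hog : orderOf (g : G) = p := orderOf_eq_prime hgE.2 hg1'
      have hZ : Subgroup.zpowers (g : G) = E := by
        apply Subgroup.eq_of_le_of_card_ge (Subgroup.zpowers_le.2 hgE)
        rw [Nat.card_zpowers, hog]; exact hcardE
      have hh2 : (h : G) ∈ Subgroup.zpowers (g : G) := by rw [hZ]; exact hhE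
      obtain ⟨i, hi⟩ := Subgroup.mem_zpowers_iff.1 hh2
      exact Subgroup.mem_zpowers_iff.2 ⟨i, Subtype.ext (by rw [Subgroup.coe_zpow]; exact hi)⟩
    · exfalso
      have hdvd : p ^ 2 ∣ Nat.card ↥E := by rw [hk]; exact pow_dvd_pow p hk2
      obtain ⟨K, hK⟩ := Sylow.exists_subgroup_card_pow_prime p hdvd
      refine hno p (K.map E.subtype) hpp ?_ ?_ ?_
      · rintro _ ⟨x, -, rfl⟩; exact hEX x.2
      · rintro _ ⟨x, -, rfl⟩; exact hEp _ x.2
      · rw [Subgroup.card_subtype]; exact hK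
  apply Cfsg.Agent.Lib.Helper54.FpfCyclic.isCyclic_of_comm_of_sylow (A := ↥X)
    (fun a b => Subtype.ext (hX a a.2 b b.2))
  intro p _ P
  exact Cfsg.Agent.Lib.Helper54.UniqueSubgroup.isCyclic_of_comm (G := ↥(P : Subgroup ↥X))
    P.isPGroup' ((hUI p).subgroup (P : Subgroup ↥X))
    (fun x y => Subtype.ext (Subtype.ext (hX _ x.1.2 _ y.1.2)))

end Cfsg.Agent.Lib.Helper66.HNCYCP
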