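import Mathlib
import Cfsg.Prelude.Def_KGroupFacts

set_option autoImplicit false
open scoped commutatorElement

namespace Cfsg.Agent.Lib.Helper66.Heis

/-- A Heisenberg-type group on `ZMod m × ZMod n × ZMod n`, for `n ∣ m`. -/
@[ext]
structure Heis (m n : ℕ) (h : n ∣ m) where
  a : ZMod m
  b : ZMod n
  c : ZMod n

variable {m n : ℕ} {h : n ∣ m}

/-- Reduction `ZMod m → ZMod n`. -/
noncomputable def red (h : n ∣ m) : ZMod m →+* ZMod n := ZMod.castHom h (ZMod n)

noncomputable instance : Mul (Heis m n h) :=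
  ⟨fun x y => ⟨x.a + y.a, x.b + y.b, x.c + y.c + red h x.a * y.b⟩⟩

instance : One (Heis m n h) := ⟨⟨0, 0, 0⟩⟩

noncomputable instance : Inv (Heis m n h) :=
  ⟨fun x => ⟨-x.a, -x.b, -x.c + red h x.a * x.b⟩⟩

@[simp] theorem mul_a (x y : Heis m n h) : (x * y).a = x.a + y.a := rfl
@[simp] theorem mul_b (x y : Heis m n h) : (x * y).b = x.b + y.b := rfl
@[simp] theorem mul_c (x y : Heis m n h) : (x * y).c = x.c + y.c + red h x.a * y.b := rfl
@[simp] theorem one_a : (1 : Heis m n h).a = 0 := rfl
@[simp] theorem one_b : (1 : Heis m n h).b = 0 := rfl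
@[simp] theorem one_c : (1 : Heis m n h).c = 0 := rfl
@[simp] theorem inv_a (x : Heis m n h) : (x⁻¹).a = -x.a := rfl
@[simp] theorem inv_b (x : Heis m n h) : (x⁻¹).b = -x.b := rfl
@[simp] theorem inv_c (x : Heis m n h) : (x⁻¹).c = -x.c + red h x.a * x.b := rfl

noncomputable instance : Group (Heis m n h) :=
  Group.ofLeftAxioms
    (by
      intro x y z
      ext
      · simp [add_assoc]
      · simp [add_assoc]
      · simp only [mul_c, mul_a, mul_b, map_add]; ring)
    (by
      intro x
      ext <;> simp)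
    (by
      intro x
      ext
      · simp
      · simp
      · simp only [mul_c, inv_c, inv_a, one_c, map_neg]; ring)

/-- The underlying equivalence with a product. -/
def equivProd (m n : ℕ) (h : n ∣ m) : Heis m n h ≃ ZMod m × ZMod n × ZMod n where
  toFun x := (x.a, x.b, x.c)
  invFun t := ⟨t.1, t.2.1, t.2.2⟩
  left_inv _ := rfl
  right_inv _ := rfl

instance [NeZero m] [NeZero n] : Finite (Heis m n h) := Finite.of_equiv _ (equivProd m n h).symm

/-- The projection onto `ZMod m × ZMod n`. -/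
noncomputable def proj (m n : ℕ) (h : n ∣ m) : Heis m n h →* Multiplicative (ZMod m × ZMod n) where
  toFun x := Multiplicative.ofAdd (x.a, x.b)
  map_one' := rfl
  map_mul' _ _ := rfl

theorem proj_apply (x : Heis m n h) : proj m n h x = Multiplicative.ofAdd (x.a, x.b) := rfl

theorem proj_surjective : Function.Surjective (proj m n h) := by
  intro t
  exact ⟨⟨t.toAdd.1, t.toAdd.2, 0⟩, rfl⟩

theorem mem_ker_proj (x : Heis m n h) : x ∈ (proj m n h).ker ↔ x.a = 0 ∧ x.b = 0 := by
  rw [MonoidHom.mem_ker, proj_apply]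
  constructor
  · intro hx
    have : (x.a, x.b) = (0, 0) := Multiplicative.ofAdd.injective hx
    exact ⟨congrArg Prod.fst this, congrArg Prod.snd this⟩
  · rintro ⟨ha, hb⟩
    rw [ha, hb]; rfl

theorem ker_proj_le_center : (proj m n h).ker ≤ Subgroup.center (Heis m n h) := by
  intro x hx
  rw [mem_ker_proj] at hx
  rw [Subgroup.mem_center_iff]
  intro y
  ext
  · simp [hx.1]
  · simp [hx.2]
  · simp only [mul_c, hx.1, hx.2, map_zero]; ring

/-- A central element `(0, 0, c)` is a commutator. -/
theorem central_eq_commutator (c : ZMod n) :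
    (⟨0, 0, c⟩ : Heis m n h) = ⁅(⟨1, 0, 0⟩ : Heis m n h), (⟨0, c, 0⟩ : Heis m n h)⁆ := by
  rw [commutatorElement_def]
  ext
  · simp
  · simp
  · simp

theorem ker_proj_le_commutator : (proj m n h).ker ≤ commutator (Heis m n h) := by
  intro x hx
  rw [mem_ker_proj] at hx
  have : x = ⟨0, 0, x.c⟩ := by ext <;> simp [hx.1, hx.2]
  rw [this, central_eq_commutator]
  exact Subgroup.commutator_mem_commutator (Subgroup.mem_top _) (Subgroup.mem_top _)

theorem proj_isStemExtension : Cfsg.IsStemExtension (proj m n h) :=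
  ⟨proj_surjective, ker_proj_le_center, ker_proj_le_commutator⟩

/-- The kernel of the projection is `ZMod n`. -/
noncomputable def kerEquiv (m n : ℕ) (h : n ∣ m) : (proj m n h).ker ≃* Multiplicative (ZMod n) where
  toFun x := Multiplicative.ofAdd x.1.c
  invFun c := ⟨⟨0, 0, c.toAdd⟩, by rw [mem_ker_proj]; exact ⟨rfl, rfl⟩⟩
  left_inv x := by
    have hx := (mem_ker_proj x.1).mp x.2
    apply Subtype.ext
    ext
    · exact hx.1.symm
    · exact hx.2.symm
    · rfl
  right_inv c := rfl
  map_mul' x y := by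
    have hy := (mem_ker_proj y.1).mp y.2
    show Multiplicative.ofAdd ((x.1 * y.1).c) = Multiplicative.ofAdd x.1.c * Multiplicative.ofAdd y.1.c
    rw [mul_c, hy.2, mul_zero, add_zero]
    rfl

end Cfsg.Agent.Lib.Helper66.Heis
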