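import Mathlib
import Cfsg.Prelude.Def_KGroupFacts
import Cfsg.Agent.Lib.Helper66.Hopf

set_option autoImplicit false

/-!
# More consequences of the Hopf machinery (helper66)
-/

namespace Cfsg.Agent.Lib.Helper66.Hopf2

open scoped commutatorElement
open Cfsg.Agent.Lib.Helper66

universe u v w

/-- In a central extension `ξ : X → G` with lift `θ : E → X`, the image of `T` is exactly
`X' ⊓ ker ξ`. -/
theorem map_T_eq {α : Type u} {G : Type v} [Group G] (π : FreeGroup α →* G)
    (hπ : Function.Surjective π) {X : Type w} [Group X] (ξ : X →* G)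
    (hc : ξ.ker ≤ Subgroup.center X) (θ : Hopf.E π →* X) (hθ : ξ.comp θ = Hopf.πE π) :
    (Hopf.T π).map θ = _root_.commutator X ⊓ ξ.ker := by
  apply le_antisymm
  · refine le_inf ?_ (Hopf.map_T_le_ker π ξ θ hθ)
    rintro _ ⟨t, ht, rfl⟩
    have h1 : θ t ∈ Subgroup.map θ ⁅(⊤ : Subgroup (Hopf.E π)), (⊤ : Subgroup (Hopf.E π))⁆ :=
      ⟨t, by rw [← commutator_def]; exact Hopf.T_le_commutator π ht, rfl⟩
    rw [Subgroup.map_commutator] at h1
    rw [commutator_def]
    exact Subgroup.commutator_mono le_top le_top h1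
  · exact Hopf.commutator_inf_ker_le π hπ ξ hc θ hθ

/-- For any central extension `ξ : X → G` of a finite group `G` with Schur multiplier `A`,
the subgroup `X' ⊓ ker ξ` is a homomorphic image of `A`. -/
theorem exists_hom_of_hasSchurMultiplier {G : Type u} [Group G] [Finite G] {A : Type v}
    [CommGroup A] (hA : Cfsg.HasSchurMultiplier G A) {X : Type w} [Group X] (ξ : X →* G)
    (hξ : Function.Surjective ξ) (hc : ξ.ker ≤ Subgroup.center X) :
    ∃ f : A →* X, ∀ x : X, x ∈ _root_.commutator X ⊓ ξ.ker ↔ ∃ a, f a = x := by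
  obtain ⟨e⟩ := Hopf.equiv_T_of_hasSchurMultiplier (Hopf.can G) (Hopf.can_surjective G) hA
  obtain ⟨θ, hθ⟩ := Hopf.exists_lift (Hopf.can G) ξ hξ hc
  have hmap := map_T_eq (Hopf.can G) (Hopf.can_surjective G) ξ hc θ hθ
  refine ⟨(θ.comp (Hopf.T (Hopf.can G)).subtype).comp e.toMonoidHom, ?_⟩
  intro x
  rw [← hmap]
  constructor
  · rintro ⟨t, ht, rfl⟩
    exact ⟨e.symm ⟨t, ht⟩, by simp⟩
  · rintro ⟨a, rfl⟩
    exact ⟨(e a : Hopf.E (Hopf.can G)), (e a).2, rfl⟩

end Cfsg.Agent.Lib.Helper66.Hopf2
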