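import Cfsg.Agent.Lib.Helper60.J2PermData
import Cfsg.Agent.Lib.Helper66.PermTabN
import Cfsg.Agent.Lib.Helper66.ExtraCard
import Cfsg.Agent.Lib.Helper66.ESA5
import Cfsg.Agent.Lib.Helper66.J2CentData

set_option autoImplicit false

/-!
# The stabiliser of a point in the 315-point model of the Hall-Janko group

`g 0, ..., g 3` are permutations of 315 points whose tables are the rows of `j2Tab`, and
`R a` is a family of permutations indexed by the points, equivariant under the group `G`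
generated by the `g t`, with `R 0 = g 0` and `R a` fixing `a` (for the Hall-Janko group: the
315 reflections acting by conjugation on themselves).  If `G` is transitive of order 604800,
the stabiliser of the point 0 has a normal extraspecial subgroup of order 32 with quotient
the alternating group of degree 5.
-/

namespace Cfsg.Agent.Lib.Helper66.J2Cent

open Cfsg Cfsg.Agent.H60J2 Cfsg.Agent.Lib.Helper66.PermTabN Cfsg.Agent.Lib.Helper66.J2CentData
  Cfsg.Agent.Lib.Helper66.ExtraCard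

/-- The rows of the table of generators. -/
def row (t : ℕ) : List Nat := j2Tab.getD t []

theorem row_length : ∀ t : Fin 4, (row (t : ℕ)).length = 315 := by decide +kernel

theorem tm (π ρ : Equiv.Perm (Fin 315)) : tab (π * ρ) = tmulF (tab π) (tab ρ) :=
  tab_mulF (by norm_num) π ρ

/-- The table of a word in the generators. -/
def wt (w : List (Fin 4)) : List Nat :=
  w.foldr (fun t acc => tmulF (row (t : ℕ)) acc) (List.range 315)

/-- The table of the conjugate of generator 0 by a word. -/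
def rT (w : List (Fin 4)) : List Nat := tmulF (tmulF (wt w) (row 0)) (wt w.reverse)

def Rg (k : ℕ) : List Nat := RL.getD k []

def Lg (n : ℕ) : List Nat := LL.getD n []

def wd (k : ℕ) : List (Fin 4) := words.getD k []

/-! ### Kernel checks -/

theorem chk_inv : ∀ t : Fin 4, tmulF (row t) (row t) = List.range 315 := by decide +kernel

theorem chk_R : ∀ k : Fin 11, rT (wd k) = Rg k := by decide +kernel

theorem chk_fix : ∀ k : Fin 11, (wt (wd k)).getD 0 0 = fixL.getD k 0 := by decide +kernel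

theorem chk_fixed : ∀ k : Fin 11, (row 0).getD (fixL.getD k 0) 0 = fixL.getD k 0 := by
  decide +kernel

theorem chk_allfix : ∀ i : Fin 315, (row 0).getD i 0 = i → ∃ k : Fin 11, fixL.getD k 0 = i := by
  decide +kernel

theorem chk_Rne : ∀ k : Fin 11, Rg k = row 0 → fixL.getD k 0 = 0 := by decide +kernel

theorem chk_Rsq : ∀ k : Fin 11, tmulF (Rg k) (Rg k) = List.range 315 := by decide +kernel

theorem chk_LL : ∀ n : Fin 32, Lg n = tmulF (Rg (wi.getD n 0)) (Rg (wj.getD n 0)) := by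
  decide +kernel

theorem chk_w : ∀ n : Fin 32, wi.getD n 0 < 11 ∧ wj.getD n 0 < 11 := by decide +kernel

theorem chk_one : Lg 0 = List.range 315 := by decide +kernel

theorem chk_cl : ∀ k : Fin 11, ∀ n : Fin 32, (cl.getD k []).getD n 0 < 32 := by decide +kernel

theorem chk_closed : ∀ k : Fin 11, ∀ n : Fin 32,
    tmulF (Rg k) (Lg n) = Lg ((cl.getD k []).getD n 0) := by decide +kernel

theorem chk_inj : ∀ n n' : Fin 32, Lg n = Lg n' → n = n' := by decide +kernel

theorem chk_sq : ∀ n : Fin 32,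
    tmulF (Lg n) (Lg n) = List.range 315 ∨ tmulF (Lg n) (Lg n) = row 0 := by decide +kernel

theorem chk_cw : ∀ n : Fin 32, cw.getD n 0 < 11 := by decide +kernel

theorem chk_cent : ∀ n : Fin 32, Lg n = List.range 315 ∨ Lg n = row 0 ∨
    tmulF (Lg n) (Rg (cw.getD n 0)) ≠ tmulF (Rg (cw.getD n 0)) (Lg n) := by decide +kernel

theorem chk_nc : tmulF (Rg 1) (Rg 2) ≠ tmulF (Rg 2) (Rg 1) := by decide +kernel

theorem chk_x0 : (wt wx).getD 0 0 = 0 := by decide +kernel

theorem chk_y0 : (wt wy).getD 0 0 = 0 := by decide +kernel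

theorem chk_x3 : tmulF (tmulF (wt wx) (wt wx)) (wt wx) = List.range 315 := by decide +kernel

theorem chk_y5 : tmulF (tmulF (tmulF (tmulF (wt wy) (wt wy)) (wt wy)) (wt wy)) (wt wy)
    = List.range 315 := by decide +kernel

theorem chk_xy : tmulF (tmulF (wt wx) (wt wy)) (tmulF (wt wx) (wt wy)) = List.range 315 := by
  decide +kernel

theorem chk_y1 : wt wy ≠ List.range 315 := by decide +kernel

theorem chk_g0 : row 0 ≠ List.range 315 := by decide +kernel

theorem wt_nil : wt [] = List.range 315 := by simp [wt]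

theorem wt_cons (t : Fin 4) (w : List (Fin 4)) : wt (t :: w) = tmulF (row (t : ℕ)) (wt w) := by
  simp [wt]

theorem apply_eq (π : Equiv.Perm (Fin 315)) (i : Fin 315) :
    ((π i : Fin 315) : ℕ) = (tab π).getD (i : ℕ) 0 := (tab_getD π i).symm

/-! ### Commutators from squares -/

theorem comm_of_sq {K : Type*} [Group K] (Q : Subgroup K) (t : K) (ht2 : t * t = 1)
    (htc : ∀ q ∈ Q, t * q = q * t) (hsq : ∀ x ∈ Q, x * x = 1 ∨ x * x = t) :
    ∀ x ∈ Q, ∀ y ∈ Q, x * y = y * x ∨ x * y = t * (y * x) := by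
  intro x hx y hy
  have hZmul : ∀ z z' : K, (z = 1 ∨ z = t) → (z' = 1 ∨ z' = t) → (z * z' = 1 ∨ z * z' = t) := by
    rintro z z' (rfl | rfl) (rfl | rfl)
    · left; rw [mul_one]
    · right; rw [one_mul]
    · right; rw [mul_one]
    · left; exact ht2
  have hZc : ∀ z : K, (z = 1 ∨ z = t) → ∀ q ∈ Q, z * q = q * z := by
    rintro z (rfl | rfl) q hq
    · rw [one_mul, mul_one]
    · exact htc q hq
  have hinv : ∀ q ∈ Q, ∃ e : K, (e = 1 ∨ e = t) ∧ q⁻¹ = e * q := by
    intro q hq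
    rcases hsq q hq with h | h
    · exact ⟨1, Or.inl rfl, by rw [one_mul]; exact inv_eq_of_mul_eq_one_right h⟩
    · refine ⟨t, Or.inr rfl, ?_⟩
      apply inv_eq_of_mul_eq_one_right
      rw [← mul_assoc, ← htc q hq, mul_assoc, h, ht2]
  obtain ⟨ex, hex, hxi⟩ := hinv x hx
  obtain ⟨ey, hey, hyi⟩ := hinv y hy
  have hec := hsq (x * y) (Q.mul_mem hx hy)
  obtain ⟨ec, hec', hc⟩ : ∃ ec : K, (ec = 1 ∨ ec = t) ∧ x * y * (x * y) = ec := ⟨_, hec, rfl⟩
  have key : y * x = x⁻¹ * (x * y * (x * y)) * y⁻¹ := by group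
  have h1 : y * x = (ex * ec * ey) * (x * y) := by
    rw [key, hc, hxi, hyi]
    have e1 := hZc ec hec' x hx
    have e2 := hZc ey hey x hx
    calc ex * x * ec * (ey * y) = ex * (x * ec) * ey * y := by group
      _ = ex * (ec * x) * ey * y := by rw [e1]
      _ = ex * ec * (x * ey) * y := by group
      _ = ex * ec * (ey * x) * y := by rw [e2]
      _ = ex * ec * ey * (x * y) := by group
  rcases hZmul _ _ (hZmul _ _ hex hec') hey with h | h
  · left
    rw [h1, h, one_mul]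
  · right
    rw [h1, h, ← mul_assoc, ht2, one_mul]

/-! ### A general orbit-stabiliser count -/

theorem card_stab {α : Type*} [Fintype α] (H : Subgroup (Equiv.Perm α)) (a : α)
    (htr : ∀ b, ∃ σ ∈ H, σ a = b) :
    Nat.card ↥(H ⊓ MulAction.stabilizer (Equiv.Perm α) a) * Fintype.card α = Nat.card H := by
  classical
  have h1 : (H ⊓ MulAction.stabilizer (Equiv.Perm α) a).subgroupOf H
      = MulAction.stabilizer ↥H a := by
    ext ⟨σ, hσ⟩
    rw [Subgroup.mem_subgroupOf, MulAction.mem_stabilizer_iff, Subgroup.mem_inf,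
      MulAction.mem_stabilizer_iff]
    constructor
    · rintro ⟨-, h⟩
      exact h
    · intro h
      exact ⟨hσ, h⟩
  have h2 : Nat.card ↥(H ⊓ MulAction.stabilizer (Equiv.Perm α) a)
      = Nat.card (MulAction.stabilizer ↥H a) := by
    rw [← h1]
    exact (Nat.card_congr (Subgroup.subgroupOfEquivOfLe inf_le_left).toEquiv).symm
  have h3 : (MulAction.stabilizer ↥H a).index = Fintype.card α := by
    rw [MulAction.index_stabilizer]
    have : MulAction.orbit ↥H a = Set.univ := by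
      ext b
      simp only [Set.mem_univ, iff_true]
      obtain ⟨σ, hσ, hb⟩ := htr b
      exact ⟨⟨σ, hσ⟩, hb⟩
    rw [this, Set.ncard_univ, Nat.card_eq_fintype_card]
  rw [h2, ← h3]
  exact Subgroup.card_mul_index _

section Main

variable (g : Fin 4 → Equiv.Perm (Fin 315))

/-- The product of a word in the generators. -/
def wp (w : List (Fin 4)) : Equiv.Perm (Fin 315) := (w.map g).prod

theorem wp_nil : wp g [] = 1 := rfl

theorem wp_cons (t : Fin 4) (w : List (Fin 4)) : wp g (t :: w) = g t * wp g w := by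
  simp [wp]

theorem wp_append (v w : List (Fin 4)) : wp g (v ++ w) = wp g v * wp g w := by
  simp [wp]

theorem wp_mem (w : List (Fin 4)) : wp g w ∈ Subgroup.closure (Set.range g) := by
  unfold wp
  apply Subgroup.list_prod_mem
  intro x hx
  obtain ⟨t, -, rfl⟩ := List.mem_map.mp hx
  exact Subgroup.subset_closure ⟨t, rfl⟩

/-- The stabiliser of the point 0. -/
def K' : Subgroup (Equiv.Perm (Fin 315)) :=
  Subgroup.closure (Set.range g) ⊓ MulAction.stabilizer (Equiv.Perm (Fin 315)) (0 : Fin 315)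

theorem mem_K' (σ : Equiv.Perm (Fin 315)) :
    σ ∈ K' g ↔ σ ∈ Subgroup.closure (Set.range g) ∧ σ 0 = 0 := by
  unfold K'
  rw [Subgroup.mem_inf, MulAction.mem_stabilizer_iff]
  rfl

/-- The images of the point 0 under the eleven words. -/
def fx (k : Fin 11) : Fin 315 := wp g (wd k) 0

variable (R : Fin 315 → Equiv.Perm (Fin 315))

/-- The subgroup generated by the eleven reflections commuting with `g 0`. -/
def Qp : Subgroup (Equiv.Perm (Fin 315)) :=
  Subgroup.closure (Set.range (fun k : Fin 11 => R (fx g k)))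

variable (hg : ∀ (t : Fin 4) (i : Fin 315),
    ((g t i : Fin 315) : ℕ) = (j2Tab.getD (t : ℕ) []).getD (i : ℕ) 0)
include hg

theorem tab_g (t : Fin 4) : tab (g t) = row (t : ℕ) := tab_of_getD _ _ (row_length t) (hg t)

theorem tab_g0 : tab (g 0) = row 0 := tab_g g hg 0

theorem tab_wp (w : List (Fin 4)) : tab (wp g w) = wt w := by
  induction w with
  | nil => rw [wp_nil, tab_one, wt_nil]
  | cons t w ih => rw [wp_cons, tm, tab_g g hg, ih, wt_cons]

theorem g_sq (t : Fin 4) : g t * g t = 1 := by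
  apply tab_injective
  rw [tm, tab_g g hg, tab_one]
  exact chk_inv t

theorem g_inv (t : Fin 4) : (g t)⁻¹ = g t := inv_eq_of_mul_eq_one_right (g_sq g hg t)

theorem wp_inv (w : List (Fin 4)) : (wp g w)⁻¹ = wp g w.reverse := by
  induction w with
  | nil => rw [List.reverse_nil, wp_nil, inv_one]
  | cons t w ih =>
    rw [wp_cons, List.reverse_cons, wp_append, mul_inv_rev, ih, g_inv g hg, wp_cons, wp_nil,
      mul_one]

theorem wp_zero (w : List (Fin 4)) : ((wp g w 0 : Fin 315) : ℕ) = (wt w).getD 0 0 := by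
  rw [apply_eq, tab_wp g hg]
  rfl

theorem fx_val (k : Fin 11) : ((fx g k : Fin 315) : ℕ) = fixL.getD k 0 := by
  unfold fx
  rw [wp_zero g hg, chk_fix k]

theorem fx_fixed (k : Fin 11) : g 0 (fx g k) = fx g k := by
  apply Fin.ext
  rw [apply_eq, tab_g0 g hg, fx_val g hg, chk_fixed k]

theorem fixed_is_fx (c : Fin 315) (hc : g 0 c = c) : ∃ k : Fin 11, c = fx g k := by
  have h1 : (row 0).getD (c : ℕ) 0 = (c : ℕ) := by
    rw [← tab_g0 g hg, ← apply_eq, hc]
  obtain ⟨k, hk⟩ := chk_allfix c h1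
  exact ⟨k, Fin.ext (by rw [fx_val g hg, hk])⟩

theorem g0_ne_one : g 0 ≠ 1 := by
  apply ne_of_tab
  rw [tab_g0 g hg, tab_one]
  exact chk_g0

theorem x_cube : wp g wx * wp g wx * wp g wx = 1 := by
  apply tab_injective
  rw [tm, tm, tab_wp g hg, tab_one]
  exact chk_x3

theorem y_pow : wp g wy * wp g wy * wp g wy * wp g wy * wp g wy = 1 := by
  apply tab_injective
  rw [tm, tm, tm, tm, tab_wp g hg, tab_one]
  exact chk_y5

theorem xy_sq : (wp g wx * wp g wy) * (wp g wx * wp g wy) = 1 := by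
  apply tab_injective
  rw [tm, tm, tab_wp g hg, tab_wp g hg, tab_one]
  exact chk_xy

theorem y_ne : wp g wy ≠ 1 := by
  apply ne_of_tab
  rw [tab_wp g hg, tab_one]
  exact chk_y1

theorem x_mem : wp g wx ∈ K' g := by
  refine (mem_K' g _).mpr ⟨wp_mem g _, Fin.ext ?_⟩
  rw [wp_zero g hg, chk_x0]
  rfl

theorem y_mem : wp g wy ∈ K' g := by
  refine (mem_K' g _).mpr ⟨wp_mem g _, Fin.ext ?_⟩
  rw [wp_zero g hg, chk_y0]
  rfl

variable (hR0 : R 0 = g 0)
  (hReq : ∀ σ ∈ Subgroup.closure (Set.range g), ∀ a, σ * R a * σ⁻¹ = R (σ a))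
include hR0 hReq

theorem R_fx (k : Fin 11) : R (fx g k) = wp g (wd k) * g 0 * wp g (wd k).reverse := by
  have h := hReq (wp g (wd k)) (wp_mem g _) 0
  rw [hR0, wp_inv g hg] at h
  exact h.symm

theorem tab_R (k : Fin 11) : tab (R (fx g k)) = Rg k := by
  rw [R_fx g R hg hR0 hReq, tm, tm, tab_wp g hg, tab_wp g hg, tab_g0 g hg]
  exact chk_R k

theorem R_fx_mem (k : Fin 11) : R (fx g k) ∈ Subgroup.closure (Set.range g) := by
  rw [R_fx g R hg hR0 hReq]
  exact mul_mem (mul_mem (wp_mem g _) (Subgroup.subset_closure ⟨0, rfl⟩)) (wp_mem g _)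

theorem R_fx_sq (k : Fin 11) : R (fx g k) * R (fx g k) = 1 := by
  apply tab_injective
  rw [tm, tab_R g R hg hR0 hReq, tab_one]
  exact chk_Rsq k

theorem comm_of_fix (σ : Equiv.Perm (Fin 315)) (hσ : σ ∈ Subgroup.closure (Set.range g))
    (h0 : σ 0 = 0) : σ * g 0 = g 0 * σ := by
  have h := hReq σ hσ 0
  rw [h0, hR0] at h
  exact mul_inv_eq_iff_eq_mul.mp h

theorem g0_mem_Qp : g 0 ∈ Qp g R := by
  have h : R (fx g 0) = g 0 := by
    rw [R_fx g R hg hR0 hReq]
    show wp g [] * g 0 * wp g [] = g 0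
    rw [wp_nil, one_mul, mul_one]
  rw [← h]
  exact Subgroup.subset_closure ⟨0, rfl⟩

/-- Every element of `Qp` has one of the 32 tables. -/
theorem claimA (q : Equiv.Perm (Fin 315)) (hq : q ∈ Qp g R) : ∃ n : Fin 32, tab q = Lg n := by
  unfold Qp at hq
  induction hq using Subgroup.closure_induction_left with
  | one => exact ⟨0, by rw [tab_one]; exact chk_one.symm⟩
  | mul_left x hx y _ ih =>
    obtain ⟨k, rfl⟩ := hx
    obtain ⟨n, hn⟩ := ih
    exact ⟨⟨_, chk_cl k n⟩, by rw [tm, tab_R g R hg hR0 hReq, hn, chk_closed k n]⟩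
  | inv_mul_cancel x hx y _ ih =>
    obtain ⟨k, rfl⟩ := hx
    obtain ⟨n, hn⟩ := ih
    have hinv : (R (fx g k))⁻¹ = R (fx g k) :=
      inv_eq_of_mul_eq_one_right (R_fx_sq g R hg hR0 hReq k)
    exact ⟨⟨_, chk_cl k n⟩, by rw [hinv, tm, tab_R g R hg hR0 hReq, hn, chk_closed k n]⟩

/-- Each of the 32 tables is the table of an element of `Qp`. -/
theorem claimB (n : Fin 32) : ∃ q ∈ Qp g R, tab q = Lg n := by
  obtain ⟨h1, h2⟩ := chk_w n
  refine ⟨R (fx g ⟨wi.getD n 0, h1⟩) * R (fx g ⟨wj.getD n 0, h2⟩),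
    mul_mem (Subgroup.subset_closure ⟨_, rfl⟩) (Subgroup.subset_closure ⟨_, rfl⟩), ?_⟩
  rw [tm, tab_R g R hg hR0 hReq, tab_R g R hg hR0 hReq]
  exact (chk_LL n).symm

theorem card_Qp : Nat.card (Qp g R) = 32 := by
  choose f hf1 hf2 using claimB g R hg hR0 hReq
  let F : Fin 32 → Qp g R := fun n => ⟨f n, hf1 n⟩
  have hinj : Function.Injective F := by
    intro n n' h
    have h1 : f n = f n' := congrArg Subtype.val h
    have h2 : tab (f n) = tab (f n') := by rw [h1]
    rw [hf2, hf2] at h2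
    exact chk_inj n n' h2
  have hsurj : Function.Surjective F := by
    rintro ⟨q, hq⟩
    obtain ⟨n, hn⟩ := claimA g R hg hR0 hReq q hq
    exact ⟨n, Subtype.ext (tab_injective (by rw [hf2, hn]))⟩
  rw [← Nat.card_congr (Equiv.ofBijective F ⟨hinj, hsurj⟩), Nat.card_eq_fintype_card,
    Fintype.card_fin]

theorem sq_Qp (q : Equiv.Perm (Fin 315)) (hq : q ∈ Qp g R) : q * q = 1 ∨ q * q = g 0 := by
  obtain ⟨n, hn⟩ := claimA g R hg hR0 hReq q hq
  rcases chk_sq n with h | h
  · left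
    apply tab_injective
    rw [tm, hn, tab_one, h]
  · right
    apply tab_injective
    rw [tm, hn, tab_g0 g hg, h]

theorem cent_Qp (c : Equiv.Perm (Fin 315)) (hc : c ∈ Qp g R)
    (h : ∀ q ∈ Qp g R, c * q = q * c) : c = 1 ∨ c = g 0 := by
  obtain ⟨n, hn⟩ := claimA g R hg hR0 hReq c hc
  rcases chk_cent n with h1 | h1 | hk
  · left
    apply tab_injective
    rw [hn, tab_one, h1]
  · right
    apply tab_injective
    rw [hn, tab_g0 g hg, h1]
  · exfalso
    apply hk
    have h2 := h (R (fx g ⟨_, chk_cw n⟩)) (Subgroup.subset_closure ⟨⟨_, chk_cw n⟩, rfl⟩)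
    have h3 : tab (c * R (fx g ⟨_, chk_cw n⟩)) = tab (R (fx g ⟨_, chk_cw n⟩) * c) := by rw [h2]
    rw [tm, tm, hn, tab_R g R hg hR0 hReq] at h3
    exact h3

theorem nc_Qp : R (fx g 1) * R (fx g 2) ≠ R (fx g 2) * R (fx g 1) := by
  apply ne_of_tab
  rw [tm, tm, tab_R g R hg hR0 hReq, tab_R g R hg hR0 hReq]
  exact chk_nc

variable (hRfix : ∀ a, R a a = a)
include hRfix

theorem R_eq_g0 (c : Fin 315) (h : R c = g 0) : c = 0 := by
  have hc : g 0 c = c := by rw [← h]; exact hRfix c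
  obtain ⟨k, hk⟩ := fixed_is_fx g hg c hc
  have h3 : Rg k = row 0 := by
    rw [← tab_R g R hg hR0 hReq k, ← hk, h, tab_g0 g hg]
  apply Fin.ext
  rw [hk, fx_val g hg, chk_Rne k h3]
  rfl

theorem R_inj (htrans : ∀ a : Fin 315, ∃ σ ∈ Subgroup.closure (Set.range g), σ 0 = a) :
    Function.Injective R := by
  intro a b hab
  obtain ⟨σ, hσ, hσa⟩ := htrans a
  have hi := Subgroup.inv_mem _ hσ
  have e1 := hReq σ⁻¹ hi a
  have e2 := hReq σ⁻¹ hi b
  have ha0 : σ⁻¹ a = 0 := by rw [← hσa]; simp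
  rw [ha0, hR0, hab, e2] at e1
  have h0 := R_eq_g0 g R hg hR0 hReq hRfix (σ⁻¹ b) e1
  exact (σ⁻¹).injective (ha0.trans h0.symm)

theorem fix_of_comm (σ : Equiv.Perm (Fin 315)) (hσ : σ ∈ Subgroup.closure (Set.range g))
    (h : σ * g 0 = g 0 * σ) : σ 0 = 0 := by
  have h1 := hReq σ hσ 0
  rw [hR0, h, mul_inv_cancel_right] at h1
  exact R_eq_g0 g R hg hR0 hReq hRfix _ h1.symm

theorem R_fx_zero (k : Fin 11) : R (fx g k) 0 = 0 := by
  apply fix_of_comm g R hg hR0 hReq hRfix _ (R_fx_mem g R hg hR0 hReq k)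
  have h := hReq (g 0) (Subgroup.subset_closure ⟨0, rfl⟩) (fx g k)
  rw [fx_fixed g hg] at h
  exact (mul_inv_eq_iff_eq_mul.mp h).symm

theorem Qp_le : Qp g R ≤ K' g := by
  unfold Qp
  rw [Subgroup.closure_le]
  rintro _ ⟨k, rfl⟩
  exact (mem_K' g _).mpr ⟨R_fx_mem g R hg hR0 hReq k, R_fx_zero g R hg hR0 hReq hRfix k⟩

theorem Q_normal : ((Qp g R).subgroupOf (K' g)).Normal := by
  constructor
  intro n hn k
  rw [Subgroup.mem_subgroupOf] at hn ⊢
  obtain ⟨hkG, hk0⟩ := (mem_K' g _).mp k.2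
  show (k : Equiv.Perm (Fin 315)) * n * (k : Equiv.Perm (Fin 315))⁻¹ ∈ Qp g R
  refine conj_mem_of_closure (Qp g R) _ (k : Equiv.Perm (Fin 315)) ?_ _ hn
  rintro s ⟨j, rfl⟩
  show (k : Equiv.Perm (Fin 315)) * R (fx g j) * (k : Equiv.Perm (Fin 315))⁻¹ ∈ Qp g R
  rw [hReq _ hkG]
  have hc := comm_of_fix g R hg hR0 hReq _ hkG hk0
  have hfix : g 0 ((k : Equiv.Perm (Fin 315)) (fx g j)) = (k : Equiv.Perm (Fin 315)) (fx g j) := by
    have h1 := congrArg (fun p : Equiv.Perm (Fin 315) => p (fx g j)) hc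
    simp only [Equiv.Perm.mul_apply] at h1
    rw [fx_fixed g hg] at h1
    exact h1.symm
  obtain ⟨j', hj'⟩ := fixed_is_fx g hg _ hfix
  rw [hj']
  exact Subgroup.subset_closure ⟨j', rfl⟩

theorem card_K' (hcard : Nat.card (Subgroup.closure (Set.range g)) = 604800)
    (htrans : ∀ a : Fin 315, ∃ σ ∈ Subgroup.closure (Set.range g), σ 0 = a) :
    Nat.card ↥(K' g) = 1920 := by
  have h := card_stab (Subgroup.closure (Set.range g)) (0 : Fin 315) htrans
  rw [hcard, Fintype.card_fin] at h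
  unfold K'
  omega

/-- The stabiliser of the point 0 has a normal extraspecial subgroup of order 32 with quotient
the alternating group of degree 5. -/
theorem main (hcard : Nat.card (Subgroup.closure (Set.range g)) = 604800)
    (htrans : ∀ a : Fin 315, ∃ σ ∈ Subgroup.closure (Set.range g), σ 0 = a) :
    ∃ (Q : Subgroup ↥(K' g)) (_ : Q.Normal), Nat.card Q = 32 ∧
    Cfsg.IsExtraspecial 2 Q ∧ Nonempty (↥(K' g) ⧸ Q ≃* alternatingGroup (Fin 5)) := by
  have hle := Qp_le g R hg hR0 hReq hRfix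
  have hn := Q_normal g R hg hR0 hReq hRfix
  have hQ : Nat.card ((Qp g R).subgroupOf (K' g)) = 32 := by
    rw [Nat.card_congr (Subgroup.subgroupOfEquivOfLe hle).toEquiv]
    exact card_Qp g R hg hR0 hReq
  have hK := card_K' g R hg hR0 hReq hRfix hcard htrans
  have hg0Q := g0_mem_Qp g R hg hR0 hReq
  have htc : ∀ q ∈ (Qp g R).subgroupOf (K' g),
      (⟨g 0, hle hg0Q⟩ : ↥(K' g)) * q = q * ⟨g 0, hle hg0Q⟩ := by
    intro q _
    obtain ⟨hqG, hq0⟩ := (mem_K' g _).mp q.2
    exact Subtype.ext (comm_of_fix g R hg hR0 hReq _ hqG hq0).symm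
  have hsq : ∀ x ∈ (Qp g R).subgroupOf (K' g), x * x = 1 ∨ x * x = ⟨g 0, hle hg0Q⟩ := by
    intro x hx
    rcases sq_Qp g R hg hR0 hReq _ (Subgroup.mem_subgroupOf.mp hx) with h | h
    · left; exact Subtype.ext h
    · right; exact Subtype.ext h
  refine ⟨(Qp g R).subgroupOf (K' g), hn, hQ, ?_, ?_⟩
  · apply Cfsg.Agent.Lib.Helper66.ESA5.extraspecial _ ⟨g 0, hle hg0Q⟩ hQ
    · exact Subgroup.mem_subgroupOf.mpr hg0Q
    · intro h
      exact g0_ne_one g hg (congrArg Subtype.val h)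
    · exact htc
    · exact hsq
    · exact comm_of_sq _ _ (Subtype.ext (g_sq g hg 0)) htc hsq
    · refine ⟨⟨R (fx g 1), hle (Subgroup.subset_closure ⟨1, rfl⟩)⟩,
        Subgroup.mem_subgroupOf.mpr (Subgroup.subset_closure ⟨1, rfl⟩),
        ⟨R (fx g 2), hle (Subgroup.subset_closure ⟨2, rfl⟩)⟩,
        Subgroup.mem_subgroupOf.mpr (Subgroup.subset_closure ⟨2, rfl⟩), ?_⟩
      intro h
      exact nc_Qp g R hg hR0 hReq (congrArg Subtype.val h)
    · intro c hc hcomm
      have h1 : ∀ q ∈ Qp g R, (c : Equiv.Perm (Fin 315)) * q = q * c := by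
        intro q hq
        exact congrArg Subtype.val (hcomm ⟨q, hle hq⟩ (Subgroup.mem_subgroupOf.mpr hq))
      rcases cent_Qp g R hg hR0 hReq _ (Subgroup.mem_subgroupOf.mp hc) h1 with h | h
      · left; exact Subtype.ext h
      · right; exact Subtype.ext h
  · have := hn
    refine (Cfsg.Agent.Lib.Helper66.ESA5.complement _ hK hQ
      ⟨⟨wp g wx, x_mem g hg⟩, ⟨wp g wy, y_mem g hg⟩, ?_, ?_, ?_, ?_⟩).2
    · apply Subtype.ext
      show wp g wx ^ 3 = 1
      rw [pow_succ, pow_two]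
      exact x_cube g hg
    · apply Subtype.ext
      show wp g wy ^ 5 = 1
      rw [pow_succ, pow_succ, pow_succ, pow_two]
      exact y_pow g hg
    · apply Subtype.ext
      show (wp g wx * wp g wy) ^ 2 = 1
      rw [pow_two]
      exact xy_sq g hg
    · intro h
      exact y_ne g hg (congrArg Subtype.val h)

end Main

end Cfsg.Agent.Lib.Helper66.J2Cent
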