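import Mathlib
import Cfsg.Agent.Lib.Helper27.JzStmt
import Cfsg.Agent.Lib.Helper90.FStarES

set_option autoImplicit false

/-!
Piece GLOC1 of S5403: the situation `SCtx` holds in the centraliser of the element `a` of order
five, for the subgroup generated by `a` and the centre, the sign change `t` and the centraliser
of `a` in `K`.
-/

namespace Cfsg.Agent.Lib.Helper66.JzGLOC1

open Cfsg Cfsg.Agent.Lib.Helper27.OzStmt Cfsg.Agent.Lib.Helper27.JzStmt

theorem acode_ne : (1 : M8) ≠ matOf acode := by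
  decide +kernel

section

variable {G : Type} [Group G]

/-- elements of the subgroup generated by `a` and the centre -/
theorem mem_sup_center {a x : G} (hx : x ∈ Subgroup.zpowers a ⊔ Subgroup.center G) :
    ∃ k : ℤ, ∃ c ∈ Subgroup.center G, x = a ^ k * c := by
  have h1 : x ∈ ((Subgroup.zpowers a ⊔ Subgroup.center G : Subgroup G) : Set G) := hx
  rw [Subgroup.mul_normal] at h1
  obtain ⟨y, hy, c, hc, rfl⟩ := Set.mem_mul.mp h1
  obtain ⟨k, rfl⟩ := Subgroup.mem_zpowers_iff.mp hy
  exact ⟨k, c, hc, rfl⟩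

theorem eq_one_of_pow {b : G} (m : ℕ) (hm : Nat.gcd 5 m = 1) (h5 : b ^ 5 = 1)
    (h2 : b ^ m = 1) : b = 1 := by
  have h := Nat.dvd_gcd (orderOf_dvd_of_pow_eq_one h5) (orderOf_dvd_of_pow_eq_one h2)
  rw [hm] at h
  exact orderOf_eq_one_iff.mp (Nat.dvd_one.mp h)

theorem sq_mul_central {x c : G} (hc : c ∈ Subgroup.center G) :
    (x * c) * (x * c) = x ^ 2 * (c * c) := by
  have h := Subgroup.mem_center_iff.mp hc x
  calc (x * c) * (x * c) = x * (c * x) * c := by group
    _ = x * (x * c) * c := by rw [← h]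
    _ = x ^ 2 * (c * c) := by rw [pow_two]; simp only [mul_assoc]

end

theorem main (hCK : CK) (hCnt : Cnt) (hXS5 : XS5) : GLoc1 := by
  intro G _ _ t n a K φ ha hJ
  have hctx := hJ.ctx
  have hnc : n ∈ Subgroup.center G := (hctx.center n).mpr (Or.inr rfl)
  have hn : ∀ y : G, y * n = n * y := fun y => Subgroup.mem_center_iff.mp hnc y
  have hnn : n * n = 1 := by
    rcases (hctx.center (n * n)).mp (Subgroup.mul_mem _ hnc hnc) with h1 | h1
    · exact h1
    · exfalso
      apply hctx.n_ne
      have h2 := congrArg (fun x => n⁻¹ * x) h1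
      simpa using h2
  have htn : t ≠ n := fun h => hctx.n_not_mem (h ▸ hctx.t_mem)
  have haK : ∀ k ∈ K, a * k * a⁻¹ ∈ K := hctx.K_normal a hJ.a_t
  have hzt : ∀ k : ℤ, Commute (a ^ k) t :=
    fun k => (show Commute a t from hJ.a_t).zpow_left k
  have hz5 : ∀ k : ℤ, (a ^ k) ^ 5 = 1 := by
    intro k
    rw [← zpow_natCast, ← zpow_mul, mul_comm, zpow_mul, zpow_natCast, hJ.a5, one_zpow]
  have hcen : ∀ c ∈ Subgroup.center G, c = 1 ∨ c = n := fun c hc => (hctx.center c).mp hc
  have hcc : ∀ c ∈ Subgroup.center G, c * c = 1 := by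
    intro c hc
    rcases hcen c hc with rfl | rfl
    · simp
    · exact hnn
  have hccomm : ∀ c ∈ Subgroup.center G, ∀ y : G, Commute c y :=
    fun c hc y => (Subgroup.mem_center_iff.mp hc y).symm
  -- squares of elements `a ^ k * c` vanish only when `a ^ k = 1`
  have hsq : ∀ (k : ℤ) (c : G), c ∈ Subgroup.center G →
      (a ^ k * c) * (a ^ k * c) = 1 → a ^ k = 1 := by
    intro k c hc h
    rw [sq_mul_central hc, hcc c hc, mul_one] at h
    exact eq_one_of_pow 2 (by norm_num) (hz5 k) h
  -- the element `a` does not centralise `K`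
  have hnotcent : ∃ k ∈ K, a * k ≠ k * a := by
    by_contra hcon
    push Not at hcon
    obtain ⟨x, hxa, hxm⟩ := hJ.am
    have h1 : φ x = 1 := by
      apply hCK G t n K φ hctx hJ.nc x
      intro k hk
      rw [hxa]
      exact hcon k hk
    rw [h1] at hxm
    exact acode_ne hxm
  -- a third element of `K` commuting with `a`
  have hthird : ∃ k ∈ K, a * k = k * a ∧ k ≠ 1 ∧ k ≠ t := by
    obtain ⟨g, h, hga, hha, hht, ⟨x, hx, hφx⟩, hfus⟩ := hJ.fus
    have hker := (hctx.ker x).mp hφx
    rw [hx] at hker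
    have hTa : Commute (g * t * g⁻¹) a :=
      ((show Commute g a from hga).mul_left (show Commute t a from ha)).mul_left
        (show Commute g a from hga).inv_left
    have hT1 : g * t * g⁻¹ ≠ 1 := by
      intro h1
      apply hctx.t_ne
      have : t = g⁻¹ * (g * t * g⁻¹) * g := by group
      rw [this, h1]; group
    have hTt : g * t * g⁻¹ ≠ t := by
      intro h1
      rw [h1] at hfus
      have h2 : h * t * h⁻¹ = t := by rw [hht]; group
      rw [h2, hctx.t_sq, mul_one] at hfus
      exact hctx.t_ne hfus.symm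
    rcases hker with hk | hk
    · exact ⟨g * t * g⁻¹, hk, hTa.eq.symm, hT1, hTt⟩
    · refine ⟨n * (g * t * g⁻¹), hk, ?_, ?_, ?_⟩
      · exact (((hccomm n hnc a).mul_left hTa).eq).symm
      · intro h1
        apply htn
        have h2 : g * t * g⁻¹ = n := by
          have := congrArg (fun y => n * y) h1
          simp only [← mul_assoc, hnn, one_mul, mul_one] at this
          exact this
        have h3 : t = g⁻¹ * (g * t * g⁻¹) * g := by group
        rw [h3, h2, mul_assoc, ← hn g]
        group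
      · intro h1
        apply hctx.not_conj g
        have := congrArg (fun y => n * y) h1
        simp only [← mul_assoc, hnn, one_mul] at this
        exact this
  have hcard : Nat.card ↥(K ⊓ Subgroup.centralizer ({a} : Set G)) = 2 ^ 5 :=
    hCnt G K a t hctx.card_K hJ.a5 haK hnotcent hctx.t_mem hJ.a_t hctx.t_ne hthird
  have hxs : IsExtraspecial 2 ↥(K ⊓ Subgroup.centralizer ({a} : Set G)) :=
    hXS5 G K a hctx.xs hctx.card_K hJ.a5 haK hcard
  have hle : K ⊓ Subgroup.centralizer ({a} : Set G) ≤ MA a := by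
    intro x hx
    exact mem_MA (Subgroup.mem_centralizer_singleton_iff.mp hx.2)
  let e : ↥(QA a K) ≃* ↥(K ⊓ Subgroup.centralizer ({a} : Set G)) :=
    Subgroup.subgroupOfEquivOfLe hle
  have mem_QA : ∀ q : ↥(MA a), q ∈ QA a K ↔ (q : G) ∈ K ∧ (q : G) * a = a * (q : G) := by
    intro q
    rw [Subgroup.mem_subgroupOf, Subgroup.mem_inf, Subgroup.mem_centralizer_singleton_iff]
  have mem_ZA : ∀ q : ↥(MA a), q ∈ ZA a ↔
      (q : G) ∈ Subgroup.zpowers a ⊔ Subgroup.center G := by
    intro q
    rw [Subgroup.mem_subgroupOf]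
  have hMa : ∀ q : ↥(MA a), (q : G) * a = a * (q : G) := fun q =>
    (Subgroup.mem_centralizer_iff.mp q.2 a (Subgroup.mem_zpowers a)).symm
  have hMz : ∀ (q : ↥(MA a)) (k : ℤ), a ^ k * (q : G) = (q : G) * a ^ k := fun q k =>
    Subgroup.mem_centralizer_iff.mp q.2 (a ^ k) (Subgroup.zpow_mem_zpowers a k)
  refine
    { central := ?_
      t_sq := ?_
      t_nmem := ?_
      nofus := ?_
      Q_comm := ?_
      Q_norm := ?_
      Q_meet := ?_
      xs := ?_
      card_Q := ?_
      t_mem := ?_ }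
  · -- central
    intro z hz x
    obtain ⟨k, c, hc, hzk⟩ := mem_sup_center ((mem_ZA z).mp hz)
    apply Subtype.ext
    show (z : G) * (x : G) = (x : G) * (z : G)
    rw [hzk, mul_assoc, (hccomm c hc (x : G)).eq, ← mul_assoc, hMz x k, mul_assoc]
  · -- t_sq
    apply Subtype.ext
    exact hctx.t_sq
  · -- t_nmem
    intro h
    obtain ⟨k, c, hc, hzk⟩ := mem_sup_center ((mem_ZA _).mp h)
    have hzk' : t = a ^ k * c := hzk
    have h1 : a ^ k = 1 := by
      apply hsq k c hc
      rw [← hzk']
      exact hctx.t_sq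
    rw [h1, one_mul] at hzk'
    rcases hcen c hc with h2 | h2
    · exact hctx.t_ne (hzk'.trans h2)
    · exact htn (hzk'.trans h2)
  · -- nofus
    intro g hg
    obtain ⟨k, c, hc, hzk⟩ := mem_sup_center ((mem_ZA _).mp hg)
    have hzk' : (g : G) * t * (g : G)⁻¹ * t⁻¹ = a ^ k * c := hzk
    have h1 : (g : G) * t * (g : G)⁻¹ = a ^ k * c * t := by
      rw [← hzk']; group
    have hbc : Commute (a ^ k * c) t := (hzt k).mul_left (hccomm c hc t)
    have h2 : (a ^ k * c) * (a ^ k * c) = 1 := by
      have h3 : ((g : G) * t * (g : G)⁻¹) * ((g : G) * t * (g : G)⁻¹) = 1 := by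
        have : ((g : G) * t * (g : G)⁻¹) * ((g : G) * t * (g : G)⁻¹)
            = (g : G) * (t * t) * (g : G)⁻¹ := by group
        rw [this, hctx.t_sq]; group
      rw [h1] at h3
      have h4 : (a ^ k * c * t) * (a ^ k * c * t) = (a ^ k * c) * (a ^ k * c) * (t * t) := by
        calc (a ^ k * c * t) * (a ^ k * c * t) = (a ^ k * c) * (t * (a ^ k * c)) * t := by group
          _ = (a ^ k * c) * ((a ^ k * c) * t) * t := by rw [hbc.eq]
          _ = (a ^ k * c) * (a ^ k * c) * (t * t) := by group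
      rw [h4, hctx.t_sq, mul_one] at h3
      exact h3
    have h5 : a ^ k = 1 := hsq k c hc h2
    rw [h5, one_mul] at h1
    apply Subtype.ext
    show (g : G) * t = t * (g : G)
    rcases hcen c hc with h6 | h6
    · rw [h6, one_mul] at h1
      have : (g : G) * t = ((g : G) * t * (g : G)⁻¹) * (g : G) := by group
      rw [this, h1]
    · rw [h6] at h1
      exact absurd h1 (hctx.not_conj (g : G))
  · -- Q_comm
    intro q hq
    apply Subtype.ext
    exact hctx.K_comm (q : G) ((mem_QA q).mp hq).1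
  · -- Q_norm
    intro h hh q hq
    have hh' : (h : G) * t = t * (h : G) := congrArg Subtype.val hh
    obtain ⟨hqK, hqa⟩ := (mem_QA q).mp hq
    rw [mem_QA]
    refine ⟨hctx.K_normal (h : G) hh' (q : G) hqK, ?_⟩
    exact (((show Commute (h : G) a from hMa h).mul_left (show Commute (q : G) a from hqa)).mul_left
      (show Commute (h : G) a from hMa h).inv_left).eq
  · -- Q_meet
    intro q hq hz
    obtain ⟨hqK, hqa⟩ := (mem_QA q).mp hq
    obtain ⟨k, c, hc, hzk⟩ := mem_sup_center ((mem_ZA q).mp hz)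
    have h1 : (q : G) ^ (2 ^ 9) = 1 := by
      have h2 : (⟨(q : G), hqK⟩ : ↥K) ^ (2 ^ 9) = 1 := by
        rw [← hctx.card_K]
        exact pow_card_eq_one'
      exact congrArg Subtype.val h2
    have h3 : (a ^ k) ^ (2 ^ 9) = 1 := by
      rw [hzk, (hccomm c hc (a ^ k)).symm.mul_pow] at h1
      have h4 : c ^ (2 ^ 9) = 1 := by
        have : c ^ (2 ^ 9) = (c * c) ^ (2 ^ 8) := by
          rw [← pow_two, ← pow_mul]; norm_num
        rw [this, hcc c hc, one_pow]
      rw [h4, mul_one] at h1
      exact h1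
    have h5 : a ^ k = 1 := eq_one_of_pow (2 ^ 9) (by norm_num) (hz5 k) h3
    rw [h5, one_mul] at hzk
    apply Subtype.ext
    show (q : G) = 1
    rcases hcen c hc with h6 | h6
    · exact hzk.trans h6
    · exfalso
      apply hctx.n_not_mem
      rw [← h6, ← hzk]
      exact hqK
  · -- xs
    exact Cfsg.Agent.Lib.Helper90.FStarES.isExtraspecial_of_mulEquiv e.symm hxs
  · -- card_Q
    rw [← hcard]
    exact Nat.card_congr e.toEquiv
  · -- t_mem
    rw [mem_QA]
    exact ⟨hctx.t_mem, ha⟩

end Cfsg.Agent.Lib.Helper66.JzGLOC1
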