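import Mathlib
import Cfsg.Agent.Lib.Helper27.JzStmt

set_option autoImplicit false

/-!
Piece SIMPLE of S5403: the glue from the four pieces SA, SB, SC, SD to simplicity.
-/

namespace Cfsg.Agent.Lib.Helper66.JzSIMPLE

open Cfsg Cfsg.Agent.Lib.Helper27.JzStmt
open scoped commutatorElement

theorem card_A5 : Nat.card (alternatingGroup (Fin 5)) = 60 := by
  rw [nat_card_alternatingGroup]; simp [Nat.factorial]

/-- in a group of order two, an element is trivial or the given non-trivial element -/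
theorem eq_one_or_eq_of_card_two {T : Type*} [Group T] (h : Nat.card T = 2) (a : T) (ha : a ≠ 1)
    (x : T) : x = 1 ∨ x = a := by
  obtain ⟨y, -, hy⟩ := (Nat.card_eq_two_iff' (1 : T)).mp h
  by_cases hx : x = 1
  · exact Or.inl hx
  · exact Or.inr ((hy x hx).trans (hy a ha).symm)

theorem flat (S : Type) [Group S] [Finite S] (z : S) (hz : orderOf z = 2)
    (Q : Subgroup ↥(Subgroup.centralizer ({z} : Set S))) [hQn : Q.Normal]
    (hcen : Subgroup.centralizer (Q : Set ↥(Subgroup.centralizer ({z} : Set S))) ≤ Q)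
    (hxs : IsExtraspecial 2 ↥Q) (hcard : Nat.card ↥Q = 2 ^ 5) :
    Flat S z (Q.map (Subgroup.centralizer ({z} : Set S)).subtype) := by
  have hzz : z * z = 1 := by
    have := pow_orderOf_eq_one z
    rw [hz, pow_two] at this
    exact this
  have hz1 : z ≠ 1 := by
    intro h
    rw [h, orderOf_one] at hz
    omega
  have hzC : z ∈ Subgroup.centralizer ({z} : Set S) :=
    Subgroup.mem_centralizer_singleton_iff.mpr rfl
  have hzQ : (⟨z, hzC⟩ : ↥(Subgroup.centralizer ({z} : Set S))) ∈ Q := by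
    apply hcen
    rw [Subgroup.mem_centralizer_iff]
    intro q _
    apply Subtype.ext
    exact (Subgroup.mem_centralizer_singleton_iff.mp q.2)
  -- the centre of `Q`
  have hzcen : (⟨⟨z, hzC⟩, hzQ⟩ : ↥Q) ∈ Subgroup.center ↥Q := by
    rw [Subgroup.mem_center_iff]
    intro q
    apply Subtype.ext
    apply Subtype.ext
    exact (Subgroup.mem_centralizer_singleton_iff.mp q.1.2)
  have hcen2 : ∀ x : ↥Q, x ∈ Subgroup.center ↥Q → x = 1 ∨ x = ⟨⟨z, hzC⟩, hzQ⟩ := by
    intro x hx
    have h2 := eq_one_or_eq_of_card_two hxs.2 (⟨⟨⟨z, hzC⟩, hzQ⟩, hzcen⟩ : ↥(Subgroup.center ↥Q))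
      (by
        intro h
        apply hz1
        have := congrArg (fun t : ↥(Subgroup.center ↥Q) => (((t : ↥Q) : ↥(Subgroup.centralizer ({z} : Set S))) : S)) h
        simpa using this) ⟨x, hx⟩
    rcases h2 with h2 | h2
    · left
      exact congrArg Subtype.val h2
    · right
      exact congrArg Subtype.val h2
  have mem_map : ∀ q : S, q ∈ Q.map (Subgroup.centralizer ({z} : Set S)).subtype ↔
      ∃ hq : q ∈ Subgroup.centralizer ({z} : Set S),
        (⟨q, hq⟩ : ↥(Subgroup.centralizer ({z} : Set S))) ∈ Q := by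
    intro q
    constructor
    · rintro ⟨x, hx, rfl⟩
      exact ⟨x.2, hx⟩
    · rintro ⟨hq, hq'⟩
      exact ⟨⟨q, hq⟩, hq', rfl⟩
  refine
    { z_sq := hzz
      z_ne := hz1
      z_mem := (mem_map z).mpr ⟨hzC, hzQ⟩
      Q_comm := ?_
      Q_norm := ?_
      card_Q := ?_
      cen_Q := ?_
      comm_Q := ?_
      self_c := ?_ }
  · intro q hq
    obtain ⟨hqC, -⟩ := (mem_map q).mp hq
    exact Subgroup.mem_centralizer_singleton_iff.mp hqC
  · intro c hc q hq
    obtain ⟨hqC, hqQ⟩ := (mem_map q).mp hq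
    have hcC : c ∈ Subgroup.centralizer ({z} : Set S) :=
      Subgroup.mem_centralizer_singleton_iff.mpr hc
    rw [mem_map]
    refine ⟨Subgroup.mul_mem _ (Subgroup.mul_mem _ hcC hqC) (Subgroup.inv_mem _ hcC), ?_⟩
    have := hQn.conj_mem ⟨q, hqC⟩ hqQ ⟨c, hcC⟩
    exact this
  · rw [← hcard]
    exact Nat.card_congr
      (Q.equivMapOfInjective _ (Subgroup.subtype_injective _)).toEquiv.symm
  · intro q hq hall
    obtain ⟨hqC, hqQ⟩ := (mem_map q).mp hq
    have : (⟨⟨q, hqC⟩, hqQ⟩ : ↥Q) ∈ Subgroup.center ↥Q := by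
      rw [Subgroup.mem_center_iff]
      intro q'
      apply Subtype.ext
      apply Subtype.ext
      exact (hall q'.1.1 ((mem_map _).mpr ⟨q'.1.2, q'.2⟩)).symm
    rcases hcen2 _ this with h | h
    · left
      have := congrArg (fun t : ↥Q => ((t : ↥(Subgroup.centralizer ({z} : Set S))) : S)) h
      simpa using this
    · right
      have := congrArg (fun t : ↥Q => ((t : ↥(Subgroup.centralizer ({z} : Set S))) : S)) h
      simpa using this
  · intro q hq q' hq'
    obtain ⟨hqC, hqQ⟩ := (mem_map q).mp hq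
    obtain ⟨hqC', hqQ'⟩ := (mem_map q').mp hq'
    have hmem : ⁅(⟨⟨q, hqC⟩, hqQ⟩ : ↥Q), (⟨⟨q', hqC'⟩, hqQ'⟩ : ↥Q)⁆ ∈ commutator ↥Q := by
      rw [commutator_def]
      exact Subgroup.commutator_mem_commutator (Subgroup.mem_top _) (Subgroup.mem_top _)
    rw [hxs.1.2.2] at hmem
    rcases hcen2 _ hmem with h | h
    · left
      have := congrArg (fun t : ↥Q => ((t : ↥(Subgroup.centralizer ({z} : Set S))) : S)) h
      simpa [commutatorElement_def] using this
    · right
      have := congrArg (fun t : ↥Q => ((t : ↥(Subgroup.centralizer ({z} : Set S))) : S)) h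
      simpa [commutatorElement_def] using this
  · intro c hc hall
    have hcC : c ∈ Subgroup.centralizer ({z} : Set S) :=
      Subgroup.mem_centralizer_singleton_iff.mpr hc
    rw [mem_map]
    refine ⟨hcC, hcen ?_⟩
    rw [Subgroup.mem_centralizer_iff]
    intro q hq
    apply Subtype.ext
    exact (hall q.1 ((mem_map _).mpr ⟨q.2, hq⟩)).symm

theorem main (hSA : SA) (hSB : SB) (hSC : SC) (hSD : SD) : Simple := by
  intro S _ _ z hz Q hQn hcen hxs hcard hiso hconj
  obtain ⟨e⟩ := hiso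
  obtain ⟨g, ⟨hgC, hgQ⟩, hgne⟩ := hconj
  have hF := flat S z hz Q hcen hxs hcard
  set Q' : Subgroup S := Q.map (Subgroup.centralizer ({z} : Set S)).subtype with hQ'
  have mem_map : ∀ q : S, q ∈ Q' ↔
      ∃ hq : q ∈ Subgroup.centralizer ({z} : Set S),
        (⟨q, hq⟩ : ↥(Subgroup.centralizer ({z} : Set S))) ∈ Q := by
    intro q
    constructor
    · rintro ⟨x, hx, rfl⟩
      exact ⟨x.2, hx⟩
    · rintro ⟨hq, hq'⟩
      exact ⟨⟨q, hq⟩, hq', rfl⟩
  have hgQ' : g * z * g⁻¹ ∈ Q' := (mem_map _).mpr ⟨hgC, hgQ⟩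
  -- `5` divides the order of the centraliser
  have h5 : 5 ∣ Nat.card ↥(Subgroup.centralizer ({z} : Set S)) := by
    have h1 := Subgroup.card_eq_card_quotient_mul_card_subgroup Q
    rw [Nat.card_congr e.toEquiv, card_A5] at h1
    rw [h1]
    exact Dvd.dvd.mul_right (by norm_num) _
  -- the quotient is simple
  have : IsSimpleGroup (↥(Subgroup.centralizer ({z} : Set S)) ⧸ Q) := by
    have : IsSimpleGroup (alternatingGroup (Fin 5)) := alternatingGroup.isSimpleGroup (by simp)
    exact e.isSimpleGroup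
  have hL : ∀ L : Subgroup S, Q' ≤ L → L ≤ Subgroup.centralizer ({z} : Set S) →
      (∀ c : S, c * z = z * c → ∀ m ∈ L, c * m * c⁻¹ ∈ L) →
      L = Q' ∨ L = Subgroup.centralizer ({z} : Set S) := by
    intro L hQL hLC hLn
    have hLn' : (L.subgroupOf (Subgroup.centralizer ({z} : Set S))).Normal := by
      constructor
      intro m hm c
      rw [Subgroup.mem_subgroupOf] at hm ⊢
      exact hLn c.1 (Subgroup.mem_centralizer_singleton_iff.mp c.2) m.1 hm
    have hnm : ((L.subgroupOf (Subgroup.centralizer ({z} : Set S))).map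
        (QuotientGroup.mk' Q)).Normal :=
      Subgroup.Normal.map hLn' _ (QuotientGroup.mk'_surjective Q)
    rcases hnm.eq_bot_or_eq_top with h | h
    · left
      apply le_antisymm _ hQL
      intro m hm
      have hmC := hLC hm
      rw [mem_map]
      refine ⟨hmC, ?_⟩
      have h1 : QuotientGroup.mk' Q ⟨m, hmC⟩ ∈
          (L.subgroupOf (Subgroup.centralizer ({z} : Set S))).map (QuotientGroup.mk' Q) :=
        Subgroup.mem_map_of_mem _ (by rw [Subgroup.mem_subgroupOf]; exact hm)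
      rw [h, Subgroup.mem_bot] at h1
      exact (QuotientGroup.eq_one_iff _).mp h1
    · right
      apply le_antisymm hLC
      intro c hc
      have h1 : QuotientGroup.mk' Q ⟨c, hc⟩ ∈
          (L.subgroupOf (Subgroup.centralizer ({z} : Set S))).map (QuotientGroup.mk' Q) := by
        rw [h]; exact Subgroup.mem_top _
      obtain ⟨m, hm, hmc⟩ := h1
      have hm : (m : S) ∈ L := Subgroup.mem_subgroupOf.mp hm
      have h2 : m⁻¹ * ⟨c, hc⟩ ∈ Q := by
        have := QuotientGroup.eq.mp hmc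
        exact this
      have h3 : ((m⁻¹ * ⟨c, hc⟩ : ↥(Subgroup.centralizer ({z} : Set S))) : S) ∈ L :=
        hQL ((mem_map _).mpr ⟨(m⁻¹ * ⟨c, hc⟩).2, h2⟩)
      have h4 : c = (m : S) * ((m⁻¹ * ⟨c, hc⟩ : ↥(Subgroup.centralizer ({z} : Set S))) : S) := by
        simp
      rw [h4]
      exact Subgroup.mul_mem _ hm h3
  refine { exists_pair_ne := ⟨z, 1, hF.z_ne⟩, eq_bot_or_eq_top_of_normal := ?_ }
  intro N hN
  by_cases hbot : N = ⊥
  · exact Or.inl hbot
  right
  have h1 : ∃ x ∈ N, x ≠ 1 ∧ x * z = z * x := by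
    by_contra hcon
    apply hbot
    apply hSA S z Q' hF ⟨g, hgQ', hgne⟩ N hN
    intro x hx hxz
    by_contra hx1
    exact hcon ⟨x, hx, hx1, hxz⟩
  have hzN : z ∈ N := hSB S z Q' hF N hN h1
  have hz'N : g * z * g⁻¹ ∈ N := hN.conj_mem z hzN g
  have hne1 : g * z * g⁻¹ ≠ 1 := by
    intro h
    apply hF.z_ne
    have : z = g⁻¹ * (g * z * g⁻¹) * g := by group
    rw [this, h]; group
  have hQN : Q' ≤ N := hSC S z Q' hF h5 N hN hzN ⟨g * z * g⁻¹, hz'N, hgQ', hne1, hgne⟩
  exact hSD S z Q' hF hL ⟨g, hgQ', hgne⟩ N hN hQN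

end Cfsg.Agent.Lib.Helper66.JzSIMPLE
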