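import Mathlib
import Cfsg.Agent.S0144
import Cfsg.Agent.Lib.Helper56.SmallSolvable
import Cfsg.Agent.Lib.Helper27.JzStmt

set_option autoImplicit false

/-!
Piece SMALL of S5403: groups of order less than `60` are solvable.
-/

namespace Cfsg.Agent.Lib.Helper66.JzSMALL

open Cfsg Cfsg.Agent.Lib.Helper27.JzStmt Cfsg.Agent.Lib.Helper56.SmallSolvable

theorem solvable_of_card_42 {G : Type*} [Group G] [Finite G] (h : Nat.card G = 42) :
    Group.IsSolvable G := by
  have h7 : Fact (Nat.Prime 7) := ⟨by norm_num⟩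
  have hc : Nat.card G = 7 ^ 1 * 6 := by rw [h]; norm_num
  obtain ⟨hd, hmod⟩ := sylow_count (p := 7) 1 6 hc (by norm_num)
  have hn : Nat.card (Sylow 7 G) = 1 := by
    have hle := Nat.le_of_dvd (by norm_num) hd
    interval_cases hk : Nat.card (Sylow 7 G) <;> simp_all
  let P : Sylow 7 G := default
  have hPn : (P : Subgroup G).Normal := sylow_normal_of_card_one P hn
  have hPs : Group.IsSolvable (P : Subgroup G) :=
    solvable_of_card_prime_pow 7 1 (sylow_card P 1 6 hc (by norm_num))
  have hQs : Group.IsSolvable (G ⧸ (P : Subgroup G)) :=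
    solvable_of_card_six (card_quotient_sylow P 1 6 hc (by norm_num))
  exact solvable_of_normal (P : Subgroup G) hPs hQs

theorem small_aux {G : Type*} [Group G] [Finite G] (n : ℕ) (hn : Nat.card G = n) (h : n < 60) :
    Group.IsSolvable G := by
  have hpos : 0 < n := hn ▸ Nat.card_pos
  interval_cases n
  · exact Cfsg.Agent.S0144.result 2 3 0 0 (by norm_num) (by norm_num) (by rw [hn]; norm_num)
  · exact Cfsg.Agent.S0144.result 2 3 1 0 (by norm_num) (by norm_num) (by rw [hn]; norm_num)
  · exact Cfsg.Agent.S0144.result 3 2 1 0 (by norm_num) (by norm_num) (by rw [hn]; norm_num)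
  · exact Cfsg.Agent.S0144.result 2 3 2 0 (by norm_num) (by norm_num) (by rw [hn]; norm_num)
  · exact Cfsg.Agent.S0144.result 5 3 1 0 (by norm_num) (by norm_num) (by rw [hn]; norm_num)
  · exact Cfsg.Agent.S0144.result 2 3 1 1 (by norm_num) (by norm_num) (by rw [hn]; norm_num)
  · exact Cfsg.Agent.S0144.result 7 3 1 0 (by norm_num) (by norm_num) (by rw [hn]; norm_num)
  · exact Cfsg.Agent.S0144.result 2 3 3 0 (by norm_num) (by norm_num) (by rw [hn]; norm_num)
  · exact Cfsg.Agent.S0144.result 3 2 2 0 (by norm_num) (by norm_num) (by rw [hn]; norm_num)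
  · exact Cfsg.Agent.S0144.result 2 5 1 1 (by norm_num) (by norm_num) (by rw [hn]; norm_num)
  · exact Cfsg.Agent.S0144.result 11 3 1 0 (by norm_num) (by norm_num) (by rw [hn]; norm_num)
  · exact Cfsg.Agent.S0144.result 2 3 2 1 (by norm_num) (by norm_num) (by rw [hn]; norm_num)
  · exact Cfsg.Agent.S0144.result 13 3 1 0 (by norm_num) (by norm_num) (by rw [hn]; norm_num)
  · exact Cfsg.Agent.S0144.result 2 7 1 1 (by norm_num) (by norm_num) (by rw [hn]; norm_num)
  · exact Cfsg.Agent.S0144.result 3 5 1 1 (by norm_num) (by norm_num) (by rw [hn]; norm_num)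
  · exact Cfsg.Agent.S0144.result 2 3 4 0 (by norm_num) (by norm_num) (by rw [hn]; norm_num)
  · exact Cfsg.Agent.S0144.result 17 3 1 0 (by norm_num) (by norm_num) (by rw [hn]; norm_num)
  · exact Cfsg.Agent.S0144.result 2 3 1 2 (by norm_num) (by norm_num) (by rw [hn]; norm_num)
  · exact Cfsg.Agent.S0144.result 19 3 1 0 (by norm_num) (by norm_num) (by rw [hn]; norm_num)
  · exact Cfsg.Agent.S0144.result 2 5 2 1 (by norm_num) (by norm_num) (by rw [hn]; norm_num)
  · exact Cfsg.Agent.S0144.result 3 7 1 1 (by norm_num) (by norm_num) (by rw [hn]; norm_num)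
  · exact Cfsg.Agent.S0144.result 2 11 1 1 (by norm_num) (by norm_num) (by rw [hn]; norm_num)
  · exact Cfsg.Agent.S0144.result 23 3 1 0 (by norm_num) (by norm_num) (by rw [hn]; norm_num)
  · exact Cfsg.Agent.S0144.result 2 3 3 1 (by norm_num) (by norm_num) (by rw [hn]; norm_num)
  · exact Cfsg.Agent.S0144.result 5 3 2 0 (by norm_num) (by norm_num) (by rw [hn]; norm_num)
  · exact Cfsg.Agent.S0144.result 2 13 1 1 (by norm_num) (by norm_num) (by rw [hn]; norm_num)
  · exact Cfsg.Agent.S0144.result 3 2 3 0 (by norm_num) (by norm_num) (by rw [hn]; norm_num)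
  · exact Cfsg.Agent.S0144.result 2 7 2 1 (by norm_num) (by norm_num) (by rw [hn]; norm_num)
  · exact Cfsg.Agent.S0144.result 29 3 1 0 (by norm_num) (by norm_num) (by rw [hn]; norm_num)
  · exact solvable_of_card_30 hn
  · exact Cfsg.Agent.S0144.result 31 3 1 0 (by norm_num) (by norm_num) (by rw [hn]; norm_num)
  · exact Cfsg.Agent.S0144.result 2 3 5 0 (by norm_num) (by norm_num) (by rw [hn]; norm_num)
  · exact Cfsg.Agent.S0144.result 3 11 1 1 (by norm_num) (by norm_num) (by rw [hn]; norm_num)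
  · exact Cfsg.Agent.S0144.result 2 17 1 1 (by norm_num) (by norm_num) (by rw [hn]; norm_num)
  · exact Cfsg.Agent.S0144.result 5 7 1 1 (by norm_num) (by norm_num) (by rw [hn]; norm_num)
  · exact Cfsg.Agent.S0144.result 2 3 2 2 (by norm_num) (by norm_num) (by rw [hn]; norm_num)
  · exact Cfsg.Agent.S0144.result 37 3 1 0 (by norm_num) (by norm_num) (by rw [hn]; norm_num)
  · exact Cfsg.Agent.S0144.result 2 19 1 1 (by norm_num) (by norm_num) (by rw [hn]; norm_num)
  · exact Cfsg.Agent.S0144.result 3 13 1 1 (by norm_num) (by norm_num) (by rw [hn]; norm_num)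
  · exact Cfsg.Agent.S0144.result 2 5 3 1 (by norm_num) (by norm_num) (by rw [hn]; norm_num)
  · exact Cfsg.Agent.S0144.result 41 3 1 0 (by norm_num) (by norm_num) (by rw [hn]; norm_num)
  · exact solvable_of_card_42 hn
  · exact Cfsg.Agent.S0144.result 43 3 1 0 (by norm_num) (by norm_num) (by rw [hn]; norm_num)
  · exact Cfsg.Agent.S0144.result 2 11 2 1 (by norm_num) (by norm_num) (by rw [hn]; norm_num)
  · exact Cfsg.Agent.S0144.result 3 5 2 1 (by norm_num) (by norm_num) (by rw [hn]; norm_num)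
  · exact Cfsg.Agent.S0144.result 2 23 1 1 (by norm_num) (by norm_num) (by rw [hn]; norm_num)
  · exact Cfsg.Agent.S0144.result 47 3 1 0 (by norm_num) (by norm_num) (by rw [hn]; norm_num)
  · exact Cfsg.Agent.S0144.result 2 3 4 1 (by norm_num) (by norm_num) (by rw [hn]; norm_num)
  · exact Cfsg.Agent.S0144.result 7 3 2 0 (by norm_num) (by norm_num) (by rw [hn]; norm_num)
  · exact Cfsg.Agent.S0144.result 2 5 1 2 (by norm_num) (by norm_num) (by rw [hn]; norm_num)
  · exact Cfsg.Agent.S0144.result 3 17 1 1 (by norm_num) (by norm_num) (by rw [hn]; norm_num)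
  · exact Cfsg.Agent.S0144.result 2 13 2 1 (by norm_num) (by norm_num) (by rw [hn]; norm_num)
  · exact Cfsg.Agent.S0144.result 53 3 1 0 (by norm_num) (by norm_num) (by rw [hn]; norm_num)
  · exact Cfsg.Agent.S0144.result 2 3 1 3 (by norm_num) (by norm_num) (by rw [hn]; norm_num)
  · exact Cfsg.Agent.S0144.result 5 11 1 1 (by norm_num) (by norm_num) (by rw [hn]; norm_num)
  · exact Cfsg.Agent.S0144.result 2 7 3 1 (by norm_num) (by norm_num) (by rw [hn]; norm_num)
  · exact Cfsg.Agent.S0144.result 3 19 1 1 (by norm_num) (by norm_num) (by rw [hn]; norm_num)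
  · exact Cfsg.Agent.S0144.result 2 29 1 1 (by norm_num) (by norm_num) (by rw [hn]; norm_num)
  · exact Cfsg.Agent.S0144.result 59 3 1 0 (by norm_num) (by norm_num) (by rw [hn]; norm_num)

theorem main : Small := by
  intro X _ _ h
  exact small_aux (Nat.card X) rfl h

end Cfsg.Agent.Lib.Helper66.JzSMALL
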