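import Mathlib
import Cfsg.Prelude.Def_KGroupFacts

/-!
# Künneth formula for the Schur multiplier, lower bound

Given stem extensions `σ₁ : Γ₁ → Q₁` and `σ₂ : Γ₂ → Q₂` we build a stem extension of
`Q₁ × Q₂` with kernel `ker σ₁ × ker σ₂ × (Q₁ᵃᵇ ⊗ Q₂ᵃᵇ)`: the semidirect product
`(Γ₁ × T) ⋊ Γ₂`, where `Γ₂` acts through the bilinear pairing `Γ₁ × Γ₂ → T = Q₁ᵃᵇ ⊗ Q₂ᵃᵇ`.
-/

set_option autoImplicit false

namespace Cfsg.Agent.Lib.Helper66.KunnethLower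

open scoped TensorProduct commutatorElement

/-- The tensor product of the commutator quotients, written multiplicatively. -/
abbrev TT (Q₁ Q₂ : Type*) [Group Q₁] [Group Q₂] : Type _ :=
  Multiplicative (TensorProduct ℤ (Additive (Abelianization Q₁)) (Additive (Abelianization Q₂)))

theorem map_mem_commutator {G H : Type*} [Group G] [Group H] (f : G →* H) {x : G}
    (hx : x ∈ _root_.commutator G) : f x ∈ _root_.commutator H := by
  rw [← Abelianization.ker_of, MonoidHom.mem_ker, ← MonoidHom.comp_apply]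
  exact Abelianization.commutator_subset_ker _ hx

instance finite_TT (Q₁ Q₂ : Type*) [Group Q₁] [Group Q₂] [Finite Q₁] [Finite Q₂] :
    Finite (TT Q₁ Q₂) := by
  have h : Finite (TensorProduct ℤ (Additive (Abelianization Q₁))
      (Additive (Abelianization Q₂))) := by
    have hfin : Module.Finite ℤ (TensorProduct ℤ (Additive (Abelianization Q₁))
        (Additive (Abelianization Q₂))) := Module.Finite.tensorProduct ℤ _ _
    apply Module.finite_of_fg_torsion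
    intro x
    refine ⟨⟨(Nat.card (Abelianization Q₁) : ℤ), ?_⟩, ?_⟩
    · rw [mem_nonZeroDivisors_iff_ne_zero]
      exact_mod_cast Nat.card_pos.ne'
    · show (Nat.card (Abelianization Q₁) : ℤ) • x = 0
      induction x using TensorProduct.induction_on with
      | zero => rw [smul_zero]
      | tmul a b =>
        rw [TensorProduct.smul_tmul', natCast_zsmul]
        have : Nat.card (Abelianization Q₁) • a = 0 := by
          have h1 : (Additive.toMul a) ^ Nat.card (Abelianization Q₁) = 1 := pow_card_eq_one'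
          exact congrArg Additive.ofMul h1
        rw [this, TensorProduct.zero_tmul]
      | add x y hx hy => rw [smul_add, hx, hy, add_zero]
  exact Finite.of_equiv _ Multiplicative.ofAdd

section

variable {Γ₁ Γ₂ Q₁ Q₂ : Type*} [Group Γ₁] [Group Γ₂] [Group Q₁] [Group Q₂]
  (σ₁ : Γ₁ →* Q₁) (σ₂ : Γ₂ →* Q₂)

/-- The pairing `Γ₁ × Γ₂ → Q₁ᵃᵇ ⊗ Q₂ᵃᵇ`. -/
def β (g₁ : Γ₁) (g₂ : Γ₂) : TT Q₁ Q₂ :=
  Multiplicative.ofAdd (Additive.ofMul (Abelianization.of (σ₁ g₁)) ⊗ₜ[ℤ]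
    Additive.ofMul (Abelianization.of (σ₂ g₂)))

theorem β_mul_left (g₁ h₁ : Γ₁) (g₂ : Γ₂) :
    β σ₁ σ₂ (g₁ * h₁) g₂ = β σ₁ σ₂ g₁ g₂ * β σ₁ σ₂ h₁ g₂ := by
  unfold β
  rw [map_mul, map_mul, ofMul_mul, TensorProduct.add_tmul, ofAdd_add]

theorem β_mul_right (g₁ : Γ₁) (g₂ h₂ : Γ₂) :
    β σ₁ σ₂ g₁ (g₂ * h₂) = β σ₁ σ₂ g₁ g₂ * β σ₁ σ₂ g₁ h₂ := by
  unfold β
  rw [map_mul, map_mul, ofMul_mul, TensorProduct.tmul_add, ofAdd_add]

theorem β_ker_left (k : Γ₁) (hk : σ₁ k = 1) (g₂ : Γ₂) : β σ₁ σ₂ k g₂ = 1 := by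
  unfold β
  rw [hk, map_one, ofMul_one, TensorProduct.zero_tmul, ofAdd_zero]

theorem β_ker_right (g₁ : Γ₁) (k : Γ₂) (hk : σ₂ k = 1) : β σ₁ σ₂ g₁ k = 1 := by
  unfold β
  rw [hk, map_one, ofMul_one, TensorProduct.tmul_zero, ofAdd_zero]

theorem β_one_left (g₂ : Γ₂) : β σ₁ σ₂ 1 g₂ = 1 := β_ker_left σ₁ σ₂ 1 (map_one _) g₂

theorem β_one_right (g₁ : Γ₁) : β σ₁ σ₂ g₁ 1 = 1 := β_ker_right σ₁ σ₂ g₁ 1 (map_one _)

theorem β_inv_right (g₁ : Γ₁) (g₂ : Γ₂) : β σ₁ σ₂ g₁ g₂⁻¹ = (β σ₁ σ₂ g₁ g₂)⁻¹ := by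
  rw [eq_inv_iff_mul_eq_one, ← β_mul_right, inv_mul_cancel, β_one_right]

/-- The action of `Γ₂` on `Γ₁ × T`. -/
def φ : Γ₂ →* MulAut (Γ₁ × TT Q₁ Q₂) where
  toFun g₂ :=
    { toFun := fun x => (x.1, x.2 * β σ₁ σ₂ x.1 g₂)
      invFun := fun x => (x.1, x.2 * (β σ₁ σ₂ x.1 g₂)⁻¹)
      left_inv := fun x => by simp
      right_inv := fun x => by simp
      map_mul' := fun x y => by
        apply Prod.ext
        · rfl
        · show x.2 * y.2 * β σ₁ σ₂ (x.1 * y.1) g₂ =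
            x.2 * β σ₁ σ₂ x.1 g₂ * (y.2 * β σ₁ σ₂ y.1 g₂)
          rw [β_mul_left, mul_mul_mul_comm] }
  map_one' := by
    apply MulEquiv.ext
    intro x
    apply Prod.ext
    · rfl
    · show x.2 * β σ₁ σ₂ x.1 1 = x.2
      rw [β_one_right, mul_one]
  map_mul' := fun g h => by
    apply MulEquiv.ext
    intro x
    apply Prod.ext
    · rfl
    · show x.2 * β σ₁ σ₂ x.1 (g * h) = x.2 * β σ₁ σ₂ x.1 h * β σ₁ σ₂ x.1 g
      rw [β_mul_right, mul_assoc, mul_comm (β σ₁ σ₂ x.1 g)]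

theorem φ_apply (g₂ : Γ₂) (x : Γ₁ × TT Q₁ Q₂) :
    φ σ₁ σ₂ g₂ x = (x.1, x.2 * β σ₁ σ₂ x.1 g₂) := rfl

/-- The twisted product. -/
abbrev Tw : Type _ := (Γ₁ × TT Q₁ Q₂) ⋊[φ σ₁ σ₂] Γ₂

/-- The projection of the twisted product onto `Q₁ × Q₂`. -/
def σT : Tw σ₁ σ₂ →* Q₁ × Q₂ where
  toFun x := (σ₁ x.left.1, σ₂ x.right)
  map_one' := by
    apply Prod.ext
    · show σ₁ (1 : Γ₁) = 1
      exact map_one _
    · show σ₂ (1 : Γ₂) = 1
      exact map_one _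
  map_mul' x y := by
    apply Prod.ext
    · show σ₁ (x.left.1 * y.left.1) = σ₁ x.left.1 * σ₁ y.left.1
      exact map_mul _ _ _
    · show σ₂ (x.right * y.right) = σ₂ x.right * σ₂ y.right
      exact map_mul _ _ _

theorem σT_apply (x : Tw σ₁ σ₂) : σT σ₁ σ₂ x = (σ₁ x.left.1, σ₂ x.right) := rfl

theorem mem_ker_σT (x : Tw σ₁ σ₂) :
    x ∈ (σT σ₁ σ₂).ker ↔ σ₁ x.left.1 = 1 ∧ σ₂ x.right = 1 := by
  rw [MonoidHom.mem_ker, σT_apply, Prod.ext_iff]; rfl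

theorem σT_surjective (h₁ : Function.Surjective σ₁) (h₂ : Function.Surjective σ₂) :
    Function.Surjective (σT σ₁ σ₂) := by
  rintro ⟨q₁, q₂⟩
  obtain ⟨g₁, rfl⟩ := h₁ q₁
  obtain ⟨g₂, rfl⟩ := h₂ q₂
  exact ⟨⟨(g₁, 1), g₂⟩, rfl⟩

theorem ker_σT_le_center (hc₁ : σ₁.ker ≤ Subgroup.center Γ₁)
    (hc₂ : σ₂.ker ≤ Subgroup.center Γ₂) : (σT σ₁ σ₂).ker ≤ Subgroup.center (Tw σ₁ σ₂) := by
  intro x hx
  obtain ⟨hx1, hx2⟩ := (mem_ker_σT σ₁ σ₂ x).mp hx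
  rw [Subgroup.mem_center_iff]
  intro y
  apply SemidirectProduct.ext
  · rw [SemidirectProduct.mul_left, SemidirectProduct.mul_left, φ_apply, φ_apply]
    apply Prod.ext
    · show y.left.1 * x.left.1 = x.left.1 * y.left.1
      exact Subgroup.mem_center_iff.mp (hc₁ hx1) y.left.1
    · show y.left.2 * (x.left.2 * β σ₁ σ₂ x.left.1 y.right) =
        x.left.2 * (y.left.2 * β σ₁ σ₂ y.left.1 x.right)
      rw [β_ker_left σ₁ σ₂ _ hx1, β_ker_right σ₁ σ₂ _ _ hx2, mul_one, mul_one, mul_comm]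
  · rw [SemidirectProduct.mul_right, SemidirectProduct.mul_right]
    exact Subgroup.mem_center_iff.mp (hc₂ hx2) y.right

theorem inl_tensor_mem_commutator (h₁ : Function.Surjective σ₁) (h₂ : Function.Surjective σ₂)
    (t : TT Q₁ Q₂) :
    (SemidirectProduct.inl ((1 : Γ₁), t) : Tw σ₁ σ₂) ∈ _root_.commutator (Tw σ₁ σ₂) := by
  have key : ∀ s : TensorProduct ℤ (Additive (Abelianization Q₁)) (Additive (Abelianization Q₂)),
      (SemidirectProduct.inl ((1 : Γ₁), Multiplicative.ofAdd s) : Tw σ₁ σ₂) ∈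
        _root_.commutator (Tw σ₁ σ₂) := by
    intro s
    induction s using TensorProduct.induction_on with
    | zero =>
      have : (((1 : Γ₁), Multiplicative.ofAdd (0 : TensorProduct ℤ (Additive (Abelianization Q₁))
          (Additive (Abelianization Q₂)))) : Γ₁ × TT Q₁ Q₂) = 1 := rfl
      rw [this, map_one]
      exact Subgroup.one_mem _
    | tmul a b =>
      obtain ⟨q₁, hq₁⟩ := QuotientGroup.mk_surjective (s := _root_.commutator Q₁) (Additive.toMul a)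
      obtain ⟨q₂, hq₂⟩ := QuotientGroup.mk_surjective (s := _root_.commutator Q₂) (Additive.toMul b)
      obtain ⟨g₁, rfl⟩ := h₁ q₁
      obtain ⟨g₂, rfl⟩ := h₂ q₂
      have hab : Multiplicative.ofAdd (a ⊗ₜ[ℤ] b) = β σ₁ σ₂ g₁ g₂ := by
        unfold β
        have ha : a = Additive.ofMul (Abelianization.of (σ₁ g₁)) := congrArg Additive.ofMul hq₁.symm
        have hb : b = Additive.ofMul (Abelianization.of (σ₂ g₂)) := congrArg Additive.ofMul hq₂.symm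
        rw [ha, hb]
      rw [hab]
      have h3 : (SemidirectProduct.inl ((1 : Γ₁), β σ₁ σ₂ g₁ g₂) : Tw σ₁ σ₂) =
          ⁅(SemidirectProduct.inr g₂ : Tw σ₁ σ₂), SemidirectProduct.inl (g₁, 1)⁆ := by
        rw [commutatorElement_def, ← map_inv, ← SemidirectProduct.inl_aut, ← map_inv, ← map_mul,
          φ_apply]
        congr 1
        apply Prod.ext
        · show (1 : Γ₁) = g₁ * g₁⁻¹
          rw [mul_inv_cancel]
        · show β σ₁ σ₂ g₁ g₂ = 1 * β σ₁ σ₂ g₁ g₂ * 1⁻¹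
          rw [one_mul, inv_one, mul_one]
      rw [h3, commutator_def]
      exact Subgroup.commutator_mem_commutator (Subgroup.mem_top _) (Subgroup.mem_top _)
    | add x y hx hy =>
      have : (((1 : Γ₁), Multiplicative.ofAdd (x + y)) : Γ₁ × TT Q₁ Q₂) =
          ((1 : Γ₁), Multiplicative.ofAdd x) * ((1 : Γ₁), Multiplicative.ofAdd y) := by
        apply Prod.ext
        · show (1 : Γ₁) = 1 * 1
          rw [one_mul]
        · rfl
      rw [this, map_mul]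
      exact Subgroup.mul_mem _ hx hy
  exact key (Multiplicative.toAdd t)

theorem ker_σT_le_commutator (h₁ : Function.Surjective σ₁) (h₂ : Function.Surjective σ₂)
    (hk₁ : σ₁.ker ≤ _root_.commutator Γ₁) (hk₂ : σ₂.ker ≤ _root_.commutator Γ₂) :
    (σT σ₁ σ₂).ker ≤ _root_.commutator (Tw σ₁ σ₂) := by
  intro x hx
  obtain ⟨hx1, hx2⟩ := (mem_ker_σT σ₁ σ₂ x).mp hx
  have h3 : x = SemidirectProduct.inl (x.left.1, 1) * SemidirectProduct.inl (1, x.left.2) *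
      SemidirectProduct.inr x.right := by
    rw [← map_mul]
    have : ((x.left.1, 1) : Γ₁ × TT Q₁ Q₂) * (1, x.left.2) = x.left := by
      apply Prod.ext
      · show x.left.1 * 1 = x.left.1
        rw [mul_one]
      · show 1 * x.left.2 = x.left.2
        rw [one_mul]
    rw [this, SemidirectProduct.inl_left_mul_inr_right]
  rw [h3]
  refine Subgroup.mul_mem _ (Subgroup.mul_mem _ ?_ (inl_tensor_mem_commutator σ₁ σ₂ h₁ h₂ _)) ?_
  · exact map_mem_commutator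
      ((SemidirectProduct.inl : Γ₁ × TT Q₁ Q₂ →* Tw σ₁ σ₂).comp (MonoidHom.inl Γ₁ (TT Q₁ Q₂)))
      (hk₁ hx1)
  · exact map_mem_commutator (SemidirectProduct.inr : Γ₂ →* Tw σ₁ σ₂) (hk₂ hx2)

theorem σT_isStem (h₁ : Cfsg.IsStemExtension σ₁) (h₂ : Cfsg.IsStemExtension σ₂) :
    Cfsg.IsStemExtension (σT σ₁ σ₂) :=
  ⟨σT_surjective σ₁ σ₂ h₁.1 h₂.1, ker_σT_le_center σ₁ σ₂ h₁.2.1 h₂.2.1,
    ker_σT_le_commutator σ₁ σ₂ h₁.1 h₂.1 h₁.2.2 h₂.2.2⟩

/-- The kernel of the twisted product extension. -/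
def kerEquiv : (σT σ₁ σ₂).ker ≃* σ₁.ker × σ₂.ker × TT Q₁ Q₂ where
  toFun x := (⟨x.1.left.1, ((mem_ker_σT σ₁ σ₂ x.1).mp x.2).1⟩,
    ⟨x.1.right, ((mem_ker_σT σ₁ σ₂ x.1).mp x.2).2⟩, x.1.left.2)
  invFun y := ⟨⟨(y.1.1, y.2.2), y.2.1.1⟩, (mem_ker_σT σ₁ σ₂ _).mpr ⟨y.1.2, y.2.1.2⟩⟩
  left_inv x := rfl
  right_inv y := rfl
  map_mul' x y := by
    apply Prod.ext
    · rfl
    · apply Prod.ext
      · rfl
      · show x.1.left.2 * (y.1.left.2 * β σ₁ σ₂ y.1.left.1 x.1.right) = x.1.left.2 * y.1.left.2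
        rw [β_ker_right σ₁ σ₂ _ _ ((mem_ker_σT σ₁ σ₂ x.1).mp x.2).2, mul_one]

instance finite_Tw [Finite Γ₁] [Finite Γ₂] [Finite Q₁] [Finite Q₂] : Finite (Tw σ₁ σ₂) :=
  Finite.of_equiv _ SemidirectProduct.equivProd.symm

end

universe u v w

/-- Lower bound in the Künneth formula: a finite stem extension of `Q₁ × Q₂` with kernel
`A × B × (Q₁ᵃᵇ ⊗ Q₂ᵃᵇ)`. -/
theorem exists_stem {Q₁ : Type u} {Q₂ : Type v} [Group Q₁] [Group Q₂] [Finite Q₁] [Finite Q₂]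
    {A B : Type w} [CommGroup A] [CommGroup B] (hA : Cfsg.HasSchurMultiplier Q₁ A)
    (hB : Cfsg.HasSchurMultiplier Q₂ B) :
    ∃ (Γ : Type (max u v)) (_ : Group Γ) (_ : Finite Γ) (σ : Γ →* Q₁ × Q₂),
      Cfsg.IsStemExtension σ ∧ Nonempty (σ.ker ≃* A × B × TT Q₁ Q₂) := by
  obtain ⟨Γ₁, i₁, j₁, σ₁, hσ₁, ⟨e₁⟩⟩ := hA.1
  obtain ⟨Γ₂, i₂, j₂, σ₂, hσ₂, ⟨e₂⟩⟩ := hB.1
  exact ⟨Tw σ₁ σ₂, inferInstance, inferInstance, σT σ₁ σ₂, σT_isStem σ₁ σ₂ hσ₁ hσ₂,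
    ⟨(kerEquiv σ₁ σ₂).trans (MulEquiv.prodCongr e₁ (MulEquiv.prodCongr e₂ (MulEquiv.refl _)))⟩⟩

end Cfsg.Agent.Lib.Helper66.KunnethLower
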