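import Mathlib
import Cfsg.Prelude.Def_KGroupFacts
import Cfsg.Agent.Lib.Helper66.Hopf2
import Cfsg.Agent.Lib.Helper66.KunnethLower

/-!
# Künneth formula for the Schur multiplier, upper bound

The kernel of every stem extension of `Q₁ × Q₂` is an image of `A × B × (Q₁ᵃᵇ ⊗ Q₂ᵃᵇ)`.
-/

set_option autoImplicit false

namespace Cfsg.Agent.Lib.Helper66.KunnethUpper

open scoped TensorProduct commutatorElement
open Cfsg.Agent.Lib.Helper66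

/-- A bimultiplicative pairing which factors through commutative quotients induces a
homomorphism on the tensor product. -/
theorem exists_pairing {G₁ G₂ P₁ P₂ K : Type*} [Group G₁] [Group G₂] [CommGroup P₁]
    [CommGroup P₂] [CommGroup K] (ρ₁ : G₁ →* P₁) (ρ₂ : G₂ →* P₂)
    (h₁ : Function.Surjective ρ₁) (h₂ : Function.Surjective ρ₂) (c : G₁ → G₂ → K)
    (hc1 : ∀ x x' y, c (x * x') y = c x y * c x' y)
    (hc2 : ∀ x y y', c x (y * y') = c x y * c x y')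
    (hk1 : ∀ x y, ρ₁ x = 1 → c x y = 1) (hk2 : ∀ x y, ρ₂ y = 1 → c x y = 1) :
    ∃ g : Multiplicative (TensorProduct ℤ (Additive P₁) (Additive P₂)) →* K,
      ∀ x y, g (Multiplicative.ofAdd (Additive.ofMul (ρ₁ x) ⊗ₜ[ℤ] Additive.ofMul (ρ₂ y))) =
        c x y := by
  -- the pairing as homomorphisms in each variable
  let cL : G₂ → G₁ →* K := fun y => MonoidHom.mk' (fun x => c x y) (fun x x' => hc1 x x' y)
  let cR : G₁ → G₂ →* K := fun x => MonoidHom.mk' (fun y => c x y) (fun y y' => hc2 x y y')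
  have hcL : ∀ x y, cL y x = c x y := fun x y => rfl
  have hcR : ∀ x y, cR x y = c x y := fun x y => rfl
  have key1 : ∀ x x' y, ρ₁ x = ρ₁ x' → c x y = c x' y := by
    intro x x' y h
    have h2 : c (x * x'⁻¹) y = 1 := hk1 _ _ (by rw [map_mul, map_inv, h, mul_inv_cancel])
    rw [← hcL, map_mul, map_inv, mul_inv_eq_one] at h2
    exact h2
  have key2 : ∀ x y y', ρ₂ y = ρ₂ y' → c x y = c x y' := by
    intro x y y' h
    have h2 : c x (y * y'⁻¹) = 1 := hk2 _ _ (by rw [map_mul, map_inv, h, mul_inv_cancel])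
    rw [← hcR, map_mul, map_inv, mul_inv_eq_one] at h2
    exact h2
  let s₁ : P₁ → G₁ := Function.surjInv h₁
  let s₂ : P₂ → G₂ := Function.surjInv h₂
  have hs₁ : ∀ a, ρ₁ (s₁ a) = a := Function.surjInv_eq h₁
  have hs₂ : ∀ b, ρ₂ (s₂ b) = b := Function.surjInv_eq h₂
  let bil : Additive P₁ →ₗ[ℤ] Additive P₂ →ₗ[ℤ] Additive K :=
    LinearMap.mk₂ ℤ (fun a b => Additive.ofMul (c (s₁ a.toMul) (s₂ b.toMul)))
      (fun a a' b => by
        show Additive.ofMul (c (s₁ (a.toMul * a'.toMul)) (s₂ b.toMul)) =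
          Additive.ofMul (c (s₁ a.toMul) (s₂ b.toMul) * c (s₁ a'.toMul) (s₂ b.toMul))
        rw [← hc1]
        exact congrArg _ (key1 _ _ _ (by rw [hs₁, map_mul, hs₁, hs₁])))
      (fun n a b => by
        have e1 : c (s₁ ((Additive.toMul a) ^ n)) (s₂ (Additive.toMul b)) =
            c ((s₁ (Additive.toMul a)) ^ n) (s₂ (Additive.toMul b)) :=
          key1 _ _ _ (by rw [hs₁, map_zpow, hs₁])
        have e2 : c ((s₁ (Additive.toMul a)) ^ n) (s₂ (Additive.toMul b)) =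
            (c (s₁ (Additive.toMul a)) (s₂ (Additive.toMul b))) ^ n :=
          map_zpow (cL (s₂ (Additive.toMul b))) (s₁ (Additive.toMul a)) n
        exact congrArg Additive.ofMul (e1.trans e2))
      (fun a b b' => by
        show Additive.ofMul (c (s₁ a.toMul) (s₂ (b.toMul * b'.toMul))) =
          Additive.ofMul (c (s₁ a.toMul) (s₂ b.toMul) * c (s₁ a.toMul) (s₂ b'.toMul))
        rw [← hc2]
        exact congrArg _ (key2 _ _ _ (by rw [hs₂, map_mul, hs₂, hs₂])))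
      (fun n a b => by
        have e1 : c (s₁ (Additive.toMul a)) (s₂ ((Additive.toMul b) ^ n)) =
            c (s₁ (Additive.toMul a)) ((s₂ (Additive.toMul b)) ^ n) :=
          key2 _ _ _ (by rw [hs₂, map_zpow, hs₂])
        have e2 : c (s₁ (Additive.toMul a)) ((s₂ (Additive.toMul b)) ^ n) =
            (c (s₁ (Additive.toMul a)) (s₂ (Additive.toMul b))) ^ n :=
          map_zpow (cR (s₁ (Additive.toMul a))) (s₂ (Additive.toMul b)) n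
        exact congrArg Additive.ofMul (e1.trans e2))
  refine ⟨AddMonoidHom.toMultiplicativeLeft (TensorProduct.lift bil).toAddMonoidHom, ?_⟩
  intro x y
  show Additive.toMul (TensorProduct.lift bil
    (Additive.ofMul (ρ₁ x) ⊗ₜ[ℤ] Additive.ofMul (ρ₂ y))) = c x y
  rw [TensorProduct.lift.tmul]
  show c (s₁ (ρ₁ x)) (s₂ (ρ₂ y)) = c x y
  rw [key1 _ x _ (hs₁ _), key2 _ _ y (hs₂ _)]

/-- A central kernel is a commutative group. -/
@[reducible] def commGroupKer {Γ Q : Type*} [Group Γ] [Group Q] (σ : Γ →* Q)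
    (hc : σ.ker ≤ Subgroup.center Γ) : CommGroup σ.ker :=
  { (inferInstance : Group σ.ker) with
    mul_comm := fun a b => Subtype.ext (Subgroup.mem_center_iff.mp (hc a.2) b).symm }

theorem map_commutator_of_surjective {E Q : Type*} [Group E] [Group Q] (ρ : E →* Q)
    (hρ : Function.Surjective ρ) : (_root_.commutator E).map ρ = _root_.commutator Q := by
  rw [commutator_def, Subgroup.map_commutator, ← MonoidHom.range_eq_map,
    MonoidHom.range_eq_top.mpr hρ, ← commutator_def]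

theorem commutatorElement_mul_left' {X : Type*} [Group X] (x y z : X) :
    ⁅x * y, z⁆ = x * ⁅y, z⁆ * x⁻¹ * ⁅x, z⁆ := by
  rw [commutatorElement_def, commutatorElement_def, commutatorElement_def]; group

theorem commutatorElement_mul_right' {X : Type*} [Group X] (x y z : X) :
    ⁅x, y * z⁆ = ⁅x, y⁆ * (y * ⁅x, z⁆ * y⁻¹) := by
  rw [commutatorElement_def, commutatorElement_def, commutatorElement_def]; group

universe u v w

/-- Upper bound in the Künneth formula. -/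
theorem exists_surjective {Q₁ : Type u} {Q₂ : Type v} [Group Q₁] [Group Q₂] [Finite Q₁]
    [Finite Q₂] {A B : Type w} [CommGroup A] [CommGroup B]
    (hA : Cfsg.HasSchurMultiplier Q₁ A) (hB : Cfsg.HasSchurMultiplier Q₂ B)
    {Γ : Type*} [Group Γ] (σ : Γ →* Q₁ × Q₂) (hσ : Cfsg.IsStemExtension σ) :
    ∃ π : A × B × KunnethLower.TT Q₁ Q₂ →* σ.ker, Function.Surjective π := by
  obtain ⟨hσs, hσc, hσk⟩ := hσ
  letI : CommGroup σ.ker := commGroupKer σ hσc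
  let Γ₁ : Subgroup Γ := ((MonoidHom.snd Q₁ Q₂).comp σ).ker
  let Γ₂ : Subgroup Γ := ((MonoidHom.fst Q₁ Q₂).comp σ).ker
  have hΓ₁n : Γ₁.Normal := MonoidHom.normal_ker _
  have hΓ₂n : Γ₂.Normal := MonoidHom.normal_ker _
  have hΓ₁ : ∀ γ : Γ, γ ∈ Γ₁ ↔ (σ γ).2 = 1 := fun γ => MonoidHom.mem_ker
  have hΓ₂ : ∀ γ : Γ, γ ∈ Γ₂ ↔ (σ γ).1 = 1 := fun γ => MonoidHom.mem_ker
  have hkerσ : ∀ γ : Γ, γ ∈ σ.ker ↔ (σ γ).1 = 1 ∧ (σ γ).2 = 1 := fun γ => by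
    rw [MonoidHom.mem_ker, Prod.ext_iff]; rfl
  let σ₁ : Γ₁ →* Q₁ := ((MonoidHom.fst Q₁ Q₂).comp σ).comp Γ₁.subtype
  let σ₂ : Γ₂ →* Q₂ := ((MonoidHom.snd Q₁ Q₂).comp σ).comp Γ₂.subtype
  have hσ₁ : ∀ x : Γ₁, σ₁ x = (σ (x : Γ)).1 := fun x => rfl
  have hσ₂ : ∀ x : Γ₂, σ₂ x = (σ (x : Γ)).2 := fun x => rfl
  have hs₁ : Function.Surjective σ₁ := by
    intro q
    obtain ⟨γ, hγ⟩ := hσs (q, 1)
    exact ⟨⟨γ, (hΓ₁ γ).mpr (by rw [hγ])⟩, by rw [hσ₁]; simp only; rw [hγ]⟩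
  have hs₂ : Function.Surjective σ₂ := by
    intro q
    obtain ⟨γ, hγ⟩ := hσs (1, q)
    exact ⟨⟨γ, (hΓ₂ γ).mpr (by rw [hγ])⟩, by rw [hσ₂]; simp only; rw [hγ]⟩
  have hk₁ : ∀ x : Γ₁, x ∈ σ₁.ker → (x : Γ) ∈ σ.ker := by
    intro x hx
    exact (hkerσ _).mpr ⟨hx, (hΓ₁ _).mp x.2⟩
  have hk₂ : ∀ x : Γ₂, x ∈ σ₂.ker → (x : Γ) ∈ σ.ker := by
    intro x hx
    exact (hkerσ _).mpr ⟨(hΓ₂ _).mp x.2, hx⟩
  have hc₁ : σ₁.ker ≤ Subgroup.center Γ₁ := by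
    intro x hx
    rw [Subgroup.mem_center_iff]
    intro d
    exact Subtype.ext (Subgroup.mem_center_iff.mp (hσc (hk₁ x hx)) d)
  have hc₂ : σ₂.ker ≤ Subgroup.center Γ₂ := by
    intro x hx
    rw [Subgroup.mem_center_iff]
    intro d
    exact Subtype.ext (Subgroup.mem_center_iff.mp (hσc (hk₂ x hx)) d)
  obtain ⟨f₁, hf₁⟩ := Hopf2.exists_hom_of_hasSchurMultiplier hA σ₁ hs₁ hc₁
  obtain ⟨f₂, hf₂⟩ := Hopf2.exists_hom_of_hasSchurMultiplier hB σ₂ hs₂ hc₂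
  let g₁ : A →* σ.ker := (Γ₁.subtype.comp f₁).codRestrict σ.ker (fun a =>
    hk₁ _ (Subgroup.mem_inf.mp ((hf₁ (f₁ a)).mpr ⟨a, rfl⟩)).2)
  let g₂ : B →* σ.ker := (Γ₂.subtype.comp f₂).codRestrict σ.ker (fun b =>
    hk₂ _ (Subgroup.mem_inf.mp ((hf₂ (f₂ b)).mpr ⟨b, rfl⟩)).2)
  -- the commutator pairing
  have hcmem : ∀ (x : Γ₁) (y : Γ₂), ⁅(x : Γ), (y : Γ)⁆ ∈ σ.ker := by
    intro x y
    rw [hkerσ, map_commutatorElement]
    constructor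
    · change ⁅(σ x).1, (σ y).1⁆ = 1
      rw [(hΓ₂ y).mp y.2, commutatorElement_one_right]
    · change ⁅(σ x).2, (σ y).2⁆ = 1
      rw [(hΓ₁ x).mp x.2, commutatorElement_one_left]
  have hcentral : ∀ z ∈ σ.ker, ∀ g : Γ, g * z = z * g := fun z hz g =>
    Subgroup.mem_center_iff.mp (hσc hz) g
  let c : Γ₁ → Γ₂ → σ.ker := fun x y => ⟨⁅(x : Γ), (y : Γ)⁆, hcmem x y⟩
  have hc1 : ∀ x x' y, c (x * x') y = c x y * c x' y := by
    intro x x' y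
    apply Subtype.ext
    show ⁅(x : Γ) * (x' : Γ), (y : Γ)⁆ = ⁅(x : Γ), (y : Γ)⁆ * ⁅(x' : Γ), (y : Γ)⁆
    rw [commutatorElement_mul_left', hcentral _ (hcmem x' y) (x : Γ), mul_inv_cancel_right,
      hcentral _ (hcmem x' y)]
  have hc2 : ∀ x y y', c x (y * y') = c x y * c x y' := by
    intro x y y'
    apply Subtype.ext
    show ⁅(x : Γ), (y : Γ) * (y' : Γ)⁆ = ⁅(x : Γ), (y : Γ)⁆ * ⁅(x : Γ), (y' : Γ)⁆
    rw [commutatorElement_mul_right', hcentral _ (hcmem x y') (y : Γ), mul_inv_cancel_right]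
  let cL : Γ₂ → Γ₁ →* σ.ker := fun y => MonoidHom.mk' (fun x => c x y) (fun x x' => hc1 x x' y)
  let cR : Γ₁ → Γ₂ →* σ.ker := fun x => MonoidHom.mk' (fun y => c x y) (fun y y' => hc2 x y y')
  have hcL : ∀ x y, cL y x = c x y := fun x y => rfl
  have hcR : ∀ x y, cR x y = c x y := fun x y => rfl
  let ρ₁ : Γ₁ →* Abelianization Q₁ := Abelianization.of.comp σ₁
  let ρ₂ : Γ₂ →* Abelianization Q₂ := Abelianization.of.comp σ₂
  have hρ₁ : Function.Surjective ρ₁ := fun b => by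
    obtain ⟨q, rfl⟩ := QuotientGroup.mk_surjective b
    obtain ⟨x, rfl⟩ := hs₁ q
    exact ⟨x, rfl⟩
  have hρ₂ : Function.Surjective ρ₂ := fun b => by
    obtain ⟨q, rfl⟩ := QuotientGroup.mk_surjective b
    obtain ⟨x, rfl⟩ := hs₂ q
    exact ⟨x, rfl⟩
  have hk1 : ∀ x y, ρ₁ x = 1 → c x y = 1 := by
    intro x y hx
    have h1 : σ₁ x ∈ _root_.commutator Q₁ := by
      rw [← Abelianization.ker_of]; exact hx
    rw [← map_commutator_of_surjective σ₁ hs₁] at h1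
    obtain ⟨d, hd, hde⟩ := h1
    have h2 : d⁻¹ * x ∈ σ₁.ker := by
      rw [MonoidHom.mem_ker, map_mul, map_inv, hde, inv_mul_cancel]
    have h3 : x = d * (d⁻¹ * x) := by rw [mul_inv_cancel_left]
    rw [h3, hc1]
    have h4 : c d y = 1 :=
      MonoidHom.mem_ker.mp (Abelianization.commutator_subset_ker (A := σ.ker) (cL y) hd)
    have h5 : c (d⁻¹ * x) y = 1 := by
      apply Subtype.ext
      show ⁅((d⁻¹ * x : Γ₁) : Γ), (y : Γ)⁆ = 1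
      rw [commutatorElement_def, ← hcentral _ (hk₁ _ h2) (y : Γ), mul_inv_cancel_right,
        mul_inv_cancel]
    rw [h4, h5, one_mul]
  have hk2 : ∀ x y, ρ₂ y = 1 → c x y = 1 := by
    intro x y hy
    have h1 : σ₂ y ∈ _root_.commutator Q₂ := by
      rw [← Abelianization.ker_of]; exact hy
    rw [← map_commutator_of_surjective σ₂ hs₂] at h1
    obtain ⟨d, hd, hde⟩ := h1
    have h2 : d⁻¹ * y ∈ σ₂.ker := by
      rw [MonoidHom.mem_ker, map_mul, map_inv, hde, inv_mul_cancel]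
    have h3 : y = d * (d⁻¹ * y) := by rw [mul_inv_cancel_left]
    rw [h3, hc2]
    have h4 : c x d = 1 :=
      MonoidHom.mem_ker.mp (Abelianization.commutator_subset_ker (A := σ.ker) (cR x) hd)
    have h5 : c x (d⁻¹ * y) = 1 := by
      apply Subtype.ext
      show ⁅(x : Γ), ((d⁻¹ * y : Γ₂) : Γ)⁆ = 1
      rw [commutatorElement_def, hcentral _ (hk₂ _ h2) (x : Γ), mul_inv_cancel_right,
        mul_inv_cancel]
    rw [h4, h5, one_mul]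
  obtain ⟨g₃, hg₃⟩ := exists_pairing ρ₁ ρ₂ hρ₁ hρ₂ c hc1 hc2 hk1 hk2
  refine ⟨MonoidHom.coprod g₁ (MonoidHom.coprod g₂ g₃), ?_⟩
  -- the commutator subgroup of `Γ`
  let R₃ : Subgroup Γ := g₃.range.map σ.ker.subtype
  have hR₃n : R₃.Normal := Hopf.normal_of_le_center R₃ (by
    rintro _ ⟨k, _, rfl⟩
    exact hσc k.2)
  have hN₁n : (⁅Γ₁, Γ₁⁆ : Subgroup Γ).Normal := Subgroup.commutator_normal Γ₁ Γ₁
  have hN₂n : (⁅Γ₂, Γ₂⁆ : Subgroup Γ).Normal := Subgroup.commutator_normal Γ₂ Γ₂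
  let N : Subgroup Γ := (⁅Γ₁, Γ₁⁆ ⊔ ⁅Γ₂, Γ₂⁆) ⊔ R₃
  have hNn : N.Normal := Subgroup.sup_normal _ _
  have hN11 : ∀ a ∈ Γ₁, ∀ b ∈ Γ₁, ⁅a, b⁆ ∈ N := fun a ha b hb =>
    Subgroup.mem_sup_left (Subgroup.mem_sup_left (Subgroup.commutator_mem_commutator ha hb))
  have hN22 : ∀ a ∈ Γ₂, ∀ b ∈ Γ₂, ⁅a, b⁆ ∈ N := fun a ha b hb =>
    Subgroup.mem_sup_left (Subgroup.mem_sup_right (Subgroup.commutator_mem_commutator ha hb))
  have hN12 : ∀ a ∈ Γ₁, ∀ b ∈ Γ₂, ⁅a, b⁆ ∈ N := fun a ha b hb =>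
    Subgroup.mem_sup_right ⟨c ⟨a, ha⟩ ⟨b, hb⟩, ⟨_, hg₃ ⟨a, ha⟩ ⟨b, hb⟩⟩, rfl⟩
  have hN21 : ∀ a ∈ Γ₂, ∀ b ∈ Γ₁, ⁅a, b⁆ ∈ N := fun a ha b hb => by
    rw [← commutatorElement_inv]
    exact Subgroup.inv_mem _ (hN12 b hb a ha)
  have hdecomp : ∀ γ : Γ, ∃ γ₁ ∈ Γ₁, ∃ γ₂ ∈ Γ₂, γ = γ₁ * γ₂ := by
    intro γ
    obtain ⟨γ₁, hγ₁⟩ := hσs ((σ γ).1, 1)
    have h1 : γ₁ ∈ Γ₁ := (hΓ₁ γ₁).mpr (by rw [hγ₁])
    have h2 : γ₁⁻¹ * γ ∈ Γ₂ := by
      rw [hΓ₂, map_mul, map_inv, hγ₁]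
      change ((σ γ).1)⁻¹ * (σ γ).1 = 1
      rw [inv_mul_cancel]
    exact ⟨γ₁, h1, γ₁⁻¹ * γ, h2, by rw [mul_inv_cancel_left]⟩
  have hNright : ∀ x : Γ, (∀ b ∈ Γ₁, ⁅x, b⁆ ∈ N) → (∀ b ∈ Γ₂, ⁅x, b⁆ ∈ N) →
      ∀ b : Γ, ⁅x, b⁆ ∈ N := by
    intro x hx1 hx2 b
    obtain ⟨b₁, hb₁, b₂, hb₂, rfl⟩ := hdecomp b
    rw [commutatorElement_mul_right']
    exact Subgroup.mul_mem _ (hx1 b₁ hb₁) (hNn.conj_mem _ (hx2 b₂ hb₂) b₁)
  have hNall : ∀ a b : Γ, ⁅a, b⁆ ∈ N := by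
    intro a b
    obtain ⟨a₁, ha₁, a₂, ha₂, rfl⟩ := hdecomp a
    rw [commutatorElement_mul_left']
    exact Subgroup.mul_mem _
      (hNn.conj_mem _ (hNright a₂ (hN21 a₂ ha₂) (hN22 a₂ ha₂) b) a₁)
      (hNright a₁ (hN11 a₁ ha₁) (hN12 a₁ ha₁) b)
  have hcommN : _root_.commutator Γ ≤ N := by
    rw [commutator_def, Subgroup.commutator_le]
    intro a _ b _
    exact hNall a b
  rintro ⟨k, hk⟩
  obtain ⟨n12, hn12, r, hr, rfl⟩ := Subgroup.mem_sup_of_normal_right.mp (hcommN (hσk hk))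
  obtain ⟨c₁, hc₁', c₂, hc₂', rfl⟩ := Subgroup.mem_sup_of_normal_right.mp hn12
  rw [← Subgroup.map_subtype_commutator] at hc₁' hc₂'
  obtain ⟨d₁, hd₁, rfl⟩ := hc₁'
  obtain ⟨d₂, hd₂, rfl⟩ := hc₂'
  obtain ⟨_, ⟨t, rfl⟩, rfl⟩ := hr
  have hd₁' : d₁ ∈ _root_.commutator Γ₁ := hd₁
  have hd₂' : d₂ ∈ _root_.commutator Γ₂ := hd₂
  have hk12 : (d₁ : Γ) * (d₂ : Γ) ∈ σ.ker := by
    have h := Subgroup.mul_mem _ hk (Subgroup.inv_mem _ (g₃ t).2)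
    have e : Γ₁.subtype d₁ * Γ₂.subtype d₂ * σ.ker.subtype (g₃ t) * ((g₃ t : σ.ker) : Γ)⁻¹ =
        (d₁ : Γ) * (d₂ : Γ) := mul_inv_cancel_right _ _
    rw [e] at h
    exact h
  have hk' := (hkerσ _).mp hk12
  rw [map_mul] at hk'
  have e1 : (σ (d₁ : Γ)).1 = 1 := by
    have := hk'.1
    change (σ (d₁ : Γ)).1 * (σ (d₂ : Γ)).1 = 1 at this
    rwa [(hΓ₂ _).mp d₂.2, mul_one] at this
  have e2 : (σ (d₂ : Γ)).2 = 1 := by
    have := hk'.2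
    change (σ (d₁ : Γ)).2 * (σ (d₂ : Γ)).2 = 1 at this
    rwa [(hΓ₁ _).mp d₁.2, one_mul] at this
  obtain ⟨a, ha⟩ := (hf₁ d₁).mp (Subgroup.mem_inf.mpr ⟨hd₁', e1⟩)
  obtain ⟨b, hb⟩ := (hf₂ d₂).mp (Subgroup.mem_inf.mpr ⟨hd₂', e2⟩)
  refine ⟨(a, b, t), Subtype.ext ?_⟩
  show ((MonoidHom.coprod g₁ (MonoidHom.coprod g₂ g₃) (a, b, t) : σ.ker) : Γ) =
    (d₁ : Γ) * (d₂ : Γ) * ((g₃ t : σ.ker) : Γ)
  rw [MonoidHom.coprod_apply, MonoidHom.coprod_apply]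
  show ((f₁ a : Γ₁) : Γ) * (((f₂ b : Γ₂) : Γ) * ((g₃ t : σ.ker) : Γ)) = _
  rw [ha, hb, mul_assoc]

end Cfsg.Agent.Lib.Helper66.KunnethUpper
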