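import Cfsg.Agent.Lib.Helper66.M12CoverData
import Cfsg.Agent.Lib.Helper86.TabMathieu

set_option autoImplicit false

/-!
# A double cover of `M12`

The group `X` of pairs `(P, g)`, `g` in `M12` and `P` a permutation of the 24 points, read as
the twelve points of the dodecad with signs, that preserves the signed hexads (the words of
weight 6 of a ternary code of length 12) and induces `g` on the dodecad.  The second projection
is a central extension of `M12` whose kernel, of order 2, lies in the commutator subgroup.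
-/

namespace Cfsg.Agent.Lib.Helper66.M12Cover

open Cfsg Cfsg.Spor Cfsg.Agent.Lib.Helper7.GolayBase Cfsg.Agent.Lib.Helper7.GolayPerm
  Cfsg.Agent.Lib.Helper7.ChainGen Cfsg.Agent.Lib.Helper7.M12Core
  Cfsg.Agent.Lib.Helper86.TabGrp
  Cfsg.Agent.Lib.Helper86.TabMathieu Cfsg.Agent.Lib.Helper66.M12CoverData
open scoped commutatorElement

theorem apply_inv (P : Equiv.Perm GolayPt) (x : GolayPt) : P (P⁻¹ x) = x :=
  Equiv.apply_symm_apply P x

theorem inv_apply (P : Equiv.Perm GolayPt) (x : GolayPt) : P⁻¹ (P x) = x :=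
  Equiv.symm_apply_apply P x

/-- `P` maps every signed hexad to a signed hexad. -/
def Fwd (P : Equiv.Perm GolayPt) : Prop :=
  ∀ c ∈ SL, ∃ c' ∈ SL, ∀ p : GolayPt, c'.testBit (idx (P p)) = c.testBit (idx p)

theorem fwd_one : Fwd 1 := fun c hc => ⟨c, hc, fun _ => rfl⟩

theorem fwd_mul {P Q : Equiv.Perm GolayPt} (hP : Fwd P) (hQ : Fwd Q) : Fwd (P * Q) := by
  intro c hc
  obtain ⟨c1, hc1, h1⟩ := hQ c hc
  obtain ⟨c2, hc2, h2⟩ := hP c1 hc1
  exact ⟨c2, hc2, fun p => by rw [Equiv.Perm.mul_apply, h2, h1]⟩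

/-- The underlying point of a signed point. -/
def rho (p : GolayPt) : GolayPt := pt (rhoT.getD (idx p) 0)

/-- The group of pairs. -/
def X : Subgroup (Equiv.Perm GolayPt × Equiv.Perm GolayPt) where
  carrier := {x | x.2 ∈ M12 ∧ Fwd x.1 ∧ Fwd x.1⁻¹ ∧ ∀ p, rho (x.1 p) = x.2 (rho p)}
  one_mem' := ⟨M12.one_mem, fwd_one, by rw [Prod.fst_one, inv_one]; exact fwd_one, fun _ => rfl⟩
  mul_mem' := by
    rintro a b ⟨a1, a2, a3, a4⟩ ⟨b1, b2, b3, b4⟩
    refine ⟨M12.mul_mem a1 b1, fwd_mul a2 b2, ?_, fun p => ?_⟩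
    · rw [Prod.fst_mul, mul_inv_rev]; exact fwd_mul b3 a3
    · show rho (a.1 (b.1 p)) = a.2 (b.2 (rho p))
      rw [a4, b4]
  inv_mem' := by
    rintro a ⟨a1, a2, a3, a4⟩
    refine ⟨M12.inv_mem a1, a3, ?_, fun p => ?_⟩
    · rw [Prod.fst_inv, inv_inv]; exact a2
    · show rho (a.1⁻¹ p) = a.2⁻¹ (rho p)
      rw [Equiv.Perm.eq_inv_iff_eq, ← a4, apply_inv]

theorem mem_X {x : Equiv.Perm GolayPt × Equiv.Perm GolayPt} :
    x ∈ X ↔ x.2 ∈ M12 ∧ Fwd x.1 ∧ Fwd x.1⁻¹ ∧ ∀ p, rho (x.1 p) = x.2 (rho p) := Iff.rfl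

/-! ### Tables -/

/-- Table test for `Fwd` (on the inverse table). -/
def fwdT (t' : List Nat) : Bool := SL.all (fun c => SL.contains (permMask t' c))

theorem fwd_of_table {P : Equiv.Perm GolayPt} {t' : List Nat} (hr : Rep P⁻¹ t')
    (h : fwdT t' = true) : Fwd P := by
  intro c hc
  simp only [fwdT, List.all_eq_true, List.contains_iff_mem] at h
  refine ⟨permMask t' c, h c hc, fun p => ?_⟩
  unfold permMask
  rw [Nat.testBit_ofBits]
  simp only [idx_lt, dite_true]
  rw [hr.2 (P p), inv_apply]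

/-- Table test for the compatibility with the underlying points. -/
def rhoOK (PT gT : List Nat) : Bool :=
  (List.range 24).all (fun i => rhoT.getD (PT.getD i 0) 0 == gT.getD (rhoT.getD i 0) 0)

theorem rhoT_lt : ∀ i, i < 24 → rhoT.getD i 0 < 24 := by decide

theorem rho_of_table {P g : Equiv.Perm GolayPt} {PT gT : List Nat} (hP : Rep P PT)
    (hg : Rep g gT) (h : rhoOK PT gT = true) : ∀ p, rho (P p) = g (rho p) := by
  intro p
  simp only [rhoOK, List.all_eq_true, List.mem_range, beq_iff_eq] at h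
  unfold rho
  rw [hg.apply (rhoT_lt _ (idx_lt p)), ← hP.2 p, h _ (idx_lt p)]

theorem mem_X_of_tables (gT gT' PT PT' : List Nat) (h1 : inM12 gT gT' = true)
    (h2 : invOK PT PT' = true) (h3 : fwdT PT' = true) (h4 : fwdT PT = true)
    (h5 : rhoOK PT gT = true) :
    ∃ x ∈ X, Rep x.1 PT ∧ Rep x.1⁻¹ PT' ∧ Rep x.2 gT ∧ Rep x.2⁻¹ gT' := by
  obtain ⟨g, hg, hr, hr'⟩ := exists_M12 gT gT' h1
  refine ⟨(ofT PT PT' h2, g), ⟨hg, fwd_of_table (rep_ofT_inv PT PT' h2) h3, ?_,
    rho_of_table (rep_ofT PT PT' h2) hr h5⟩, rep_ofT PT PT' h2, rep_ofT_inv PT PT' h2, hr, hr'⟩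
  exact fwd_of_table (P := (ofT PT PT' h2)⁻¹) (by rw [inv_inv]; exact rep_ofT PT PT' h2) h4

/-! ### The sign change -/

/-- The sign change. -/
def tau : Equiv.Perm GolayPt := ofT tauT tauT (by decide)

theorem rep_tau : Rep tau tauT := rep_ofT _ _ _

theorem tau_idx (p : GolayPt) : idx (tau p) = tauT.getD (idx p) 0 := (rep_tau.2 p).symm

theorem tau_inv : tau⁻¹ = tau := Rep.ext (rep_ofT_inv tauT tauT _) rep_tau

theorem tau_tau (p : GolayPt) : tau (tau p) = p := by
  have h : tau (tau⁻¹ p) = p := apply_inv tau p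
  rwa [tau_inv] at h

theorem fwd_tau : Fwd tau := fwd_of_table (rep_ofT_inv tauT tauT _) (by decide +kernel)

theorem rho_fiber : ∀ i, i < 24 → ∀ j, j < 24 → rhoT.getD i 0 = rhoT.getD j 0 →
    j = i ∨ j = tauT.getD i 0 := by decide

theorem rho_eq {x y : GolayPt} (h : rho x = rho y) : y = x ∨ y = tau x := by
  unfold rho at h
  have h1 := congrArg idx h
  rw [idx_pt (rhoT_lt _ (idx_lt x)), idx_pt (rhoT_lt _ (idx_lt y))] at h1
  rcases rho_fiber _ (idx_lt x) _ (idx_lt y) h1 with h2 | h2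
  · left; exact idx_injective h2
  · right; apply idx_injective; rw [h2, tau_idx]

theorem rho_tau (p : GolayPt) : rho (tau p) = rho p := by
  unfold rho
  rw [tau_idx]
  congr 1
  exact (by decide : ∀ i, i < 24 → rhoT.getD (tauT.getD i 0) 0 = rhoT.getD i 0) _ (idx_lt p)

theorem tau_ne (p : GolayPt) : tau p ≠ p := by
  intro h
  have h1 := congrArg idx h
  rw [tau_idx] at h1
  exact (by decide : ∀ i, i < 24 → tauT.getD i 0 ≠ i) _ (idx_lt p) h1

theorem comm_tau {x : Equiv.Perm GolayPt × Equiv.Perm GolayPt} (hx : x ∈ X) :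
    x.1 * tau = tau * x.1 := by
  obtain ⟨-, -, -, h4⟩ := hx
  apply Equiv.ext
  intro p
  show x.1 (tau p) = tau (x.1 p)
  have h : rho (x.1 p) = rho (x.1 (tau p)) := by rw [h4, h4, rho_tau]
  rcases rho_eq h with h1 | h1
  · exact absurd (x.1.injective h1) (tau_ne p)
  · exact h1

/-! ### The kernel -/

theorem H1 : ∀ j, j < 24 → j ≠ 0 → j ≠ tauT.getD 0 0 →
    ∃ c ∈ SL, c.testBit 0 = true ∧ c.testBit j = true := by decide +kernel

theorem H2 : ∀ c ∈ SL, c.testBit 0 = true → ∀ c' ∈ SL, c'.testBit 0 = true →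
    (∀ i, i < 24 → c'.testBit i = true →
      c.testBit i = true ∨ c.testBit (tauT.getD i 0) = true) → c' = c := by decide +kernel

theorem H3 : ∀ c ∈ SL, ∀ i, i < 24 → c.testBit i = true →
    c.testBit (tauT.getD i 0) = false := by decide +kernel

theorem diag_eq_one (P : Equiv.Perm GolayPt) (hd : ∀ p, P p = p ∨ P p = tau p) (hF : Fwd P)
    (h0 : P (pt 0) = pt 0) : P = 1 := by
  have hinv : ∀ y, P⁻¹ y = y ∨ P⁻¹ y = tau y := by
    intro y
    rcases hd (P⁻¹ y) with h | h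
    · left
      rw [apply_inv] at h
      exact h.symm
    · right
      rw [apply_inv] at h
      have h2 := congrArg tau h
      rw [tau_tau] at h2
      exact h2.symm
  apply Equiv.ext
  intro q
  show P q = q
  by_cases hq0 : q = pt 0
  · rw [hq0, h0]
  by_cases hq1 : q = tau (pt 0)
  · rcases hd q with h | h
    · exact h
    · exfalso
      rw [hq1, tau_tau] at h
      exact tau_ne _ (P.injective (h.trans h0.symm))
  · have hj : idx q ≠ 0 := fun h => hq0 (by rw [← pt_idx q, h])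
    have hj' : idx q ≠ tauT.getD 0 0 := by
      intro h
      apply hq1
      apply idx_injective
      rw [tau_idx, idx_pt (by norm_num), h]
    obtain ⟨c, hc, hc0, hcq⟩ := H1 _ (idx_lt q) hj hj'
    obtain ⟨c', hc', hmap⟩ := hF c hc
    have hc'0 : c'.testBit 0 = true := by
      have h1 := hmap (pt 0)
      rw [h0, idx_pt (by norm_num)] at h1
      rw [h1]; exact hc0
    have hsub : ∀ i, i < 24 → c'.testBit i = true →
        c.testBit i = true ∨ c.testBit (tauT.getD i 0) = true := by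
      intro i hi hci
      have h1 := hmap (P⁻¹ (pt i))
      rw [apply_inv, idx_pt hi, hci] at h1
      rcases hinv (pt i) with h | h
      · left; rw [h, idx_pt hi] at h1; exact h1.symm
      · right; rw [h, tau_idx, idx_pt hi] at h1; exact h1.symm
    have hcc := H2 c hc hc0 c' hc' hc'0 hsub
    subst hcc
    have h1 := hmap q
    rw [hcq] at h1
    rcases hd q with h | h
    · exact h
    · exfalso
      rw [h, tau_idx, H3 c' hc _ (idx_lt q) hcq] at h1
      exact Bool.false_ne_true h1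

theorem ker_cases {x : Equiv.Perm GolayPt × Equiv.Perm GolayPt} (hx : x ∈ X) (h2 : x.2 = 1) :
    x.1 = 1 ∨ x.1 = tau := by
  obtain ⟨-, hF, -, h4⟩ := hx
  have hd : ∀ p, x.1 p = p ∨ x.1 p = tau p := by
    intro p
    have h : rho p = rho (x.1 p) := by rw [h4, h2]; rfl
    exact rho_eq h
  rcases hd (pt 0) with h | h
  · left; exact diag_eq_one _ hd hF h
  · right
    have h' : tau * x.1 = 1 := by
      apply diag_eq_one
      · intro p
        show tau (x.1 p) = p ∨ tau (x.1 p) = tau p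
        rcases hd p with h1 | h1
        · right; rw [h1]
        · left; rw [h1, tau_tau]
      · exact fwd_mul fwd_tau hF
      · show tau (x.1 (pt 0)) = pt 0
        rw [h, tau_tau]
    have h3 : x.1 = tau⁻¹ := eq_inv_of_mul_eq_one_right h'
    rw [h3, tau_inv]

/-! ### Generators -/

theorem exU : ∃ x ∈ X, Rep x.1 puT ∧ Rep x.1⁻¹ puIT ∧ Rep x.2 guT ∧ Rep x.2⁻¹ guT :=
  mem_X_of_tables guT guT puT puIT (by decide +kernel) (by decide +kernel) (by decide +kernel)
    (by decide +kernel) (by decide +kernel)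

theorem exV : ∃ x ∈ X, Rep x.1 pvT ∧ Rep x.1⁻¹ pvIT ∧ Rep x.2 gvT ∧ Rep x.2⁻¹ gvT :=
  mem_X_of_tables gvT gvT pvT pvIT (by decide +kernel) (by decide +kernel) (by decide +kernel)
    (by decide +kernel) (by decide +kernel)

theorem exW : ∃ x ∈ X, Rep x.1 pwT ∧ Rep x.1⁻¹ pwIT ∧ Rep x.2 gwT ∧ Rep x.2⁻¹ gwIT :=
  mem_X_of_tables gwT gwIT pwT pwIT (by decide +kernel) (by decide +kernel) (by decide +kernel)
    (by decide +kernel) (by decide +kernel)

/-! ### Surjectivity -/

/-- The image of `X` in the permutations of the 24 points. -/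
def R : Subgroup (Equiv.Perm GolayPt) :=
  X.map (MonoidHom.snd (Equiv.Perm GolayPt) (Equiv.Perm GolayPt))

theorem mem_R_of {x : Equiv.Perm GolayPt × Equiv.Perm GolayPt} (hx : x ∈ X) : x.2 ∈ R :=
  ⟨x, hx, rfl⟩

theorem R_le : R ≤ M12 := by
  rintro _ ⟨x, hx, rfl⟩
  exact hx.1

theorem gens_rep : ∀ t ∈ [guT, gvT, gwT, gwIT, idT], ∃ g ∈ R, Rep g t := by
  intro t ht
  simp only [List.mem_cons, List.not_mem_nil, or_false] at ht
  rcases ht with rfl | rfl | rfl | rfl | rfl
  · obtain ⟨x, hx, -, -, h, -⟩ := exU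
    exact ⟨x.2, mem_R_of hx, h⟩
  · obtain ⟨x, hx, -, -, h, -⟩ := exV
    exact ⟨x.2, mem_R_of hx, h⟩
  · obtain ⟨x, hx, -, -, h, -⟩ := exW
    exact ⟨x.2, mem_R_of hx, h⟩
  · obtain ⟨x, hx, -, -, -, h⟩ := exW
    exact ⟨x.2⁻¹, R.inv_mem (mem_R_of hx), h⟩
  · exact ⟨1, R.one_mem, rep_one⟩

theorem rows_chk : chk [guT, gvT, gwT, gwIT, idT] [] rows = true := by decide +kernel

/-- The tables of the transversals. -/
def tabsR : List (List Nat) := idT :: rows.map (fun r => r.2.2)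

theorem tabsR_rep : ∀ t ∈ tabsR, ∃ g ∈ R, Rep g t := by
  intro t ht
  rcases List.mem_cons.mp ht with rfl | h
  · exact ⟨1, R.one_mem, rep_one⟩
  · obtain ⟨r, hr, rfl⟩ := List.mem_map.mp h
    exact chk_sound R _ gens_rep rows [] (by simp) rows_chk r hr

theorem witR {L : List Nat} {b : Nat} {T : List Nat} (hL : ∀ f ∈ L, f < 24) (hb : b < 24)
    (h : T.all (fun q => tabsR.any (fun t => hit L b q t)) = true) :
    ∀ q ∈ T, ∃ h ∈ R ⊓ FixL L, h (pt b) = pt q := by
  intro q hq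
  obtain ⟨t, ht, hh⟩ := List.any_eq_true.mp (List.all_eq_true.mp h q hq)
  obtain ⟨g, hgR, hg⟩ := tabsR_rep t ht
  obtain ⟨h1, h2⟩ := hit_spec hg hL hb hh
  exact ⟨g, ⟨hgR, h1⟩, h2⟩

theorem R_le_K12 : R ≤ K12 := by
  rw [← Cfsg.Agent.Lib.Helper86.TabMathieu.M12_eq]; exact R_le

theorem hubR {g : Equiv.Perm GolayPt} {L : List Nat} (hg : g ∈ R ⊓ FixL L) {b : Nat}
    (hb24 : b < 24) (hbL : b ∉ L) (hbd : d0.testBit b = true) :
    ∃ q ∈ inside d0 L, g (pt b) = pt q :=
  hub12 ⟨R_le_K12 hg.1, hg.2⟩ hb24 hbL hbd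

theorem cardR5 : Nat.card ↥(R ⊓ FixL [4, 3, 2, 1, 0]) = 1 := by
  have h : R ⊓ FixL [4, 3, 2, 1, 0] = ⊥ := by
    rw [eq_bot_iff, ← rigid12]
    exact inf_le_inf_right _ R_le_K12
  rw [h]; exact Subgroup.card_bot

theorem cardR4 : Nat.card ↥(R ⊓ FixL [3, 2, 1, 0]) = 8 := by
  rw [card_step (b := 4) (T := inside d0 [3, 2, 1, 0]) (by decide) (by decide)
    (fun g hg => hubR hg (by decide) (by decide) (by decide))
    (witR (by decide) (by decide) (by decide +kernel)), cardR5]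
  decide

theorem cardR3 : Nat.card ↥(R ⊓ FixL [2, 1, 0]) = 72 := by
  rw [card_step (b := 3) (T := inside d0 [2, 1, 0]) (by decide) (by decide)
    (fun g hg => hubR hg (by decide) (by decide) (by decide))
    (witR (by decide) (by decide) (by decide +kernel)), cardR4]
  decide

theorem cardR2 : Nat.card ↥(R ⊓ FixL [1, 0]) = 720 := by
  rw [card_step (b := 2) (T := inside d0 [1, 0]) (by decide) (by decide)
    (fun g hg => hubR hg (by decide) (by decide) (by decide))
    (witR (by decide) (by decide) (by decide +kernel)), cardR3]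
  decide

theorem cardR1 : Nat.card ↥(R ⊓ FixL [0]) = 7920 := by
  rw [card_step (b := 1) (T := inside d0 [0]) (by decide) (by decide)
    (fun g hg => hubR hg (by decide) (by decide) (by decide))
    (witR (by decide) (by decide) (by decide +kernel)), cardR2]
  decide

theorem card_R : Nat.card ↥R = 95040 := by
  have h := card_step (K := R) (b := 0) (T := inside d0 []) (by decide) (by decide)
    (fun g hg => hubR hg (by decide) (by decide) (by decide))
    (witR (by decide) (by decide) (by decide +kernel))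
  rw [cardR1] at h
  have h2 : R ⊓ FixL [] = R := by rw [FixL_nil, inf_top_eq]
  rw [h2] at h
  rw [h]
  decide

theorem R_eq : R = M12 :=
  Subgroup.eq_of_le_of_card_ge R_le (by rw [card_R, card_M12])

/-! ### The central extension -/

/-- The projection of `X` onto `M12`. -/
def xi : ↥X →* ↥M12 :=
  ((MonoidHom.snd (Equiv.Perm GolayPt) (Equiv.Perm GolayPt)).comp X.subtype).codRestrict M12
    (fun x => x.2.1)

theorem xi_surjective : Function.Surjective xi := by
  rintro ⟨m, hm⟩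
  rw [← R_eq] at hm
  obtain ⟨x, hx, rfl⟩ := hm
  exact ⟨⟨x, hx⟩, rfl⟩

theorem xi_ker_le : xi.ker ≤ Subgroup.center ↥X := by
  intro k hk
  have h2 : k.1.2 = 1 := congrArg Subtype.val (MonoidHom.mem_ker.mp hk)
  rw [Subgroup.mem_center_iff]
  intro y
  apply Subtype.ext
  apply Prod.ext
  · show y.1.1 * k.1.1 = k.1.1 * y.1.1
    rcases ker_cases k.2 h2 with h | h
    · rw [h, mul_one, one_mul]
    · rw [h]; exact comm_tau y.2
  · show y.1.2 * k.1.2 = k.1.2 * y.1.2
    rw [h2, mul_one, one_mul]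

theorem exists_z : ∃ z ∈ commutator ↥X ⊓ xi.ker, z ≠ 1 := by
  obtain ⟨xu, hxu, hu1, hu1', hu2, hu2'⟩ := exU
  obtain ⟨xv, hxv, hv1, hv1', hv2, hv2'⟩ := exV
  refine ⟨⁅(⟨xu, hxu⟩ : ↥X), ⟨xv, hxv⟩⁆, ⟨?_, ?_⟩, ?_⟩
  · rw [commutator_def]
    exact Subgroup.commutator_mem_commutator (Subgroup.mem_top _) (Subgroup.mem_top _)
  · apply MonoidHom.mem_ker.mpr
    apply Subtype.ext
    show xu.2 * xv.2 * xu.2⁻¹ * xv.2⁻¹ = 1
    have hrep := ((hu2.mul hv2).mul hu2').mul hv2'
    have e : tmul (tmul (tmul guT gvT) guT) gvT = idT := by decide +kernel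
    rw [e] at hrep
    exact hrep.eq_one
  · intro h
    have h1 : xu.1 * xv.1 * xu.1⁻¹ * xv.1⁻¹ = 1 := congrArg (fun z : ↥X => z.1.1) h
    have hrep := ((hu1.mul hv1).mul hu1').mul hv1'
    have e : tmul (tmul (tmul puT pvT) puIT) pvIT = tauT := by decide +kernel
    rw [e, h1] at hrep
    have h2 := rep_unique hrep rep_one
    revert h2
    decide

/-- A central extension of `M12` whose kernel meets the commutator subgroup nontrivially. -/
theorem exists_cover : ∃ ξ : ↥X →* ↥M12, Function.Surjective ξ ∧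
    ξ.ker ≤ Subgroup.center ↥X ∧ ∃ z ∈ commutator ↥X ⊓ ξ.ker, z ≠ 1 :=
  ⟨xi, xi_surjective, xi_ker_le, exists_z⟩

end Cfsg.Agent.Lib.Helper66.M12Cover
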