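import Mathlib
import Cfsg.Agent.Lib.Helper44.MCentStmt
import Cfsg.Agent.Lib.Helper45.OmegaAutKer

set_option autoImplicit false

/-! Piece [KC] of S2716: the kernels of `Phi` correspond under base change. -/

namespace Cfsg.Agent.Lib.Helper66.MCentKC

open Matrix Module QuadraticMap
open Cfsg.Agent.Lib.Helper45.OmegaAut Cfsg.Agent.Lib.Helper43.H90Fin
open Cfsg.Agent.Lib.Helper44.MFld0 Cfsg.Agent.Lib.Helper44.MaxTS
  Cfsg.Agent.Lib.Helper44.NegPairs Cfsg.Agent.Lib.Helper44.QSpace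
  Cfsg.Agent.Lib.Helper44.QClass Cfsg.Agent.Lib.Helper44.MFldStmt

universe u v

/-- a matrix acting as the scalar `c` is `c • 1` -/
theorem eq_smul_one {F : Type u} [Field F] {ι : Type} [Fintype ι] [DecidableEq ι]
    (M : Matrix ι ι F) (c : F) (h : ∀ x : ι → F, M *ᵥ x = c • x) : M = c • (1 : Matrix ι ι F) := by
  apply Cfsg.Agent.Lib.Helper44.OMat.matrix_ext_mulVec
  intro x
  rw [h, Matrix.smul_mulVec, Matrix.one_mulVec]

theorem smul_one_mulVec {F : Type u} [Field F] {ι : Type} [Fintype ι] [DecidableEq ι]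
    (c : F) (x : ι → F) : (c • (1 : Matrix ι ι F)) *ᵥ x = c • x := by
  rw [Matrix.smul_mulVec, Matrix.one_mulVec]

theorem main (hK : KerPhiMinus.{u}) (hK₀ : KerPhiMinus.{v}) :
    Cfsg.Agent.Lib.Helper44.MCentStmt.KerCompat.{u, v} := by
  intro F₀ _ _ F _ _ j m hm a₀ b₀ ha₀ ha g₀ g hg
  constructor
  · intro h₀
    obtain ⟨c₀, hc₀⟩ := hK₀ F₀ m hm a₀ b₀ ha₀ g₀ h₀
    have hM₀ := eq_smul_one _ c₀ hc₀
    apply Cfsg.Agent.Lib.Helper45.OmegaAutKer.Phi_eq_one_of_scalar _ g (j c₀)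
    intro x
    have : ((g : GL (MI m) F) : Matrix (MI m) (MI m) F) = (j c₀) • (1 : Matrix (MI m) (MI m) F) := by
      rw [hg, hM₀]
      ext i k
      by_cases hik : i = k
      · subst hik; simp
      · simp [Matrix.one_apply, hik]
    rw [this, smul_one_mulVec]
  · intro h
    obtain ⟨c, hc⟩ := hK F m hm (j a₀) (j b₀) ha g h
    have hM := eq_smul_one _ c hc
    -- the (i,i) entry of g₀ gives the preimage of c
    have i0 : MI m := Sum.inr 0
    set M₀ : Matrix (MI m) (MI m) F₀ := ((g₀ : GL (MI m) F₀) : Matrix (MI m) (MI m) F₀) with hM₀def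
    have hent : ∀ i k, j (M₀ i k) = (c • (1 : Matrix (MI m) (MI m) F)) i k := by
      intro i k
      have := congrFun (congrFun hg i) k
      rw [hM] at this
      rw [this]
      rfl
    have hjinj : Function.Injective j := j.injective
    obtain ⟨d, hd⟩ : ∃ d : F₀, d = M₀ i0 i0 := ⟨_, rfl⟩
    have hM₀' : M₀ = d • (1 : Matrix (MI m) (MI m) F₀) := by
      ext i k
      apply hjinj
      rw [hent]
      by_cases hik : i = k
      · subst hik
        have h0 := hent i0 i0
        simp only [Matrix.smul_apply, Matrix.one_apply_eq, smul_eq_mul, mul_one] at h0 ⊢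
        rw [hd, h0]
      · simp [Matrix.one_apply, hik]
    apply Cfsg.Agent.Lib.Helper45.OmegaAutKer.Phi_eq_one_of_scalar _ g₀ d
    intro x
    rw [← hM₀def, hM₀', smul_one_mulVec]

end Cfsg.Agent.Lib.Helper66.MCentKC
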