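import Cfsg.Prelude.Def_KGroupFacts
import Mathlib.GroupTheory.PresentedGroup
import Cfsg.Agent.Lib.Helper66.Hopf

set_option autoImplicit false
open Cfsg

namespace Cfsg.Agent.Lib.Helper66.Metacyclic

open Cfsg.Agent.Lib.Helper66.Hopf


/-- The relation set with the exponents made explicit. -/
def rels (m n r t : ℕ) : Set (FreeGroup Bool) :=
  {FreeGroup.of true ^ m, (FreeGroup.of false) ^ n * (FreeGroup.of true ^ t)⁻¹,
    FreeGroup.of false * FreeGroup.of true * (FreeGroup.of false)⁻¹ * (FreeGroup.of true ^ r)⁻¹}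

theorem geom_aux (c j : ℕ) : c * (∑ i ∈ Finset.range j, (c + 1) ^ i) + 1 = (c + 1) ^ j := by
  induction j with
  | zero => simp
  | succ j ih =>
    rw [Finset.sum_range_succ, pow_succ, ← ih]
    ring

theorem arith (m n r : ℕ) (hm : 0 < m) (hr : 0 < r) (hrn : r ^ n ≡ 1 [MOD m]) :
    ∃ d m' r' s : ℕ, 0 < d ∧ 0 < m' ∧ Nat.Coprime m' r' ∧ m = d * m' ∧ r = d * r' + 1 ∧
      ∑ i ∈ Finset.range n, r ^ i = m' * s ∧ Nat.gcd m (r - 1) = d := by
  have hdpos : 0 < Nat.gcd m (r - 1) := Nat.gcd_pos_of_pos_left _ hm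
  have hcop := Nat.coprime_div_gcd_div_gcd hdpos
  have hm' : m = Nat.gcd m (r - 1) * (m / Nat.gcd m (r - 1)) :=
    (Nat.mul_div_cancel' (Nat.gcd_dvd_left _ _)).symm
  have hr' : r - 1 = Nat.gcd m (r - 1) * ((r - 1) / Nat.gcd m (r - 1)) :=
    (Nat.mul_div_cancel' (Nat.gcd_dvd_right _ _)).symm
  generalize Nat.gcd m (r - 1) = d at *
  generalize m / d = m' at *
  generalize (r - 1) / d = r' at *
  have hr2 : r = d * r' + 1 := by omega
  have hm'pos : 0 < m' := Nat.pos_of_ne_zero (by rintro rfl; simp at hm'; omega)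
  have hg := geom_aux (d * r') n
  rw [← hr2] at hg
  have hdvd : m ∣ r ^ n - 1 := (Nat.modEq_iff_dvd' (Nat.one_le_pow _ _ hr)).mp hrn.symm
  have h1 : r ^ n - 1 = d * (r' * ∑ i ∈ Finset.range n, r ^ i) := by
    rw [← hg]; simp [mul_assoc]
  rw [h1] at hdvd
  have hdvd' : d * m' ∣ d * (r' * ∑ i ∈ Finset.range n, r ^ i) := by rw [← hm']; exact hdvd
  have h2 : m' ∣ r' * ∑ i ∈ Finset.range n, r ^ i := Nat.dvd_of_mul_dvd_mul_left hdpos hdvd'
  have h3 : m' ∣ ∑ i ∈ Finset.range n, r ^ i := hcop.dvd_of_dvd_mul_left h2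
  obtain ⟨s, hs⟩ := h3
  exact ⟨d, m', r', s, hdpos, hm'pos, hcop, hm', hr2, hs, rfl⟩

theorem normal_form {X : Type*} [Group X] {a b : X} {m n r t : ℕ} (hm : 0 < m) (hn : 0 < n)
    (h1 : a ^ m = 1) (h2 : b ^ n = a ^ t) (h3 : b * a * b⁻¹ = a ^ r)
    (φ : FreeGroup Bool →* X) (hφa : φ (FreeGroup.of true) = a) (hφb : φ (FreeGroup.of false) = b)
    (f : FreeGroup Bool) : ∃ i j : ℕ, φ f = a ^ i * b ^ j := by
  have hPa : ∀ g : X, (∃ i j : ℕ, g = a ^ i * b ^ j) → ∃ i j : ℕ, a * g = a ^ i * b ^ j := by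
    rintro _ ⟨i, j, rfl⟩
    exact ⟨i + 1, j, by rw [pow_succ', mul_assoc]⟩
  have hainv : a⁻¹ = a ^ (m - 1) := by
    have : a ^ (m - 1) * a = 1 := by rw [← pow_succ, Nat.sub_add_cancel hm, h1]
    exact (eq_inv_of_mul_eq_one_left this).symm
  have hPa' : ∀ g : X, (∃ i j : ℕ, g = a ^ i * b ^ j) → ∃ i j : ℕ, a⁻¹ * g = a ^ i * b ^ j := by
    rintro _ ⟨i, j, rfl⟩
    exact ⟨m - 1 + i, j, by rw [hainv, pow_add, mul_assoc]⟩
  have hba : ∀ i : ℕ, b * a ^ i = a ^ (r * i) * b := by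
    intro i
    have : (b * a * b⁻¹) ^ i = b * a ^ i * b⁻¹ := conj_pow
    rw [h3, ← pow_mul] at this
    rw [this, inv_mul_cancel_right]
  have hPb : ∀ g : X, (∃ i j : ℕ, g = a ^ i * b ^ j) → ∃ i j : ℕ, b * g = a ^ i * b ^ j := by
    rintro _ ⟨i, j, rfl⟩
    exact ⟨r * i, j + 1, by rw [← mul_assoc, hba, mul_assoc, ← pow_succ']⟩
  have hPbk : ∀ (k : ℕ) (g : X), (∃ i j : ℕ, g = a ^ i * b ^ j) →
      ∃ i j : ℕ, b ^ k * g = a ^ i * b ^ j := by
    intro k
    induction k with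
    | zero => intro g hg; simpa using hg
    | succ k ih => intro g hg; rw [pow_succ', mul_assoc]; exact hPb _ (ih g hg)
  have hbinv : b⁻¹ = b ^ (n * m - 1) := by
    have hnm : 0 < n * m := Nat.mul_pos hn hm
    have : b ^ (n * m - 1) * b = 1 := by
      rw [← pow_succ, Nat.sub_add_cancel hnm, pow_mul, h2, ← pow_mul, mul_comm, pow_mul, h1,
        one_pow]
    exact (eq_inv_of_mul_eq_one_left this).symm
  have hPb' : ∀ g : X, (∃ i j : ℕ, g = a ^ i * b ^ j) → ∃ i j : ℕ, b⁻¹ * g = a ^ i * b ^ j := by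
    intro g hg; rw [hbinv]; exact hPbk _ g hg
  have main : ∀ f : FreeGroup Bool, ∀ g : X, (∃ i j : ℕ, g = a ^ i * b ^ j) →
      ∃ i j : ℕ, φ f * g = a ^ i * b ^ j := by
    intro f
    induction f using FreeGroup.induction_on with
    | C1 => intro g hg; simpa using hg
    | of x =>
      intro g hg
      cases x
      · rw [hφb]; exact hPb g hg
      · rw [hφa]; exact hPa g hg
    | inv_of x _ =>
      intro g hg
      cases x
      · rw [map_inv, hφb]; exact hPb' g hg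
      · rw [map_inv, hφa]; exact hPa' g hg
    | mul x y hx hy => intro g hg; rw [map_mul, mul_assoc]; exact hx _ (hy g hg)
  obtain ⟨i, j, h⟩ := main f 1 ⟨0, 0, by simp⟩
  exact ⟨i, j, by simpa using h⟩

theorem finite_G {m n r t : ℕ} (hm : 0 < m) (hn : 0 < n) :
    Finite (PresentedGroup (rels m n r t)) := by
  set π := PresentedGroup.mk (rels m n r t) with hπ
  have h1 : π (FreeGroup.of true) ^ m = 1 := by
    rw [← map_pow]; exact PresentedGroup.one_of_mem (by simp [rels])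
  have h2 : π (FreeGroup.of false) ^ n = π (FreeGroup.of true) ^ t := by
    rw [← map_pow, ← map_pow]; exact PresentedGroup.mk_eq_mk_of_mul_inv_mem (by simp [rels])
  have h3 : π (FreeGroup.of false) * π (FreeGroup.of true) * (π (FreeGroup.of false))⁻¹
      = π (FreeGroup.of true) ^ r := by
    rw [← map_pow, ← map_inv, ← map_mul, ← map_mul]
    exact PresentedGroup.mk_eq_mk_of_mul_inv_mem (by simp [rels])
  have hbm : π (FreeGroup.of false) ^ (n * m) = 1 := by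
    rw [pow_mul, h2, ← pow_mul, mul_comm, pow_mul, h1, one_pow]
  let F : Fin m × Fin (n * m) → PresentedGroup (rels m n r t) :=
    fun p => π (FreeGroup.of true) ^ (p.1 : ℕ) * π (FreeGroup.of false) ^ (p.2 : ℕ)
  have hF : Function.Surjective F := by
    intro g
    obtain ⟨f, rfl⟩ := PresentedGroup.mk_surjective _ g
    obtain ⟨i, j, hij⟩ := normal_form hm hn h1 h2 h3 π rfl rfl f
    refine ⟨(⟨i % m, Nat.mod_lt _ hm⟩, ⟨j % (n * m), Nat.mod_lt _ (Nat.mul_pos hn hm)⟩), ?_⟩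
    show π (FreeGroup.of true) ^ (i % m) * π (FreeGroup.of false) ^ (j % (n * m)) = _
    rw [← pow_eq_pow_mod _ h1, ← pow_eq_pow_mod _ hbm]; exact hij.symm
  exact Finite.of_surjective F hF



theorem mem_closure_triple {X : Type*} [Group X] {x y z : X} (hx : x ∈ Subgroup.center X)
    (hy : y ∈ Subgroup.center X) (hz : z ∈ Subgroup.center X) {e : X}
    (he : e ∈ Subgroup.closure {x, y, z}) : ∃ α β γ : ℤ, e = x ^ α * y ^ β * z ^ γ := by
  have hxc : ∀ (k : ℤ) (g : X), g * x ^ k = x ^ k * g := fun k g =>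
    Subgroup.mem_center_iff.mp (Subgroup.zpow_mem _ hx k) g
  have hyc : ∀ (k : ℤ) (g : X), g * y ^ k = y ^ k * g := fun k g =>
    Subgroup.mem_center_iff.mp (Subgroup.zpow_mem _ hy k) g
  induction he using Subgroup.closure_induction with
  | mem e he =>
    rcases he with rfl | rfl | rfl
    · exact ⟨1, 0, 0, by simp⟩
    · exact ⟨0, 1, 0, by simp⟩
    · exact ⟨0, 0, 1, by simp⟩
  | one => exact ⟨0, 0, 0, by simp⟩
  | mul a b _ _ iha ihb =>
    obtain ⟨α, β, γ, rfl⟩ := iha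
    obtain ⟨α', β', γ', rfl⟩ := ihb
    refine ⟨α + α', β + β', γ + γ', ?_⟩
    rw [zpow_add, zpow_add, zpow_add]
    calc x ^ α * y ^ β * z ^ γ * (x ^ α' * y ^ β' * z ^ γ')
        = x ^ α * (y ^ β * z ^ γ * x ^ α') * y ^ β' * z ^ γ' := by group
      _ = x ^ α * (x ^ α' * (y ^ β * z ^ γ)) * y ^ β' * z ^ γ' := by rw [hxc α' (y ^ β * z ^ γ)]
      _ = x ^ α * x ^ α' * y ^ β * (z ^ γ * y ^ β') * z ^ γ' := by group
      _ = x ^ α * x ^ α' * y ^ β * (y ^ β' * z ^ γ) * z ^ γ' := by rw [hyc β' (z ^ γ)]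
      _ = x ^ α * x ^ α' * (y ^ β * y ^ β') * (z ^ γ * z ^ γ') := by group
  | inv a _ iha =>
    obtain ⟨α, β, γ, rfl⟩ := iha
    refine ⟨-α, -β, -γ, ?_⟩
    rw [mul_inv_rev, mul_inv_rev, ← zpow_neg, ← zpow_neg, ← zpow_neg]
    rw [hxc (-α) (y ^ (-β)), ← mul_assoc, hxc (-α) (z ^ (-γ)), mul_assoc, hyc (-β) (z ^ (-γ)),
      mul_assoc]

/-- The three relations in `E`. -/
theorem rel_lemmas {X : Type*} [Group X] (A B : X) (m n c t : ℕ)
    (hx : A ^ m ∈ Subgroup.center X) (hy : B ^ n * (A ^ t)⁻¹ ∈ Subgroup.center X)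
    (hz : B * A * B⁻¹ * (A ^ (c + 1))⁻¹ ∈ Subgroup.center X) :
    (B * A * B⁻¹ * (A ^ (c + 1))⁻¹) ^ m * A ^ (c * m) = 1 ∧
    (B * A * B⁻¹ * (A ^ (c + 1))⁻¹) ^ t * A ^ (c * t) = 1 ∧
    (B * A * B⁻¹ * (A ^ (c + 1))⁻¹) ^ (∑ i ∈ Finset.range n, (c + 1) ^ i) *
      A ^ (c * ∑ i ∈ Finset.range n, (c + 1) ^ i) = 1 := by
  set z := B * A * B⁻¹ * (A ^ (c + 1))⁻¹ with hzdef
  have hzc : ∀ g : X, g * z = z * g := fun g => Subgroup.mem_center_iff.mp hz g
  have hzk : ∀ (k : ℕ) (g : X), g * z ^ k = z ^ k * g := fun k g =>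
    Subgroup.mem_center_iff.mp (Subgroup.pow_mem _ hz k) g
  have hBA : B * A * B⁻¹ = z * A ^ (c + 1) := by rw [hzdef, inv_mul_cancel_right]
  have F1 : ∀ k : ℕ, B * A ^ k * B⁻¹ = z ^ k * A ^ ((c + 1) * k) := by
    intro k
    rw [← conj_pow, hBA, (show Commute z (A ^ (c + 1)) from (hzc _).symm).mul_pow, ← pow_mul]
  have key : ∀ k : ℕ, B * A ^ k * B⁻¹ = A ^ k → z ^ k * A ^ (c * k) = 1 := by
    intro k hk
    rw [F1, show (c + 1) * k = c * k + k by ring, pow_add, ← mul_assoc] at hk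
    exact mul_eq_right.mp hk
  refine ⟨key m ?_, key t ?_, ?_⟩
  · rw [Subgroup.mem_center_iff.mp hx B, mul_inv_cancel_right]
  · set y := B ^ n * (A ^ t)⁻¹ with hydef
    have hyc : ∀ g : X, g * y⁻¹ = y⁻¹ * g := fun g =>
      Subgroup.mem_center_iff.mp (Subgroup.inv_mem _ hy) g
    have hAt : A ^ t = y⁻¹ * B ^ n := by rw [hydef]; group
    rw [hAt, ← mul_assoc, hyc B, mul_assoc, mul_assoc, ← mul_assoc B, ← pow_succ', pow_succ,
      mul_inv_cancel_right]
  · have R3 : ∀ j : ℕ, B ^ j * A * (B ^ j)⁻¹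
        = z ^ (∑ i ∈ Finset.range j, (c + 1) ^ i) * A ^ ((c + 1) ^ j) := by
      intro j
      induction j with
      | zero => simp
      | succ j ih =>
        calc B ^ (j + 1) * A * (B ^ (j + 1))⁻¹ = B * (B ^ j * A * (B ^ j)⁻¹) * B⁻¹ := by
              rw [pow_succ']; group
          _ = B * (z ^ (∑ i ∈ Finset.range j, (c + 1) ^ i) * A ^ ((c + 1) ^ j)) * B⁻¹ := by
              rw [ih]
          _ = z ^ (∑ i ∈ Finset.range j, (c + 1) ^ i) * (B * A ^ ((c + 1) ^ j) * B⁻¹) := by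
              rw [← mul_assoc, hzk, mul_assoc, mul_assoc, mul_assoc]
          _ = z ^ (∑ i ∈ Finset.range (j + 1), (c + 1) ^ i) * A ^ ((c + 1) ^ (j + 1)) := by
              rw [F1, ← mul_assoc, ← pow_add, Finset.sum_range_succ, pow_succ' (c + 1) j]
    set y := B ^ n * (A ^ t)⁻¹ with hydef
    have hBn : B ^ n = y * A ^ t := by rw [hydef, inv_mul_cancel_right]
    have hyA : Commute y A := (Subgroup.mem_center_iff.mp hy A).symm
    have hcomm : Commute (B ^ n) A := by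
      rw [hBn]; exact hyA.mul_left ((Commute.refl A).pow_left t)
    have h := R3 n
    rw [hcomm.eq, mul_inv_cancel_right, ← geom_aux c n, pow_succ, ← mul_assoc] at h
    exact (mul_eq_right.mp h.symm)



section Model

variable (M : ℕ)

/-- `(u, v) ↦ (u + 1, v)` -/
def permA : Equiv.Perm (ZMod M × ZMod M) where
  toFun p := (p.1 + 1, p.2)
  invFun p := (p.1 - 1, p.2)
  left_inv p := by simp
  right_inv p := by simp

/-- `(u, v) ↦ (u, u + ρ v)` -/
def permB (ρ ρ' : ZMod M) (h : ρ' * ρ = 1) : Equiv.Perm (ZMod M × ZMod M) where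
  toFun p := (p.1, p.1 + ρ * p.2)
  invFun p := (p.1, ρ' * (p.2 - p.1))
  left_inv p := by
    refine Prod.ext rfl ?_
    show ρ' * (p.1 + ρ * p.2 - p.1) = p.2
    rw [add_sub_cancel_left, ← mul_assoc, h, one_mul]
  right_inv p := by
    refine Prod.ext rfl ?_
    show p.1 + ρ * (ρ' * (p.2 - p.1)) = p.2
    rw [← mul_assoc, mul_comm ρ ρ', h, one_mul]; ring

/-- `(u, v) ↦ (u + 1 - ρ, v + 1)` -/
def permT (ρ : ZMod M) : Equiv.Perm (ZMod M × ZMod M) where
  toFun p := (p.1 + 1 - ρ, p.2 + 1)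
  invFun p := (p.1 - 1 + ρ, p.2 - 1)
  left_inv p := by
    refine Prod.ext ?_ ?_
    · show p.1 + 1 - ρ - 1 + ρ = p.1
      ring
    · show p.2 + 1 - 1 = p.2
      ring
  right_inv p := by
    refine Prod.ext ?_ ?_
    · show p.1 - 1 + ρ + 1 - ρ = p.1
      ring
    · show p.2 - 1 + 1 = p.2
      ring

theorem permA_pow (k : ℕ) (p : ZMod M × ZMod M) : (permA M ^ k) p = (p.1 + k, p.2) := by
  induction k with
  | zero => simp
  | succ k ih =>
    rw [pow_succ', Equiv.Perm.mul_apply, ih]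
    show ((p.1 + k + 1, p.2) : ZMod M × ZMod M) = _
    push_cast; rw [add_assoc]

theorem permB_pow (ρ ρ' : ZMod M) (h : ρ' * ρ = 1) (k : ℕ) (p : ZMod M × ZMod M) :
    (permB M ρ ρ' h ^ k) p = (p.1, (∑ i ∈ Finset.range k, ρ ^ i) * p.1 + ρ ^ k * p.2) := by
  induction k generalizing p with
  | zero => simp
  | succ k ih =>
    rw [pow_succ, Equiv.Perm.mul_apply, ih]
    refine Prod.ext rfl ?_
    show (∑ i ∈ Finset.range k, ρ ^ i) * p.1 + ρ ^ k * (p.1 + ρ * p.2)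
      = (∑ i ∈ Finset.range (k + 1), ρ ^ i) * p.1 + ρ ^ (k + 1) * p.2
    rw [Finset.sum_range_succ]; ring

theorem permT_pow (ρ : ZMod M) (k : ℕ) (p : ZMod M × ZMod M) :
    ((permT M ρ ^ k) p).2 = p.2 + k := by
  induction k generalizing p with
  | zero => simp
  | succ k ih =>
    rw [pow_succ, Equiv.Perm.mul_apply, ih]
    show p.2 + 1 + (k : ZMod M) = p.2 + ((k + 1 : ℕ) : ZMod M)
    push_cast; ring

end Model

theorem lower {G : Type*} [Group G] (π : FreeGroup Bool →* G) (d m' r' s l n : ℕ) (hm' : 0 < m')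
    (hn : 0 < n) (hS : ∑ i ∈ Finset.range n, (d * r' + 1) ^ i = m' * s)
    (hker : π.ker ≤ Subgroup.normalClosure (rels (d * m') n (d * r' + 1) (m' * l)))
    (k : ℕ)
    (hk : ((FreeGroup.of false * FreeGroup.of true * (FreeGroup.of false)⁻¹ *
      (FreeGroup.of true ^ (d * r' + 1))⁻¹) ^ m' * (FreeGroup.of true ^ (d * m')) ^ r') ^ k
        ∈ FR π) :
    Nat.gcd l (Nat.gcd d s) ∣ k := by
  set N := Nat.gcd l (Nat.gcd d s) with hN
  have hNl : N ∣ l := Nat.gcd_dvd_left _ _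
  have hNd : N ∣ d := (Nat.gcd_dvd_right _ _).trans (Nat.gcd_dvd_left _ _)
  have hNs : N ∣ s := (Nat.gcd_dvd_right _ _).trans (Nat.gcd_dvd_right _ _)
  set M := m' * N with hM
  have hMm : ((d * m' : ℕ) : ZMod M) = 0 :=
    (ZMod.natCast_eq_zero_iff _ _).mpr (by rw [mul_comm d m']; exact Nat.mul_dvd_mul_left m' hNd)
  have hMt : ((m' * l : ℕ) : ZMod M) = 0 :=
    (ZMod.natCast_eq_zero_iff _ _).mpr (Nat.mul_dvd_mul_left m' hNl)
  have hMS : ((m' * s : ℕ) : ZMod M) = 0 :=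
    (ZMod.natCast_eq_zero_iff _ _).mpr (Nat.mul_dvd_mul_left m' hNs)
  set ρ : ZMod M := ((d * r' + 1 : ℕ) : ZMod M) with hρ
  have hρS : ∑ i ∈ Finset.range n, ρ ^ i = 0 := by
    rw [← hMS, ← hS, hρ]; push_cast; rfl
  have hρn : ρ ^ n = 1 := by
    have h := congrArg (Nat.cast : ℕ → ZMod M) (geom_aux (d * r') n)
    rw [hS] at h
    rw [Nat.cast_add, Nat.cast_mul, hMS, mul_zero, zero_add, Nat.cast_pow, Nat.cast_one] at h
    exact h.symm
  have hρ' : ρ ^ (n - 1) * ρ = 1 := by rw [← pow_succ, Nat.sub_add_cancel hn, hρn]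
  set PA := permA M with hPA
  set PB := permB M ρ (ρ ^ (n - 1)) hρ' with hPB
  set PT := permT M ρ with hPT
  set θ : FreeGroup Bool →* Equiv.Perm (ZMod M × ZMod M) :=
    FreeGroup.lift (fun c => cond c PA PB) with hθ
  have hθa : θ (FreeGroup.of true) = PA := by rw [hθ, FreeGroup.lift_apply_of]; rfl
  have hθb : θ (FreeGroup.of false) = PB := by rw [hθ, FreeGroup.lift_apply_of]; rfl
  have hAm : PA ^ (d * m') = 1 := by
    ext p : 1
    rw [hPA, permA_pow, hMm, add_zero]; rfl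
  have hAt : PA ^ (m' * l) = 1 := by
    ext p : 1
    rw [hPA, permA_pow, hMt, add_zero]; rfl
  have hBn : PB ^ n = 1 := by
    ext p : 1
    rw [hPB, permB_pow, hρS, hρn, zero_mul, zero_add, one_mul]; rfl
  have hBA : PB * PA * PB⁻¹ * (PA ^ (d * r' + 1))⁻¹ = PT := by
    rw [mul_inv_eq_iff_eq_mul, mul_inv_eq_iff_eq_mul]
    ext p : 1
    rw [Equiv.Perm.mul_apply, Equiv.Perm.mul_apply, Equiv.Perm.mul_apply, hPA, permA_pow]
    refine Prod.ext ?_ ?_
    · show p.1 + 1 = p.1 + ((d * r' + 1 : ℕ) : ZMod M) + 1 - ρ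
      rw [← hρ]; ring
    · show p.1 + 1 + ρ * p.2 = p.1 + ρ * p.2 + 1
      ring
  have hTA : Commute PT PA := by
    ext p : 1
    rw [Equiv.Perm.mul_apply, Equiv.Perm.mul_apply]
    refine Prod.ext ?_ ?_
    · show p.1 + 1 + 1 - ρ = p.1 + 1 - ρ + 1
      ring
    · rfl
  have hTB : Commute PT PB := by
    ext p : 1
    rw [Equiv.Perm.mul_apply, Equiv.Perm.mul_apply]
    refine Prod.ext ?_ ?_
    · rfl
    · show p.1 + ρ * p.2 + 1 = p.1 + 1 - ρ + ρ * (p.2 + 1)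
      ring
  have hTθ : ∀ f : FreeGroup Bool, Commute PT (θ f) := by
    intro f
    induction f using FreeGroup.induction_on with
    | C1 => rw [map_one]; exact Commute.one_right _
    | of x =>
      cases x
      · rw [hθb]; exact hTB
      · rw [hθa]; exact hTA
    | inv_of x ih => rw [map_inv]; exact ih.inv_right
    | mul x y hx hy => rw [map_mul]; exact hx.mul_right hy
  have hrel : ∀ rel ∈ rels (d * m') n (d * r' + 1) (m' * l), ∀ f, Commute (θ rel) (θ f) := by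
    rintro _ (rfl | rfl | rfl) f
    · rw [map_pow, hθa, hAm]; exact Commute.one_left _
    · rw [map_mul, map_inv, map_pow, map_pow, hθa, hθb, hAt, hBn, inv_one, mul_one]
      exact Commute.one_left _
    · rw [map_mul, map_mul, map_mul, map_inv, map_inv, map_pow, hθa, hθb, hBA]
      exact hTθ f
  let K : Subgroup (FreeGroup Bool) := (Subgroup.center θ.range).comap θ.rangeRestrict
  have hK : ∀ f, f ∈ K ↔ ∀ g, Commute (θ f) (θ g) := by
    intro f
    constructor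
    · intro hf g
      have := Subgroup.mem_center_iff.mp hf (θ.rangeRestrict g)
      exact (congrArg Subtype.val this).symm
    · intro hf
      refine Subgroup.mem_center_iff.mpr ?_
      rintro ⟨_, g, rfl⟩
      exact Subtype.ext (hf g).symm
  have hKle : Subgroup.normalClosure (rels (d * m') n (d * r' + 1) (m' * l)) ≤ K :=
    Subgroup.normalClosure_le_normal (fun rel hrel' => (hK rel).mpr (hrel rel hrel'))
  have hFR : FR π ≤ θ.ker := by
    unfold FR
    rw [Subgroup.commutator_le]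
    intro g₁ _ g₂ hg₂
    rw [MonoidHom.mem_ker, map_commutatorElement, commutatorElement_eq_one_iff_commute]
    exact ((hK g₂).mp (hKle (hker hg₂)) g₁).symm
  have h1 := hFR hk
  rw [MonoidHom.mem_ker, map_pow, map_mul, map_pow, map_pow, map_pow, map_mul, map_mul, map_mul,
    map_inv, map_inv, map_pow, hθa, hθb, hBA, hAm, one_pow, mul_one, ← pow_mul] at h1
  have h2 := congrArg (fun σ : Equiv.Perm (ZMod M × ZMod M) => (σ (0, 0)).2) h1
  simp only [hPT, permT_pow, Equiv.Perm.coe_one, id_eq, zero_add] at h2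
  have h3 : m' * N ∣ m' * k := (ZMod.natCast_eq_zero_iff _ _).mp h2
  exact Nat.dvd_of_mul_dvd_mul_left hm' h3

end Cfsg.Agent.Lib.Helper66.Metacyclic
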