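import Cfsg.Agent.Lib.Helper41.OMStmt

/-!
# S5978 / OMDETG: elements of the commutator subgroup of an isometry group have determinant one
(any index type, any form)
-/

set_option autoImplicit false

namespace Cfsg.Agent.Lib.Helper66.OMOMDETG

open Matrix
open Cfsg.Agent.Lib.Helper41.OMStmt

universe u

theorem main : OmDetG.{u} := by
  intro F _ ι _ _ Q g hg
  obtain ⟨h, hh, rfl⟩ := hg
  have hk : h ∈ ((Matrix.GeneralLinearGroup.det (n := ι) (R := F)).comp
      (Cfsg.isometryGroup F Q).subtype).ker :=
    Abelianization.commutator_subset_ker _ hh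
  rw [MonoidHom.mem_ker] at hk
  have h1 := congrArg (fun x : Fˣ => (x : F)) hk
  simpa using h1

end Cfsg.Agent.Lib.Helper66.OMOMDETG
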