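import Cfsg.Agent.Lib.Helper41.SpFStmt

/-!
# S5975 / QUADGEN: a field subalgebra of degree 2 over a finite field is `F[J]` with
`J² = a J + b`, the quadratic without roots, non-zero discriminant, `J ^ q = a - J`
-/

set_option autoImplicit false

namespace Cfsg.Agent.Lib.Helper66.SpFQUADGEN

universe u

open Module Polynomial
open Cfsg.Agent.Lib.Helper41.SpFStmt

variable {F : Type u} [Field F] {ι : Type} [Fintype ι] [DecidableEq ι]

/-- A field subalgebra of degree 2 is generated by a root `J` of a quadratic without roots in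
the base field (any index type; cf. `Helper37.QuadGen.exists_gen`). -/
theorem exists_gen_idx [Nonempty ι] (K : Subalgebra F (Matrix ι ι F))
    (hK : Cfsg.Geo.IsFieldSubalgebra 2 K) :
    ∃ (J : Matrix ι ι F) (a b : F), J ∈ K ∧ J * J = a • J + b • 1 ∧
      (∀ k, k ∈ K ↔ ∃ α β : F, k = α • 1 + β • J) ∧ (∀ t : F, t * t ≠ a * t + b) ∧
      (∀ t : F, J ≠ t • 1) := by
  have h1ne : (1 : Matrix ι ι F) ≠ 0 := one_ne_zero
  have hfr : finrank F (Subalgebra.toSubmodule K) = 2 := by
    rw [Subalgebra.finrank_toSubmodule]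
    exact hK.finrank_eq
  obtain ⟨J, hJK, hJ⟩ : ∃ J ∈ K, J ∉ Submodule.span F {(1 : Matrix ι ι F)} := by
    by_contra hcon
    push Not at hcon
    have hle : Subalgebra.toSubmodule K ≤ Submodule.span F {(1 : Matrix ι ι F)} :=
      fun J hJ => hcon J hJ
    have h1 := Submodule.finrank_mono hle
    have h2 := finrank_span_singleton (K := F) h1ne
    omega
  have hpair : LinearIndependent F ![(1 : Matrix ι ι F), J] := by
    rw [LinearIndependent.pair_iff]
    intro s t hst
    have ht : t = 0 := by
      by_contra ht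
      apply hJ
      rw [Submodule.mem_span_singleton]
      refine ⟨-(t⁻¹ * s), ?_⟩
      have h3 : t • J = -(s • (1 : Matrix ι ι F)) := by
        rw [eq_neg_iff_add_eq_zero, add_comm]
        exact hst
      calc (-(t⁻¹ * s)) • (1 : Matrix ι ι F)
          = t⁻¹ • (-(s • (1 : Matrix ι ι F))) := by
            rw [neg_smul, mul_smul, smul_neg]
        _ = t⁻¹ • (t • J) := by rw [h3]
        _ = J := by rw [smul_smul, inv_mul_cancel₀ ht, one_smul]
    subst ht
    rw [zero_smul, add_zero] at hst
    rcases smul_eq_zero.mp hst with h | h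
    · exact ⟨h, rfl⟩
    · exact absurd h h1ne
  have hspan : Submodule.span F {(1 : Matrix ι ι F), J} =
      Subalgebra.toSubmodule K := by
    apply Submodule.eq_of_le_of_finrank_eq
    · rw [Submodule.span_le]
      rintro x (rfl | rfl)
      · exact K.one_mem
      · exact hJK
    · rw [hfr, ← Matrix.range_cons_cons_empty, finrank_span_eq_card hpair, Fintype.card_fin]
  have hmem : ∀ k, k ∈ K ↔ ∃ α β : F, k = α • 1 + β • J := by
    intro k
    rw [← Subalgebra.mem_toSubmodule, ← hspan, Submodule.mem_span_pair]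
    constructor
    · rintro ⟨α, β, h⟩
      exact ⟨α, β, h.symm⟩
    · rintro ⟨α, β, h⟩
      exact ⟨α, β, h.symm⟩
  obtain ⟨b, a, hab⟩ := (hmem (J * J)).mp (K.mul_mem hJK hJK)
  have hns : ∀ t : F, J ≠ t • 1 := by
    intro t ht
    apply hJ
    rw [Submodule.mem_span_singleton]
    exact ⟨t, ht.symm⟩
  refine ⟨J, a, b, hJK, by rw [hab, add_comm], hmem, ?_, hns⟩
  intro t ht
  have hprod : (J - t • 1) * (J - (a - t) • 1) = 0 := by
    have e : (J - t • 1) * (J - (a - t) • 1) = J * J - a • J + (t * (a - t)) • 1 := by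
      simp only [sub_mul, mul_sub, Matrix.smul_mul, Matrix.mul_smul, Matrix.one_mul,
        Matrix.mul_one]
      module
    have h3 : b + t * (a - t) = 0 := by linear_combination -ht
    rw [e, hab]
    calc b • (1 : Matrix ι ι F) + a • J - a • J + (t * (a - t)) • 1
        = (b + t * (a - t)) • (1 : Matrix ι ι F) := by module
      _ = 0 := by rw [h3, zero_smul]
  have hne : J - t • 1 ≠ 0 := fun h => hns t (sub_eq_zero.mp h)
  have hJt : J - t • 1 ∈ K := K.sub_mem hJK (K.smul_mem K.one_mem t)
  obtain ⟨y, hyK, hy⟩ := hK.inv (J - t • 1) hJt hne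
  have hy' : y * (J - t • 1) = 1 := by
    rw [hK.comm y hyK _ hJt]
    exact hy
  have h0 : J - (a - t) • 1 = 0 := by
    calc J - (a - t) • 1 = (y * (J - t • 1)) * (J - (a - t) • 1) := by rw [hy', one_mul]
      _ = 0 := by rw [mul_assoc, hprod, mul_zero]
  exact hns (a - t) (sub_eq_zero.mp h0)

/-- Discriminant and Frobenius conjugate of a generator. -/
theorem finish [Fintype F] [Nonempty ι] (K : Subalgebra F (Matrix ι ι F))
    (hK : Cfsg.Geo.IsFieldSubalgebra 2 K) (J : Matrix ι ι F) (a b : F) (hJK : J ∈ K)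
    (hJJ : J * J = a • J + b • 1) (hirr : ∀ t : F, t * t ≠ a * t + b)
    (hns : ∀ t : F, J ≠ t • 1) :
    a * a + 4 * b ≠ 0 ∧ J ^ (Fintype.card F) = a • 1 - J := by
  constructor
  · intro h0
    by_cases h2 : (2 : F) = 0
    · have h4 : (4 : F) = 0 := by
        have : (4 : F) = 2 * 2 := by norm_num
        rw [this, h2, mul_zero]
      rw [h4, zero_mul, add_zero] at h0
      have ha : a = 0 := mul_self_eq_zero.mp h0
      have hchar : ringChar F = 2 := by
        have : CharP F 2 := by
          apply CharTwo.of_one_ne_zero_of_two_eq_zero one_ne_zero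
          exact_mod_cast h2
        exact ringChar.eq F 2
      obtain ⟨t, ht⟩ := FiniteField.isSquare_of_char_two hchar b
      apply hirr t
      rw [ha, zero_mul, zero_add, ht]
    · apply hirr (a / 2)
      field_simp
      linear_combination (-1 : F) * h0
  · obtain ⟨q, hq⟩ : ∃ q : ℕ, q = Fintype.card F := ⟨_, rfl⟩
    rw [← hq]
    have hP : J ^ q * J ^ q = a • J ^ q + b • 1 := by
      obtain ⟨P, hPdef⟩ : ∃ P : F[X], P = X ^ 2 - C a * X - C b := ⟨_, rfl⟩
      have h1 : aeval J P = 0 := by
        rw [hPdef]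
        simp only [map_sub, map_mul, aeval_X, aeval_C, Algebra.algebraMap_eq_smul_one,
          pow_two, hJJ]
        rw [smul_mul_assoc, one_mul]; abel
      have h2 : aeval (J ^ q) P = 0 := by
        rw [← expand_aeval, hq, FiniteField.expand_card, map_pow, h1,
          zero_pow Fintype.card_ne_zero]
      rw [hPdef] at h2
      simp only [map_sub, map_mul, aeval_X, aeval_C, Algebra.algebraMap_eq_smul_one,
        pow_two] at h2
      rw [smul_mul_assoc, one_mul, sub_sub, sub_eq_zero] at h2
      exact h2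
    have hprod : (J ^ q - J) * (J ^ q - (a • 1 - J)) = 0 := by
      have hc : J ^ q * J = J * J ^ q := ((Commute.refl J).pow_left q).eq
      have e : (J ^ q - J) * (J ^ q - (a • 1 - J)) =
          J ^ q * J ^ q - a • J ^ q + (J ^ q * J - J * J ^ q) + a • J - J * J := by
        simp only [sub_mul, mul_sub, Matrix.mul_smul, Matrix.mul_one]
        abel
      rw [e, hP, hJJ, hc]; abel
    have hinv : ∀ s : Multiset F, ∃ B : Matrix ι ι F,
        B * aeval J ((s.map (fun c => (X - C c : F[X]))).prod) = 1 := by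
      intro s
      induction s using Multiset.induction_on with
      | empty => exact ⟨1, by simp⟩
      | cons c s ih =>
        obtain ⟨B, hB⟩ := ih
        have hmem : J - c • 1 ∈ K := K.sub_mem hJK (K.smul_mem K.one_mem c)
        obtain ⟨y, hyK, hy⟩ := hK.inv (J - c • 1) hmem (fun h => hns c (sub_eq_zero.mp h))
        have hy' : y * (J - c • 1) = 1 := by rw [hK.comm y hyK _ hmem]; exact hy
        refine ⟨B * y, ?_⟩
        rw [Multiset.map_cons, Multiset.prod_cons, map_mul]
        have e1 : aeval J (X - C c : F[X]) = J - c • 1 := by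
          simp [Algebra.algebraMap_eq_smul_one]
        rw [e1, mul_assoc, ← mul_assoc y, hy', one_mul, hB]
    have hsplit : ((Finset.univ : Finset F).val.map (fun c => (X - C c : F[X]))).prod =
        (X ^ q - X : F[X]) := by
      have hroots : roots (X ^ q - X : F[X]) = Finset.univ.val := by
        rw [hq]; exact FiniteField.roots_X_pow_card_sub_X F
      have hq1 : 1 < q := by rw [hq]; exact Fintype.one_lt_card
      have hmonic : (X ^ q - X : F[X]).Monic :=
        Polynomial.monic_X_pow_sub (by rw [degree_X]; exact_mod_cast hq1)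
      have := Polynomial.prod_multiset_X_sub_C_of_monic_of_roots_card_eq hmonic (by
        rw [hroots, FiniteField.X_pow_card_sub_X_natDegree_eq F hq1, hq]; rfl)
      rw [hroots] at this; exact this
    obtain ⟨B, hB⟩ := hinv Finset.univ.val
    rw [hsplit] at hB
    have e2 : aeval J (X ^ q - X : F[X]) = J ^ q - J := by simp
    rw [e2] at hB
    have : J ^ q - (a • 1 - J) = 0 := by
      calc J ^ q - (a • 1 - J) = (B * (J ^ q - J)) * (J ^ q - (a • 1 - J)) := by
            rw [hB, one_mul]
        _ = 0 := by rw [mul_assoc, hprod, mul_zero]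
    exact sub_eq_zero.mp this

theorem main : QuadGen.{u} := by
  intro F _ _ q hq d hd K hK
  classical
  have : Nonempty (Fin d ⊕ Fin d) := ⟨Sum.inl ⟨0, hd⟩⟩
  subst hq
  obtain ⟨J₀, a₀, b₀, hJK, hJJ, hmem, hirr, hns⟩ := exists_gen_idx K hK
  by_cases h2 : (2 : F) = 0
  · obtain ⟨h1, h3⟩ := finish K hK J₀ a₀ b₀ hJK hJJ hirr hns
    exact ⟨J₀, a₀, b₀, hJK, hJJ, hmem, hirr, h1, h3, fun h => absurd h2 h⟩
  · obtain ⟨c, hc⟩ : ∃ c : F, 2 * c = a₀ := ⟨a₀ / 2, by field_simp⟩
    have hJ'K : J₀ - c • 1 ∈ K := K.sub_mem hJK (K.smul_mem K.one_mem c)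
    have hJJ' : (J₀ - c • 1) * (J₀ - c • 1) = (0 : F) • (J₀ - c • 1) + (b₀ + c * c) • 1 := by
      have e : (J₀ - c • (1 : Mat d F)) * (J₀ - c • 1) =
          J₀ * J₀ - (2 * c) • J₀ + (c * c) • 1 := by
        simp only [sub_mul, mul_sub, Matrix.smul_mul, Matrix.mul_smul, Matrix.one_mul,
          Matrix.mul_one]
        module
      rw [e, hJJ, hc]; module
    have hmem' : ∀ k, k ∈ K ↔ ∃ α β : F, k = α • 1 + β • (J₀ - c • 1) := by
      intro k
      rw [hmem k]
      constructor
      · rintro ⟨α, β, rfl⟩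
        exact ⟨α + β * c, β, by module⟩
      · rintro ⟨α, β, rfl⟩
        exact ⟨α - β * c, β, by module⟩
    have hirr' : ∀ t : F, t * t ≠ 0 * t + (b₀ + c * c) := by
      intro t ht
      apply hirr (t + c)
      rw [← hc]; linear_combination ht
    have hns' : ∀ t : F, J₀ - c • 1 ≠ t • 1 := by
      intro t ht
      apply hns (t + c)
      rw [add_smul, ← ht]; abel
    obtain ⟨h1, h3⟩ := finish K hK (J₀ - c • 1) 0 (b₀ + c * c) hJ'K hJJ' hirr' hns'
    exact ⟨J₀ - c • 1, 0, b₀ + c * c, hJ'K, hJJ', hmem', hirr', h1, h3, fun _ => rfl⟩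

end Cfsg.Agent.Lib.Helper66.SpFQUADGEN
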