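import Cfsg.Agent.Lib.Helper41.OMStmt
import Cfsg.Agent.Lib.Helper66.SpFQUADGEN

/-!
# S5978 / QUADGENG: a field subalgebra of degree 2 of a matrix algebra over a finite field (any
index type) is `F[J]` with `J² = a J + b`, the quadratic without roots, non-zero discriminant,
`J ^ q = a - J`, and `a = 0` when `2 ≠ 0`
-/

set_option autoImplicit false

namespace Cfsg.Agent.Lib.Helper66.OMQUADGENG

universe u

open Cfsg.Agent.Lib.Helper41.OMStmt Cfsg.Agent.Lib.Helper66.SpFQUADGEN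

theorem main : QuadGenG.{u} := by
  intro F _ _ q hq ι _ _ _ K hK
  subst hq
  obtain ⟨J₀, a₀, b₀, hJK, hJJ, hmem, hirr, hns⟩ := exists_gen_idx K hK
  by_cases h2 : (2 : F) = 0
  · obtain ⟨h1, h3⟩ := finish K hK J₀ a₀ b₀ hJK hJJ hirr hns
    exact ⟨J₀, a₀, b₀, hJK, hJJ, hmem, hirr, h1, h3, fun h => absurd h2 h⟩
  · obtain ⟨c, hc⟩ : ∃ c : F, 2 * c = a₀ := ⟨a₀ / 2, by field_simp⟩
    have hJ'K : J₀ - c • 1 ∈ K := K.sub_mem hJK (K.smul_mem K.one_mem c)
    have hJJ' : (J₀ - c • 1) * (J₀ - c • 1) = (0 : F) • (J₀ - c • 1) + (b₀ + c * c) • 1 := by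
      have e : (J₀ - c • (1 : Matrix ι ι F)) * (J₀ - c • 1) =
          J₀ * J₀ - (2 * c) • J₀ + (c * c) • 1 := by
        simp only [sub_mul, mul_sub, Matrix.smul_mul, Matrix.mul_smul, Matrix.one_mul,
          Matrix.mul_one]
        module
      rw [e, hJJ, hc]; module
    have hmem' : ∀ k, k ∈ K ↔ ∃ α β : F, k = α • 1 + β • (J₀ - c • 1) := by
      intro k
      rw [hmem k]
      constructor
      · rintro ⟨α, β, rfl⟩
        exact ⟨α + β * c, β, by module⟩
      · rintro ⟨α, β, rfl⟩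
        exact ⟨α - β * c, β, by module⟩
    have hirr' : ∀ t : F, t * t ≠ 0 * t + (b₀ + c * c) := by
      intro t ht
      apply hirr (t + c)
      rw [← hc]; linear_combination ht
    have hns' : ∀ t : F, J₀ - c • 1 ≠ t • 1 := by
      intro t ht
      apply hns (t + c)
      rw [add_smul, ← ht]; abel
    obtain ⟨h1, h3⟩ := finish K hK (J₀ - c • 1) 0 (b₀ + c * c) hJ'K hJJ' hirr' hns'
    exact ⟨J₀ - c • 1, 0, b₀ + c * c, hJ'K, hJJ', hmem', hirr', h1, h3, fun _ => rfl⟩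

end Cfsg.Agent.Lib.Helper66.OMQUADGENG
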