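import Mathlib
import Cfsg.Prelude.Def_KGroupFacts
import Cfsg.Agent.Lib.Helper66.Hopf

/-!
# Restriction and corestriction on Schur multipliers (helper66)

For a subgroup `H` of a finite group `G`, with `T G = T (can G)` the Hopf model of the Schur
multiplier, we construct homomorphisms `res : T G →* T H` and `cor : T H →* T G` with
`cor (res t) = t ^ |G : H|` (`exists_res_cor`).

`F = FreeGroup G`, `R = ker (F → G)`, `F_H` the preimage of `H`.  `cor` is induced by
`FreeGroup H → FreeGroup G`.  `res` is the norm map `r ↦ ∏ g⁻¹ r g` (over coset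
representatives `g` of `F / F_H`), pushed to `FreeGroup H` by a lift `F_H → FreeGroup H`
(Nielsen–Schreier).  Both needed facts come from the transfer `F → A`.
-/

set_option autoImplicit false

namespace Cfsg.Agent.Lib.Helper66.ResCor

open scoped commutatorElement
open Cfsg.Agent.Lib.Helper66

universe u

/-- `Z π = R/[F,R]` is commutative. -/
@[reducible] def commGroupZ' {α : Type*} {G : Type*} [Group G] (π : FreeGroup α →* G) :
    CommGroup (Hopf.Z π) :=
  { (inferInstance : Group (Hopf.Z π)) with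
    mul_comm := fun a b =>
      Subtype.ext (Subgroup.mem_center_iff.mp (Hopf.Z_le_center π a.2) b).symm }

attribute [local instance] commGroupZ'

section Setup

variable {G : Type u} [Group G] (H : Subgroup G)

/-- The preimage of `H` in the free group on `G`. -/
def FH : Subgroup (FreeGroup G) := H.comap (Hopf.can G)

theorem mem_FH (x : FreeGroup G) : x ∈ FH H ↔ Hopf.can G x ∈ H := Iff.rfl

theorem ker_le_FH : (Hopf.can G).ker ≤ FH H := fun x hx => by
  rw [mem_FH, MonoidHom.mem_ker.mp hx]; exact H.one_mem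

/-- A lift `F_H → FreeGroup H` over `H`, from the Nielsen–Schreier theorem. -/
noncomputable def lam : ↥(FH H) →* FreeGroup ↥H :=
  IsFreeGroup.lift (fun a =>
    FreeGroup.of (⟨Hopf.can G (IsFreeGroup.of a : ↥(FH H)), (IsFreeGroup.of a).2⟩ : ↥H))

theorem can_lam (x : ↥(FH H)) : ((Hopf.can ↥H (lam H x) : ↥H) : G) = Hopf.can G x := by
  have h : (H.subtype.comp ((Hopf.can ↥H).comp (lam H))) = (Hopf.can G).comp (FH H).subtype := by
    apply IsFreeGroup.ext_hom
    intro a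
    simp [lam, Hopf.can]
  exact DFunLike.congr_fun h x

/-- The map `FreeGroup H → FreeGroup G`. -/
def jj : FreeGroup ↥H →* FreeGroup G := FreeGroup.map Subtype.val

theorem can_jj (y : FreeGroup ↥H) : Hopf.can G (jj H y) = (Hopf.can ↥H y : G) := by
  have h : (Hopf.can G).comp (jj H) = H.subtype.comp (Hopf.can ↥H) := by
    apply FreeGroup.ext_hom
    intro a
    simp [jj, Hopf.can]
  exact DFunLike.congr_fun h y

theorem FR_le_comap :
    Hopf.FR (Hopf.can ↥H) ≤ (Hopf.FR (Hopf.can G)).comap (jj H) := by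
  unfold Hopf.FR
  rw [Subgroup.commutator_le]
  intro a _ b hb
  rw [Subgroup.mem_comap, map_commutatorElement]
  apply Subgroup.commutator_mem_commutator (Subgroup.mem_top _)
  rw [MonoidHom.mem_ker, can_jj, MonoidHom.mem_ker.mp hb]
  rfl

/-- Corestriction on the level of `E`. -/
def corE : Hopf.E (Hopf.can ↥H) →* Hopf.E (Hopf.can G) :=
  QuotientGroup.map _ _ (jj H) (FR_le_comap H)

theorem corE_mk (y : FreeGroup ↥H) :
    corE H (QuotientGroup.mk y) = QuotientGroup.mk (jj H y) := rfl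

theorem πE_corE (e : Hopf.E (Hopf.can ↥H)) :
    Hopf.πE (Hopf.can G) (corE H e) = (Hopf.πE (Hopf.can ↥H) e : G) := by
  obtain ⟨y, rfl⟩ := QuotientGroup.mk_surjective e
  exact can_jj H y

theorem corE_mem_Z (e : Hopf.E (Hopf.can ↥H)) (he : e ∈ Hopf.Z (Hopf.can ↥H)) :
    corE H e ∈ Hopf.Z (Hopf.can G) := by
  rw [Hopf.mem_Z, πE_corE, (Hopf.mem_Z _ _).mp he]
  rfl

theorem corE_mem_T (e : Hopf.E (Hopf.can ↥H)) (he : e ∈ Hopf.T (Hopf.can ↥H)) :
    corE H e ∈ Hopf.T (Hopf.can G) := by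
  refine Subgroup.mem_inf.mpr ⟨corE_mem_Z H e (Hopf.T_le_Z _ he), ?_⟩
  have h1 := Hopf.T_le_commutator _ he
  rw [commutator_def] at h1 ⊢
  have h2 : corE H e ∈ Subgroup.map (corE H)
      ⁅(⊤ : Subgroup (Hopf.E (Hopf.can ↥H))), (⊤ : Subgroup (Hopf.E (Hopf.can ↥H)))⁆ :=
    ⟨e, h1, rfl⟩
  rw [Subgroup.map_commutator] at h2
  exact Subgroup.commutator_mono le_top le_top h2

/-- Corestriction `Z H → Z G`. -/
def corZ : ↥(Hopf.Z (Hopf.can ↥H)) →* ↥(Hopf.Z (Hopf.can G)) :=
  ((corE H).comp (Hopf.Z (Hopf.can ↥H)).subtype).codRestrict _ (fun z => corE_mem_Z H z z.2)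

/-- Conjugation `r ↦ g⁻¹ r g` from `R` to `F_H`. -/
def cj (g : FreeGroup G) : ↥(Hopf.can G).ker →* ↥(FH H) where
  toFun r := ⟨g⁻¹ * r * g, by
    apply ker_le_FH
    rw [MonoidHom.mem_ker, map_mul, map_mul, map_inv, MonoidHom.mem_ker.mp r.2, mul_one,
      inv_mul_cancel]⟩
  map_one' := by
    apply Subtype.ext
    simp
  map_mul' := fun r s => by
    apply Subtype.ext
    simp only [Subgroup.coe_mul]
    group

theorem coe_cj (g : FreeGroup G) (r : ↥(Hopf.can G).ker) :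
    ((cj H g r : ↥(FH H)) : FreeGroup G) = g⁻¹ * r * g := rfl

theorem can_cj (g : FreeGroup G) (r : ↥(Hopf.can G).ker) :
    Hopf.can G (cj H g r : ↥(FH H)) = 1 := by
  rw [coe_cj, map_mul, map_mul, map_inv, MonoidHom.mem_ker.mp r.2, mul_one, inv_mul_cancel]

/-- The map `r ↦ [λ(g⁻¹ r g)]` from `R` to `Z H`. -/
noncomputable def nu (g : FreeGroup G) : ↥(Hopf.can G).ker →* ↥(Hopf.Z (Hopf.can ↥H)) :=
  ((QuotientGroup.mk' (Hopf.FR (Hopf.can ↥H))).comp ((lam H).comp (cj H g))).codRestrict _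
    (fun r => by
      rw [Hopf.mem_Z]
      show Hopf.can ↥H (lam H (cj H g r)) = 1
      apply Subtype.ext
      rw [can_lam, can_cj]
      rfl)

theorem coe_nu (g : FreeGroup G) (r : ↥(Hopf.can G).ker) :
    ((nu H g r : ↥(Hopf.Z (Hopf.can ↥H))) : Hopf.E (Hopf.can ↥H)) =
      QuotientGroup.mk (lam H (cj H g r)) := rfl

theorem nu_congr (g g' : FreeGroup G) (h : g⁻¹ * g' ∈ FH H) : nu H g = nu H g' := by
  apply MonoidHom.ext
  intro r
  apply Subtype.ext
  rw [coe_nu, coe_nu]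
  have e1 : cj H g' r = (⟨g⁻¹ * g', h⟩ : ↥(FH H))⁻¹ * cj H g r * ⟨g⁻¹ * g', h⟩ := by
    apply Subtype.ext
    simp only [Subgroup.coe_mul, Subgroup.coe_inv, coe_cj]
    group
  rw [e1, map_mul, map_mul, map_inv, QuotientGroup.mk_mul, QuotientGroup.mk_mul,
    QuotientGroup.mk_inv]
  have hz : (QuotientGroup.mk (lam H (cj H g r)) : Hopf.E (Hopf.can ↥H)) ∈
      Subgroup.center _ := Hopf.Z_le_center _ (nu H g r).2
  rw [Subgroup.mem_center_iff] at hz
  rw [mul_assoc, ← hz, inv_mul_cancel_left]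

theorem nu_conj (g x : FreeGroup G) (r : ↥(Hopf.can G).ker)
    (hx : x * r * x⁻¹ ∈ (Hopf.can G).ker) :
    nu H g ⟨x * r * x⁻¹, hx⟩ = nu H (x⁻¹ * g) r := by
  apply Subtype.ext
  rw [coe_nu, coe_nu]
  congr 2
  apply Subtype.ext
  simp only [coe_cj]
  group

/-- `nu` on cosets. -/
noncomputable def nuq (q : FreeGroup G ⧸ FH H) :
    ↥(Hopf.can G).ker →* ↥(Hopf.Z (Hopf.can ↥H)) := nu H q.out

theorem nuq_mk (g : FreeGroup G) : nuq H (QuotientGroup.mk g) = nu H g := by
  apply nu_congr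
  have h : (QuotientGroup.mk ((QuotientGroup.mk g : FreeGroup G ⧸ FH H).out) :
      FreeGroup G ⧸ FH H) = QuotientGroup.mk g := QuotientGroup.out_eq' _
  exact QuotientGroup.eq.mp h

end Setup

section Norm

variable {G : Type u} [Group G] [Finite G] (H : Subgroup G)

theorem index_FH : (FH H).index = H.index :=
  Subgroup.index_comap_of_surjective H (Hopf.can_surjective G)

instance FH_finiteIndex : (FH H).FiniteIndex := by
  constructor
  rw [index_FH]
  exact Subgroup.FiniteIndex.index_ne_zero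

/-- The `Fintype` structure on the cosets used by the transfer. -/
noncomputable local instance fintypeQ : Fintype (FreeGroup G ⧸ FH H) :=
  (FH H).fintypeQuotientOfFiniteIndex

/-- The norm map `R → Z H`. -/
noncomputable def Nm : ↥(Hopf.can G).ker →* ↥(Hopf.Z (Hopf.can ↥H)) :=
  ∏ q : FreeGroup G ⧸ FH H, nuq H q

theorem Nm_apply (r : ↥(Hopf.can G).ker) :
    Nm H r = ∏ q : FreeGroup G ⧸ FH H, nuq H q r := by
  unfold Nm
  exact MonoidHom.finsetProd_apply _ _ _

theorem Nm_conj (x : FreeGroup G) (r : ↥(Hopf.can G).ker)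
    (hx : x * r * x⁻¹ ∈ (Hopf.can G).ker) : Nm H ⟨x * r * x⁻¹, hx⟩ = Nm H r := by
  rw [Nm_apply, Nm_apply]
  have h : ∀ q : FreeGroup G ⧸ FH H, nuq H q ⟨x * r * x⁻¹, hx⟩ = nuq H (x⁻¹ • q) r := by
    intro q
    induction q using QuotientGroup.induction_on with
    | H g =>
      have e : (x⁻¹ • (QuotientGroup.mk g : FreeGroup G ⧸ FH H)) = QuotientGroup.mk (x⁻¹ * g) :=
        rfl
      rw [e, nuq_mk, nuq_mk, nu_conj]
  rw [Finset.prod_congr rfl (fun q _ => h q)]
  exact Equiv.prod_comp (MulAction.toPerm x⁻¹) (fun q => nuq H q r)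

theorem Nm_eq_one_of_mem_FR (r : ↥(Hopf.can G).ker)
    (hr : (r : FreeGroup G) ∈ Hopf.FR (Hopf.can G)) : Nm H r = 1 := by
  have hle : Hopf.FR (Hopf.can G) ≤ (Nm H).ker.map (Hopf.can G).ker.subtype := by
    show ⁅(⊤ : Subgroup (FreeGroup G)), (Hopf.can G).ker⁆ ≤ _
    rw [Subgroup.commutator_le]
    intro x _ b hb
    have hx : x * b * x⁻¹ ∈ (Hopf.can G).ker := by
      rw [MonoidHom.mem_ker, map_mul, map_mul, map_inv, MonoidHom.mem_ker.mp hb, mul_one,
        mul_inv_cancel]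
    refine ⟨⟨x * b * x⁻¹, hx⟩ * (⟨b, hb⟩ : ↥(Hopf.can G).ker)⁻¹, ?_, ?_⟩
    · rw [SetLike.mem_coe, MonoidHom.mem_ker, map_mul, map_inv, Nm_conj H x ⟨b, hb⟩ hx,
        mul_inv_cancel]
    · simp [commutatorElement_def]
  obtain ⟨r', hr', e⟩ := hle hr
  have : r' = r := Subtype.ext e
  rw [← this]
  exact MonoidHom.mem_ker.mp hr'

/-- `R → Z G`. -/
def rho : ↥(Hopf.can G).ker →* ↥(Hopf.Z (Hopf.can G)) :=
  ((QuotientGroup.mk' (Hopf.FR (Hopf.can G))).comp (Hopf.can G).ker.subtype).codRestrict _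
    (fun r => by
      rw [Hopf.mem_Z]
      exact MonoidHom.mem_ker.mp r.2)

theorem coe_rho (r : ↥(Hopf.can G).ker) :
    ((rho r : ↥(Hopf.Z (Hopf.can G))) : Hopf.E (Hopf.can G)) =
      QuotientGroup.mk (r : FreeGroup G) := rfl

theorem rho_surjective : Function.Surjective (rho (G := G)) := by
  rintro ⟨z, hz⟩
  obtain ⟨f, rfl⟩ := QuotientGroup.mk_surjective z
  exact ⟨⟨f, MonoidHom.mem_ker.mpr ((Hopf.mem_Z _ _).mp hz)⟩, rfl⟩

theorem rho_ker_le : (rho (G := G)).ker ≤ (Nm H).ker := by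
  intro r hr
  rw [MonoidHom.mem_ker] at hr ⊢
  apply Nm_eq_one_of_mem_FR
  have h1 : (QuotientGroup.mk (r : FreeGroup G) : Hopf.E (Hopf.can G)) = 1 :=
    congrArg Subtype.val hr
  exact (QuotientGroup.eq_one_iff _).mp h1

/-- Restriction `Z G → Z H`. -/
noncomputable def resZ : ↥(Hopf.Z (Hopf.can G)) →* ↥(Hopf.Z (Hopf.can ↥H)) :=
  (rho (G := G)).liftOfSurjective rho_surjective ⟨Nm H, rho_ker_le H⟩

theorem resZ_rho (r : ↥(Hopf.can G).ker) : resZ H (rho r) = Nm H r :=
  MonoidHom.liftOfRightInverse_comp_apply _ _ _ _ r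

/-- The transfer `F → A` of `ϕ : F_H → A`, evaluated on `R`. -/
theorem transfer_eq_prod {A : Type*} [CommGroup A] (ϕ : ↥(FH H) →* A)
    (r : ↥(Hopf.can G).ker) :
    MonoidHom.transfer ϕ (r : FreeGroup G) = ∏ q : FreeGroup G ⧸ FH H, ϕ (cj H q.out r) := by
  let T₀ : (FH H).LeftTransversal :=
    ⟨Set.range Quotient.out, Subgroup.isComplement_range_left QuotientGroup.out_eq'⟩
  rw [MonoidHom.transfer_def ϕ T₀]
  unfold Subgroup.leftTransversals.diff
  apply Finset.prod_congr rfl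
  intro q _
  apply congrArg ϕ
  apply Subtype.ext
  show ((T₀.2.leftQuotientEquiv q : FreeGroup G))⁻¹ *
    ((((r : FreeGroup G) • T₀).2.leftQuotientEquiv q : FreeGroup G)) =
      (Quotient.out q)⁻¹ * r * Quotient.out q
  rw [Subgroup.smul_apply_eq_smul_apply_inv_smul]
  have hq : (r : FreeGroup G)⁻¹ • q = q := by
    induction q using QuotientGroup.induction_on with
    | H g =>
      have e : ((r : FreeGroup G)⁻¹ • (QuotientGroup.mk g : FreeGroup G ⧸ FH H)) =
          QuotientGroup.mk ((r : FreeGroup G)⁻¹ * g) := rfl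
      rw [e, QuotientGroup.eq]
      have h1 := (cj H g r).2
      rw [coe_cj] at h1
      have h2 : ((r : FreeGroup G)⁻¹ * g)⁻¹ * g = g⁻¹ * r * g := by group
      rw [h2]
      exact h1
  rw [hq]
  have hα : (T₀.2.leftQuotientEquiv q : FreeGroup G) = Quotient.out q :=
    Subgroup.IsComplement.leftQuotientEquiv_apply QuotientGroup.out_eq' q
  rw [hα, smul_eq_mul, mul_assoc]

theorem Nm_mem_commutator (r : ↥(Hopf.can G).ker)
    (hr : (r : FreeGroup G) ∈ _root_.commutator (FreeGroup G)) :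
    ((Nm H r : ↥(Hopf.Z (Hopf.can ↥H))) : Hopf.E (Hopf.can ↥H)) ∈
      _root_.commutator (Hopf.E (Hopf.can ↥H)) := by
  let ψ : ↥(Hopf.Z (Hopf.can ↥H)) →* Abelianization (Hopf.E (Hopf.can ↥H)) :=
    Abelianization.of.comp (Subgroup.subtype _)
  let ϕ : ↥(FH H) →* Abelianization (Hopf.E (Hopf.can ↥H)) :=
    Abelianization.of.comp ((QuotientGroup.mk' _).comp (lam H))
  have h1 : MonoidHom.transfer ϕ (r : FreeGroup G) = 1 :=
    MonoidHom.mem_ker.mp (Abelianization.commutator_subset_ker (MonoidHom.transfer ϕ) hr)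
  rw [transfer_eq_prod] at h1
  have h2 : ψ (Nm H r) = ∏ q : FreeGroup G ⧸ FH H, ϕ (cj H q.out r) := by
    rw [Nm_apply, map_prod]
    rfl
  rw [← h2] at h1
  have h3 : ((Nm H r : ↥(Hopf.Z (Hopf.can ↥H))) : Hopf.E (Hopf.can ↥H)) ∈
      (Abelianization.of).ker := MonoidHom.mem_ker.mpr h1
  rwa [Abelianization.ker_of] at h3

/-- The difference of the two lifts `F_H → E G`. -/
noncomputable def chi : ↥(FH H) →* ↥(Hopf.Z (Hopf.can G)) where
  toFun x := ⟨QuotientGroup.mk (jj H (lam H x)) * (QuotientGroup.mk (x : FreeGroup G))⁻¹, by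
    rw [Hopf.mem_Z, map_mul, map_inv, Hopf.πE_mk, Hopf.πE_mk, can_jj, can_lam, mul_inv_cancel]⟩
  map_one' := by
    apply Subtype.ext
    simp
  map_mul' := fun x y => by
    apply Subtype.ext
    have hz : (QuotientGroup.mk (jj H (lam H y)) * (QuotientGroup.mk (y : FreeGroup G))⁻¹ :
        Hopf.E (Hopf.can G)) ∈ Subgroup.center _ := by
      apply Hopf.Z_le_center
      rw [Hopf.mem_Z, map_mul, map_inv, Hopf.πE_mk, Hopf.πE_mk, can_jj, can_lam, mul_inv_cancel]
    rw [Subgroup.mem_center_iff] at hz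
    show (QuotientGroup.mk (jj H (lam H (x * y))) : Hopf.E (Hopf.can G)) *
        (QuotientGroup.mk ((x * y : ↥(FH H)) : FreeGroup G))⁻¹ =
      QuotientGroup.mk (jj H (lam H x)) * (QuotientGroup.mk (x : FreeGroup G))⁻¹ *
        (QuotientGroup.mk (jj H (lam H y)) * (QuotientGroup.mk (y : FreeGroup G))⁻¹)
    rw [mul_assoc (QuotientGroup.mk (jj H (lam H x)) : Hopf.E (Hopf.can G)), hz, map_mul, map_mul,
      Subgroup.coe_mul, QuotientGroup.mk_mul, QuotientGroup.mk_mul, mul_inv_rev]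
    simp only [mul_assoc]

theorem coe_chi (x : ↥(FH H)) : ((chi H x : ↥(Hopf.Z (Hopf.can G))) : Hopf.E (Hopf.can G)) =
    QuotientGroup.mk (jj H (lam H x)) * (QuotientGroup.mk (x : FreeGroup G))⁻¹ := rfl

theorem corZ_Nm (r : ↥(Hopf.can G).ker)
    (hr : (r : FreeGroup G) ∈ _root_.commutator (FreeGroup G)) :
    corZ H (Nm H r) = rho r ^ (FH H).index := by
  have hfac : ∀ q : FreeGroup G ⧸ FH H,
      corZ H (nuq H q r) = chi H (cj H q.out r) * rho r := by
    intro q
    apply Subtype.ext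
    show corE H (QuotientGroup.mk (lam H (cj H q.out r))) =
      QuotientGroup.mk (jj H (lam H (cj H q.out r))) *
        (QuotientGroup.mk ((cj H q.out r : ↥(FH H)) : FreeGroup G))⁻¹ *
          QuotientGroup.mk (r : FreeGroup G)
    rw [corE_mk, coe_cj, QuotientGroup.mk_mul, QuotientGroup.mk_mul, QuotientGroup.mk_inv]
    have hz : (QuotientGroup.mk (r : FreeGroup G) : Hopf.E (Hopf.can G)) ∈ Subgroup.center _ :=
      Hopf.Z_le_center _ (rho r).2
    rw [Subgroup.mem_center_iff] at hz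
    rw [mul_assoc (QuotientGroup.mk (Quotient.out q) : Hopf.E (Hopf.can G))⁻¹, ← hz,
      inv_mul_cancel_left, mul_assoc, inv_mul_cancel, mul_one]
  rw [Nm_apply, map_prod, Finset.prod_congr rfl (fun q _ => hfac q), Finset.prod_mul_distrib,
    Finset.prod_const, Finset.card_univ]
  have h1 : ∏ q : FreeGroup G ⧸ FH H, chi H (cj H q.out r) = 1 := by
    rw [← transfer_eq_prod H (chi H) r]
    exact MonoidHom.mem_ker.mp
      (Abelianization.commutator_subset_ker (MonoidHom.transfer (chi H)) hr)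
  rw [h1, one_mul]
  congr 1
  rw [Subgroup.index_eq_card, Nat.card_eq_fintype_card]

/-- Restriction and corestriction on the Hopf models of the Schur multipliers of a finite
group `G` and a subgroup `H`, with `cor ∘ res` the `|G : H|`-th power map. -/
theorem exists_res_cor :
    ∃ (res : ↥(Hopf.T (Hopf.can G)) →* ↥(Hopf.T (Hopf.can ↥H)))
      (cor : ↥(Hopf.T (Hopf.can ↥H)) →* ↥(Hopf.T (Hopf.can G))),
      ∀ t, cor (res t) = t ^ H.index := by
  have hrep : ∀ t : ↥(Hopf.T (Hopf.can G)), ∃ r : ↥(Hopf.can G).ker,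
      (r : FreeGroup G) ∈ _root_.commutator (FreeGroup G) ∧
        ((rho r : ↥(Hopf.Z (Hopf.can G))) : Hopf.E (Hopf.can G)) = t := by
    intro t
    have h1 := Hopf.T_le_commutator _ t.2
    have h2 : _root_.commutator (Hopf.E (Hopf.can G)) =
        (_root_.commutator (FreeGroup G)).map (QuotientGroup.mk' (Hopf.FR (Hopf.can G))) := by
      rw [commutator_def, commutator_def, Subgroup.map_commutator, ← MonoidHom.range_eq_map,
        MonoidHom.range_eq_top.mpr (QuotientGroup.mk'_surjective _)]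
    rw [h2] at h1
    obtain ⟨f, hf, hft⟩ := h1
    have hfk : f ∈ (Hopf.can G).ker := by
      rw [MonoidHom.mem_ker]
      have h3 := (Hopf.mem_Z _ _).mp (Hopf.T_le_Z _ t.2)
      rw [← hft] at h3
      exact h3
    exact ⟨⟨f, hfk⟩, hf, hft⟩
  let res₁ : ↥(Hopf.T (Hopf.can G)) →* ↥(Hopf.Z (Hopf.can ↥H)) :=
    (resZ H).comp (Subgroup.inclusion (Hopf.T_le_Z _))
  have hres : ∀ t, ((res₁ t : ↥(Hopf.Z (Hopf.can ↥H))) : Hopf.E (Hopf.can ↥H)) ∈
      Hopf.T (Hopf.can ↥H) := by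
    intro t
    obtain ⟨r, hr, hrt⟩ := hrep t
    have e : Subgroup.inclusion (Hopf.T_le_Z _) t = rho r := Subtype.ext hrt.symm
    refine Subgroup.mem_inf.mpr ⟨(res₁ t).2, ?_⟩
    show ((resZ H (Subgroup.inclusion (Hopf.T_le_Z _) t) : ↥(Hopf.Z (Hopf.can ↥H))) :
      Hopf.E (Hopf.can ↥H)) ∈ _
    rw [e, resZ_rho]
    exact Nm_mem_commutator H r hr
  refine ⟨((Subgroup.subtype _).comp res₁).codRestrict _ hres,
    ((corE H).comp (Subgroup.subtype _)).codRestrict _ (fun t => corE_mem_T H t t.2), ?_⟩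
  intro t
  obtain ⟨r, hr, hrt⟩ := hrep t
  apply Subtype.ext
  show corE H ((resZ H (Subgroup.inclusion (Hopf.T_le_Z _) t) : ↥(Hopf.Z (Hopf.can ↥H))) :
    Hopf.E (Hopf.can ↥H)) = ((t ^ H.index : ↥(Hopf.T (Hopf.can G))) : Hopf.E (Hopf.can G))
  have e : Subgroup.inclusion (Hopf.T_le_Z _) t = rho r := Subtype.ext hrt.symm
  rw [e, resZ_rho]
  have h := congrArg Subtype.val (corZ_Nm H r hr)
  rw [Subgroup.coe_pow, ← hrt, ← index_FH]
  exact h

end Norm

end Cfsg.Agent.Lib.Helper66.ResCor
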