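import Cfsg.Agent.Lib.Helper41.SpFStmt

/-!
# S5975 / LFIELD: a field subalgebra as an abstract finite field
-/

set_option autoImplicit false

namespace Cfsg.Agent.Lib.Helper66.SpFLFIELD

universe u

open Cfsg.Agent.Lib.Helper41.SpFStmt

theorem main : LField.{u} := by
  intro F _ _ d k hd K hK
  classical
  haveI : Nonempty (Fin d ⊕ Fin d) := ⟨Sum.inl ⟨0, hd⟩⟩
  have h10 : (1 : Mat d F) ≠ 0 := one_ne_zero
  have hfield : IsField ↥K :=
    { exists_pair_ne := ⟨0, 1, fun h => h10 (congrArg Subtype.val h).symm⟩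
      mul_comm := fun x y => Subtype.ext (hK.comm x x.2 y y.2)
      mul_inv_cancel := fun {a} ha => by
        obtain ⟨y, hy, hxy⟩ := hK.inv a a.2 (fun h => ha (Subtype.ext h))
        exact ⟨⟨y, hy⟩, Subtype.ext hxy⟩ }
  refine ⟨↥K, hfield.toField, Fintype.ofFinite ↥K, K.algebra, K.val, Subtype.val_injective, ?_,
    hK.finrank_eq⟩
  intro a
  constructor
  · intro ha; exact ⟨⟨a, ha⟩, rfl⟩
  · rintro ⟨c, rfl⟩; exact c.2

end Cfsg.Agent.Lib.Helper66.SpFLFIELD
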