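import Cfsg.Agent.Lib.Helper41.SpFStmt

/-!
# S5975 / PLANE: an involution with a two-dimensional `(-1)`-eigenspace centralizing a field of
self-adjoint matrices forces the field to be the scalars
-/

set_option autoImplicit false

namespace Cfsg.Agent.Lib.Helper66.SpFPLANE

universe u

open Matrix
open Cfsg.Agent.Lib.Helper41.SpFStmt
open Cfsg.Agent.Lib.Helper40.SympConj

theorem main : Plane.{u} := by
  intro F _ d k K h2 hK hsa y hy hyy hrank hcomm
  classical
  let f : (Fin d ⊕ Fin d → F) → (Fin d ⊕ Fin d → F) → F := fun u v => u ⬝ᵥ (J (Fin d) F *ᵥ v)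
  have f_add_left : ∀ u u' v, f (u + u') v = f u v + f u' v := fun u u' v => add_dotProduct _ _ _
  have f_add_right : ∀ u v v', f u (v + v') = f u v + f u v' := fun u v v' => by
    show u ⬝ᵥ (J (Fin d) F *ᵥ (v + v')) = _
    rw [mulVec_add, dotProduct_add]
  have f_sub_right : ∀ u v v', f u (v - v') = f u v - f u v' := fun u v v' => by
    show u ⬝ᵥ (J (Fin d) F *ᵥ (v - v')) = _
    rw [mulVec_sub, dotProduct_sub]
  have f_smul_left : ∀ (c : F) u v, f (c • u) v = c * f u v := fun c u v => smul_dotProduct _ _ _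
  have f_smul_right : ∀ (c : F) u v, f u (c • v) = c * f u v := fun c u v => by
    show u ⬝ᵥ (J (Fin d) F *ᵥ (c • v)) = _
    rw [mulVec_smul, dotProduct_smul]; rfl
  have f_neg_left : ∀ u v, f (-u) v = - f u v := fun u v => neg_dotProduct _ _
  have f_alt : ∀ v, f v v = 0 := fun v => J_alt v
  have f_skew : ∀ u v, f u v = - f v u := by
    intro u v
    have := f_alt (u + v)
    rw [f_add_left, f_add_right, f_add_right, f_alt, f_alt] at this
    linear_combination this
  have hsy : sadj y = y := by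
    calc sadj y = sadj y * (y * y) := by rw [hyy, mul_one]
      _ = y := by rw [← mul_assoc, hy, one_mul]
  have f_adj : ∀ (M : Mat d F), sadj M = M → ∀ u v, f (M *ᵥ u) v = f u (M *ᵥ v) := by
    intro M hM u v
    have := adjoint_rel M u v
    rw [hM] at this
    exact this
  obtain ⟨N, hN⟩ : ∃ N : Mat d F, N = y - 1 := ⟨_, rfl⟩
  have hyN : y * N = -N := by
    rw [hN, mul_sub, hyy, mul_one]; abel
  obtain ⟨U, hUdef⟩ : ∃ U : Submodule F (Fin d ⊕ Fin d → F), U = LinearMap.range N.mulVecLin :=
    ⟨_, rfl⟩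
  have hU : Module.finrank F U = 2 := by
    rw [hUdef, ← hrank, hN]; rfl
  have hmemU : ∀ w, N *ᵥ w ∈ U := fun w => by rw [hUdef]; exact ⟨w, rfl⟩
  have hUne : U ≠ ⊥ := by
    intro h
    rw [h, finrank_bot] at hU
    omega
  obtain ⟨u0, hu0U, hu0⟩ := (Submodule.ne_bot_iff U).mp hUne
  obtain ⟨w, hw⟩ : ∃ w, N *ᵥ w = u0 := by
    rw [hUdef] at hu0U; exact hu0U
  have hyu0 : y *ᵥ u0 = -u0 := by
    rw [← hw, mulVec_mulVec, hyN, neg_mulVec]
  obtain ⟨v, hv⟩ : ∃ v, f u0 v ≠ 0 := by
    by_contra hcon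
    push Not at hcon
    exact hu0 (eq_zero_of_J u0 hcon)
  obtain ⟨v0, hv0⟩ : ∃ v0, v0 = N *ᵥ v := ⟨_, rfl⟩
  have hfuv : f u0 v0 = -2 * f u0 v := by
    rw [hv0, hN, sub_mulVec, one_mulVec, f_sub_right, ← f_adj y hsy, hyu0, f_neg_left]
    ring
  have hfuv0 : f u0 v0 ≠ 0 := by
    rw [hfuv]
    exact mul_ne_zero (neg_ne_zero.mpr h2) hv
  have hpair : LinearIndependent F ![u0, v0] := by
    rw [LinearIndependent.pair_iff]
    intro s t hst
    have h1 : f u0 (s • u0 + t • v0) = t * f u0 v0 := by
      rw [f_add_right, f_smul_right, f_smul_right, f_alt]; ring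
    rw [hst] at h1
    have h0 : f u0 0 = 0 := by
      have := f_smul_right 0 u0 0
      rw [zero_smul, zero_mul] at this
      exact this
    rw [h0] at h1
    have ht : t = 0 := by
      rcases mul_eq_zero.mp h1.symm with h | h
      · exact h
      · exact absurd h hfuv0
    subst ht
    rw [zero_smul, add_zero] at hst
    rcases smul_eq_zero.mp hst with h | h
    · exact ⟨h, rfl⟩
    · exact absurd h hu0
  have hspan : Submodule.span F {u0, v0} = U := by
    apply Submodule.eq_of_le_of_finrank_eq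
    · rw [Submodule.span_le]
      rintro x (rfl | rfl)
      · exact hu0U
      · rw [hv0]; exact hmemU v
    · rw [hU, ← Matrix.range_cons_cons_empty, finrank_span_eq_card hpair, Fintype.card_fin]
  have hscalar : ∀ a ∈ K, ∃ x : F, a = x • 1 := by
    intro a ha
    have haN : a * N = N * a := by
      rw [hN, mul_sub, sub_mul, hcomm a ha, mul_one, one_mul]
    have hau : a *ᵥ u0 ∈ U := by
      rw [← hw, mulVec_mulVec, haN, ← mulVec_mulVec]
      exact hmemU _
    rw [← hspan, Submodule.mem_span_pair] at hau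
    obtain ⟨x, z, hxz⟩ := hau
    have h0 : f (a *ᵥ u0) u0 = 0 := by
      have h1 := f_adj a (hsa a ha) u0 u0
      have h3 := f_skew u0 (a *ᵥ u0)
      have h4 : (2 : F) * f (a *ᵥ u0) u0 = 0 := by linear_combination h1 + h3
      rcases mul_eq_zero.mp h4 with h | h
      · exact absurd h h2
      · exact h
    have hz : z = 0 := by
      rw [← hxz, f_add_left, f_smul_left, f_smul_left, f_alt, f_skew v0 u0] at h0
      have h5 : z * f u0 v0 = 0 := by linear_combination -h0
      rcases mul_eq_zero.mp h5 with h | h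
      · exact h
      · exact absurd h hfuv0
    subst hz
    rw [zero_smul, add_zero] at hxz
    refine ⟨x, ?_⟩
    by_contra hne
    have hmem : a - x • 1 ∈ K := K.sub_mem ha (K.smul_mem K.one_mem x)
    obtain ⟨b, hbK, hb⟩ := hK.inv (a - x • 1) hmem (fun h => hne (sub_eq_zero.mp h))
    have hb' : b * (a - x • 1) = 1 := by
      rw [hK.comm b hbK _ hmem]; exact hb
    apply hu0
    calc u0 = (b * (a - x • 1)) *ᵥ u0 := by rw [hb', one_mulVec]
      _ = b *ᵥ (a *ᵥ u0 - x • u0) := by
        rw [← mulVec_mulVec, sub_mulVec, smul_mulVec, one_mulVec]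
      _ = 0 := by rw [← hxz, sub_self, mulVec_zero]
  have h10 : (1 : Mat d F) ≠ 0 := by
    intro h
    apply hu0
    have := congrArg (fun M : Mat d F => M *ᵥ u0) h
    simpa using this
  have hKs : Subalgebra.toSubmodule K = Submodule.span F {(1 : Mat d F)} := by
    apply le_antisymm
    · intro a ha
      obtain ⟨x, hx⟩ := hscalar a ha
      rw [Submodule.mem_span_singleton]; exact ⟨x, hx.symm⟩
    · rw [Submodule.span_le]; rintro _ rfl; exact K.one_mem
  have := hK.finrank_eq
  rw [← Subalgebra.finrank_toSubmodule, hKs, finrank_span_singleton h10] at this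
  exact this.symm

end Cfsg.Agent.Lib.Helper66.SpFPLANE
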