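import Mathlib
import Cfsg.Agent.Lib.Helper66.SpinAlt

set_option autoImplicit false

/-!
# A double cover of a perfect group of even permutations containing a fixed-point-free involution

Piece A of S2046: a perfect subgroup `G` of `Alt(100)` that contains a fixed-point-free
involution has a central extension whose kernel meets the commutator subgroup nontrivially
(the restriction of the double cover of the alternating group).
-/

namespace Cfsg.Agent.Lib.Helper66.SpinCover

open Equiv
open Cfsg.Agent.Lib.Helper66.SpinAlt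

variable {n : ℕ}

/-- The triangular numbers. -/
def tri : ℕ → ℕ
  | 0 => 0
  | k + 1 => tri k + k

theorem sgn_comm (k : ℕ) (y : A n) : (-1 : A n) ^ k * y = y * (-1 : A n) ^ k :=
  ((Commute.neg_one_left y).pow_left k).eq

theorem sgn_succ (k : ℕ) : (-1 : A n) ^ (k + 1) = -((-1 : A n) ^ k) := by
  rw [pow_succ, mul_neg_one']

theorem sgn_two_mul (m : ℕ) : (-1 : A n) ^ (2 * m) = 1 := by
  have h : (-1 : A n) ^ 2 = 1 := by rw [pow_two, neg_one_mul', neg_neg']
  rw [pow_mul, h, one_pow]

theorem sgn_two_mul_add_one (m : ℕ) : (-1 : A n) ^ (2 * m + 1) = -1 := by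
  rw [pow_succ, sgn_two_mul, one_mul]

/-- The lift of an involution with `2 * k` moved points. -/
theorem key : ∀ (k : ℕ) (g : Perm (Fin n)), g * g = 1 → g.support.card = 2 * k →
    ∃ x : A n, (∀ i, x * L i = (-1 : A n) ^ k * (L (g i) * x)) ∧ (∀ i, x * R i = R i * x) ∧
      x * Par = (-1 : A n) ^ k * (Par * x) ∧ x * x = (-1 : A n) ^ (tri k) := by
  intro k
  induction k with
  | zero =>
    intro g hg hc
    have h1 : g = 1 := Perm.card_support_eq_zero.mp (by simpa using hc)
    subst h1
    refine ⟨1, fun i => ?_, fun i => ?_, ?_, ?_⟩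
    · simp
    · simp
    · simp
    · simp [tri]
  | succ k ih =>
    intro g hg hc
    have hne : g.support.Nonempty := by
      rw [← Finset.card_pos]; omega
    obtain ⟨a, ha⟩ := hne
    have ha' : g a ≠ a := Perm.mem_support.mp ha
    have hgg : ∀ i, g (g i) = i := fun i => by
      have := congrArg (fun p : Perm (Fin n) => p i) hg
      simpa using this
    obtain ⟨b, hb⟩ : ∃ b, b = g a := ⟨_, rfl⟩
    have hab : a ≠ b := fun h => ha' (by rw [← hb, ← h])
    have hgb : g b = a := by rw [hb]; exact hgg a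
    have hga : g a = b := hb.symm
    have f1 : (swap a b * g) a = a := by
      rw [Perm.mul_apply, hga, swap_apply_right]
    have f2 : (swap a b * g) b = b := by
      rw [Perm.mul_apply, hgb, swap_apply_left]
    have hdis : Perm.Disjoint (swap a b) (swap a b * g) := by
      intro i
      rcases eq_or_ne i a with rfl | hia
      · exact Or.inr f1
      rcases eq_or_ne i b with rfl | hib
      · exact Or.inr f2
      · exact Or.inl (swap_apply_of_ne_of_ne hia hib)
    have hgd : g = swap a b * (swap a b * g) := by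
      rw [swap_mul_self_mul]
    have hcard : (swap a b * g).support.card = 2 * k := by
      have h1 := hdis.card_support_mul
      rw [← hgd, hc, Perm.card_support_swap hab] at h1
      omega
    have hsq : (swap a b * g) * (swap a b * g) = 1 := by
      have h1 : g * swap a b = swap a b * g := by
        rw [mul_swap_eq_swap_mul, hga, hgb, swap_comm]
      rw [mul_assoc, ← mul_assoc g, h1, mul_assoc, hg, mul_one, swap_mul_self]
    obtain ⟨x', h1, h2, h3, h4⟩ := ih (swap a b * g) hsq hcard
    have e1 : x' * v a b = (-1 : A n) ^ k * (v a b * x') := by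
      unfold v
      rw [mul_sub, h1 a, h1 b, f1, f2, sub_mul, mul_sub]
    refine ⟨v a b * x', fun i => ?_, fun i => ?_, ?_, ?_⟩
    · have e2 : swap a b ((swap a b * g) i) = g i := by
        rw [Perm.mul_apply, swap_apply_self]
      have e3 : v a b * L ((swap a b * g) i) = -(L (g i) * v a b) := by
        rw [v_L hab, e2]
      calc v a b * x' * L i = v a b * (x' * L i) := mul_assoc _ _ _
        _ = v a b * ((-1 : A n) ^ k * (L ((swap a b * g) i) * x')) := by rw [h1 i]
        _ = (-1 : A n) ^ k * (v a b * L ((swap a b * g) i) * x') := by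
            rw [← mul_assoc, ← sgn_comm, mul_assoc, mul_assoc]
        _ = (-1 : A n) ^ (k + 1) * (L (g i) * (v a b * x')) := by
            rw [e3, sgn_succ, neg_mul', mul_neg', neg_mul', mul_assoc]
    · rw [mul_assoc, h2 i, ← mul_assoc, v_R, mul_assoc]
    · calc v a b * x' * Par = v a b * (x' * Par) := mul_assoc _ _ _
        _ = v a b * ((-1 : A n) ^ k * (Par * x')) := by rw [h3]
        _ = (-1 : A n) ^ k * (v a b * Par * x') := by
            rw [← mul_assoc, ← sgn_comm, mul_assoc, mul_assoc]
        _ = (-1 : A n) ^ (k + 1) * (Par * (v a b * x')) := by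
            rw [v_Par, sgn_succ, neg_mul', mul_neg', neg_mul', mul_assoc]
    · calc v a b * x' * (v a b * x') = v a b * (x' * v a b) * x' := by
            rw [mul_assoc, mul_assoc, mul_assoc]
        _ = v a b * ((-1 : A n) ^ k * (v a b * x')) * x' := by rw [e1]
        _ = (-1 : A n) ^ k * (v a b * v a b) * (x' * x') := by
            rw [← mul_assoc (v a b), ← sgn_comm]
            simp only [mul_assoc]
        _ = (-1 : A n) ^ (tri (k + 1)) := by
            rw [v_sq hab, mul_one, h4, ← pow_add]
            congr 1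
            show k + tri k = tri k + k
            exact add_comm _ _

/-- Piece A of S2046: the double cover of a perfect group of even permutations of 100 points
containing a fixed-point-free involution. -/
theorem spin_cover (G : Subgroup (Equiv.Perm (Fin 100))) (hG : G ≤ alternatingGroup (Fin 100))
    (hperf : commutator ↥G = ⊤) (w : Equiv.Perm (Fin 100)) (hw : w ∈ G) (h2 : w * w = 1)
    (hfix : ∀ i, w i ≠ i) :
    ∃ (X : Type) (_ : Group X) (ξ : X →* ↥G), Function.Surjective ξ ∧ ξ.ker ≤ Subgroup.center X ∧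
      ∃ z ∈ commutator X ⊓ ξ.ker, z ≠ 1 := by
  classical
  have hsupp : w.support.card = 2 * 50 := by
    have h1 : w.support = Finset.univ := by
      ext i
      simp [hfix i]
    rw [h1]
    simp
  obtain ⟨x, hxL, hxR, hxP, hxx⟩ := key 50 w h2 hsupp
  have h50 : ((-1 : A 100) ^ 50) = 1 := by
    have h1 : (50 : ℕ) = 2 * 25 := by norm_num
    rw [h1]
    exact sgn_two_mul 25
  have htri : (-1 : A 100) ^ (tri 50) = -1 := by
    have h1 : tri 50 = 2 * 612 + 1 := by decide +kernel
    rw [h1]
    exact sgn_two_mul_add_one 612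
  rw [htri] at hxx
  rw [h50, one_mul] at hxP
  have hxL' : ∀ i, x * L i = L (w i) * x := fun i => by rw [hxL i, h50, one_mul]
  let u : (A 100)ˣ := ⟨x, -x, by rw [mul_neg', hxx, neg_neg'], by rw [neg_mul', hxx, neg_neg']⟩
  have hu : u * u = negOne := Units.ext hxx
  have hmem : (u, w) ∈ P 100 := ⟨hG hw, hxL', hxR, hxP⟩
  -- the group
  let Y : Subgroup ↥(P 100) := (G.subgroupOf (alternatingGroup (Fin 100))).comap (proj 100)
  have hY : ∀ p : ↥(P 100), p ∈ Y ↔ p.1.2 ∈ G := fun p => Iff.rfl
  let ξ : ↥Y →* ↥G :=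
    ((MonoidHom.snd (A 100)ˣ (Perm (Fin 100))).comp ((P 100).subtype.comp Y.subtype)).codRestrict G
      (fun y => (hY y.1).mp y.2)
  have hξ : ∀ y : ↥Y, (ξ y : Perm (Fin 100)) = y.1.1.2 := fun y => rfl
  have hker : ∀ y : ↥Y, y ∈ ξ.ker → y.1 ∈ Subgroup.zpowers (zP 100) := by
    intro y hy
    rw [← proj_ker]
    apply MonoidHom.mem_ker.mpr
    apply Subtype.ext
    have h1 := congrArg Subtype.val (MonoidHom.mem_ker.mp hy)
    exact h1
  have hzY : zP 100 ∈ Y := (hY _).mpr (one_mem G)
  have hzz : zP 100 * zP 100 = 1 := by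
    have h1 := zP_order 100
    rw [← pow_two, ← h1]
    exact pow_orderOf_eq_one _
  have hz1 : zP 100 ≠ 1 := by
    intro h
    have h1 := zP_order 100
    rw [h, orderOf_one] at h1
    omega
  have hker2 : ∀ y : ↥Y, y ∈ ξ.ker → y * y = 1 := by
    intro y hy
    obtain ⟨j, hj⟩ := Subgroup.mem_zpowers_iff.mp (hker y hy)
    apply Subtype.ext
    show y.1 * y.1 = 1
    rw [← hj, ← zpow_add, ← two_mul, zpow_mul, zpow_two, hzz, one_zpow]
  have hkerc : ξ.ker ≤ Subgroup.center ↥Y := by
    intro y hy
    rw [Subgroup.mem_center_iff]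
    intro g
    apply Subtype.ext
    show g.1 * y.1 = y.1 * g.1
    have h1 : y.1 ∈ Subgroup.center ↥(P 100) :=
      (Subgroup.zpowers_le.mpr (zP_mem_center 100)) (hker y hy)
    exact Subgroup.mem_center_iff.mp h1 g.1
  have hsurj : Function.Surjective ξ := by
    rintro ⟨g, hg⟩
    obtain ⟨p, hp⟩ := proj_surjective 100 ⟨g, hG hg⟩
    have hp2 : p.1.2 = g := congrArg Subtype.val hp
    refine ⟨⟨p, (hY p).mpr (by rw [hp2]; exact hg)⟩, ?_⟩
    apply Subtype.ext
    exact hp2
  refine ⟨↥Y, inferInstance, ξ, hsurj, hkerc, ⟨zP 100, hzY⟩, ⟨?_, ?_⟩, ?_⟩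
  · -- in the commutator subgroup
    let τ : ↥Y := ⟨⟨(u, w), hmem⟩, (hY _).mpr hw⟩
    have hττ : τ * τ = ⟨zP 100, hzY⟩ := by
      apply Subtype.ext
      apply Subtype.ext
      apply Prod.ext
      · exact hu
      · exact h2
    have hmap : (commutator ↥Y).map ξ = ⊤ := by
      rw [commutator_def, Subgroup.map_commutator, ← MonoidHom.range_eq_map,
        MonoidHom.range_eq_top.mpr hsurj, ← commutator_def, hperf]
    have hτ : ξ τ ∈ (commutator ↥Y).map ξ := by
      rw [hmap]
      exact Subgroup.mem_top _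
    obtain ⟨c, hc, hcτ⟩ := hτ
    have hk : c⁻¹ * τ ∈ ξ.ker := by
      apply MonoidHom.mem_ker.mpr
      rw [map_mul, map_inv, hcτ, inv_mul_cancel]
    have hkc := Subgroup.mem_center_iff.mp (hkerc hk)
    have hkk := hker2 _ hk
    have e1 : τ = c * (c⁻¹ * τ) := by group
    have e2 : τ * τ = c * c := by
      calc τ * τ = c * (c⁻¹ * τ) * (c * (c⁻¹ * τ)) := by rw [← e1]
        _ = c * ((c⁻¹ * τ) * c) * (c⁻¹ * τ) := by group
        _ = c * (c * (c⁻¹ * τ)) * (c⁻¹ * τ) := by rw [← hkc c]
        _ = c * c * ((c⁻¹ * τ) * (c⁻¹ * τ)) := by group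
        _ = c * c := by rw [hkk, mul_one]
    rw [← hττ, e2]
    exact Subgroup.mul_mem _ hc hc
  · apply MonoidHom.mem_ker.mpr
    apply Subtype.ext
    rfl
  · intro h
    exact hz1 (congrArg Subtype.val h)

end Cfsg.Agent.Lib.Helper66.SpinCover
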