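import Mathlib
import Cfsg.Agent.Lib.Helper41.TMStmt
import Cfsg.Agent.Lib.Helper44.NegPairs
import Cfsg.Agent.Lib.Helper44.OTyp3
import Cfsg.Agent.Lib.Helper44.WittND
import Cfsg.Agent.Lib.Helper44.WittND2

/-!
# S5987 / HALFODD (helper66 second seat; search-replace port of Helper16.TPHALFODD to the minus form): for `i` odd, an invariant nondegenerate subspace without fixed vectors
contains an invariant totally singular subspace of half its dimension
-/

set_option autoImplicit false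

namespace Cfsg.Agent.Lib.Helper66.TMHALFODD

open Polynomial UniqueFactorizationMonoid Module QuadraticMap Matrix
open Cfsg.Agent.Lib.Helper44.QSpace Cfsg.Agent.Lib.Helper44.NegPairs
open Cfsg.Agent.Lib.Helper44.WittND Cfsg.Agent.Lib.Helper44.WittND2
open Cfsg.Agent.Lib.Helper44.OCls1 Cfsg.Agent.Lib.Helper44.OTyp1 Cfsg.Agent.Lib.Helper44.OTyp2
open Cfsg.Agent.Lib.Helper44.OTyp3
open Cfsg.Agent.Lib.Helper40.RecipPoly
open Cfsg.Agent.Lib.Helper41.TMStmt
open Cfsg.Agent.Lib.Helper45.OMiStmt (M Aniso FxM NDegM StabM)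
open Cfsg.Agent.Lib.Helper41.TMTwoStmt (TSubM PlusM FixTSM)

universe u

theorem ndsub_of_ndegJ {F : Type u} [Field F] {d : ℕ} {a₀ b₀ : F} {W : Submodule F (M d → F)}
    (h : NDegM d F a₀ b₀ W) : NDsub (minusQ (d - 1) F a₀ b₀) W := by
  intro x hx hxy
  by_contra hx0
  obtain ⟨-, y, hy, hxy'⟩ := h x hx hx0
  exact hxy' (hxy y hy)

theorem mem_FxJ {F : Type u} [Field F] {d : ℕ} (x : Matrix (M d) (M d) F) (v : M d → F) :
    v ∈ FxM x ↔ x *ᵥ v = v := by
  unfold FxM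
  rw [LinearMap.mem_ker, LinearMap.sub_apply, Matrix.toLin'_apply, LinearMap.id_apply,
    sub_eq_zero]

theorem main : HalfOdd.{u} := by
  intro F _ _ a₀ b₀ hab₀ p _ _ d r _ hr2 hrp hiodd x hx hxr E hE hnd hfix
  classical
  have hr : r.Prime := Fact.out
  by_cases hEbot : E = ⊥
  · refine ⟨⊥, bot_le, ?_, ?_, ?_⟩
    · unfold StabM
      rw [Submodule.map_bot]
    · intro w hw
      rw [(Submodule.mem_bot F).mp hw]
      show minusQ (d - 1) F a₀ b₀ 0 = 0
      exact map_zero _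
    · rw [hEbot]
      simp
  obtain ⟨Xm, hXm⟩ : ∃ Xm : Matrix (M d) (M d) F, Xm = (x : Matrix (M d) (M d) F) := ⟨_, rfl⟩
  rw [← hXm] at hE hfix ⊢
  have hXQ : ∀ u, minusQ (d - 1) F a₀ b₀ (Xm *ᵥ u) = minusQ (d - 1) F a₀ b₀ u := by
    intro u
    rw [hXm]
    exact hx u u
  have hXr : Xm ^ r = 1 := by
    rw [hXm, ← Units.val_pow_eq_pow_val, hxr]
    rfl
  have hSE : Sep (res (minusQ (d - 1) F a₀ b₀) E) := sep_res_of_ndsub (ndsub_of_ndegJ hnd)
  have hmaps : ∀ v ∈ E, Matrix.toLin' Xm v ∈ E := fun v hv => hE (Submodule.mem_map_of_mem hv)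
  obtain ⟨φ, hφ⟩ : ∃ φ : E →ₗ[F] E, ∀ v : E, ((φ v : E) : M d → F) = Xm *ᵥ (v : M d → F) :=
    ⟨(Matrix.toLin' Xm).restrict hmaps, fun v => rfl⟩
  have hφpow : ∀ (n : ℕ) (v : E), (((φ ^ n) v : E) : M d → F) = (Xm ^ n) *ᵥ (v : M d → F) := by
    intro n
    induction n with
    | zero =>
      intro v
      rw [pow_zero, pow_zero, Matrix.one_mulVec]
      rfl
    | succ n ih =>
      intro v
      rw [pow_succ, Module.End.mul_apply, ih, hφ, Matrix.mulVec_mulVec, ← pow_succ]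
  have hφr : φ ^ r = 1 := by
    apply LinearMap.ext
    intro v
    apply Subtype.ext
    rw [hφpow, hXr, Matrix.one_mulVec]
    rfl
  have h1 : φ * φ ^ (r - 1) = 1 := by
    rw [← pow_succ', Nat.sub_add_cancel hr.pos, hφr]
  have h2 : φ ^ (r - 1) * φ = 1 := by
    rw [← pow_succ, Nat.sub_add_cancel hr.pos, hφr]
  have hφQ : ∀ v, res (minusQ (d - 1) F a₀ b₀) E (φ v) = res (minusQ (d - 1) F a₀ b₀) E v := by
    intro v
    rw [res_apply, res_apply, hφ, hXQ]
  -- matrix of `φ`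
  obtain ⟨n, hn⟩ : ∃ n, n = finrank F E := ⟨_, rfl⟩
  obtain ⟨b⟩ : Nonempty (Basis (Fin n) F E) := by
    rw [hn]
    exact ⟨Module.finBasis F E⟩
  obtain ⟨s, hs⟩ : ∃ s : Matrix (Fin n) (Fin n) F, s = LinearMap.toMatrix b b φ := ⟨_, rfl⟩
  obtain ⟨s', hs'⟩ : ∃ s' : Matrix (Fin n) (Fin n) F, s' = LinearMap.toMatrix b b (φ ^ (r - 1)) :=
    ⟨_, rfl⟩
  have hss' : s * s' = 1 := by
    rw [hs, hs', ← LinearMap.toMatrix_mul, h1, LinearMap.toMatrix_one]
  have hkey : ∀ u : Fin n → F, b.equivFun.symm (s *ᵥ u) = φ (b.equivFun.symm u) := by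
    intro u
    have h := LinearMap.toMatrix_mulVec_repr b b φ (b.equivFun.symm u)
    rw [← Basis.equivFun_apply, ← Basis.equivFun_apply, LinearEquiv.apply_symm_apply, ← hs] at h
    rw [h, LinearEquiv.symm_apply_apply]
  have hsr : s ^ r = 1 := by
    have h := map_pow (LinearMap.toMatrixAlgEquiv b) φ r
    rw [hφr, map_one] at h
    rw [hs]
    exact h.symm
  obtain ⟨Q', hQ'⟩ : ∃ Q' : QuadraticForm F (Fin n → F),
      ∀ u, Q' u = res (minusQ (d - 1) F a₀ b₀) E (b.equivFun.symm u) :=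
    ⟨(res (minusQ (d - 1) F a₀ b₀) E).comp (b.equivFun.symm : (Fin n → F) →ₗ[F] E), fun u => rfl⟩
  have hS' : Sep Q' := sep_of_iso hSE Q' b.equivFun (fun v => by
    rw [hQ', LinearEquiv.symm_apply_apply])
  have hsQ : ∀ u, Q' (s *ᵥ u) = Q' u := by
    intro u
    rw [hQ', hQ', hkey, hφQ]
  have hcm : s.charpoly.Monic := Matrix.charpoly_monic s
  have hcf : ∀ P ∈ normalizedFactors s.charpoly, P ∣ X ^ r - C (1 : F) := by
    intro P hP
    apply dvd_of_mem_nf_charpoly' s _ _ P hP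
    rw [map_sub, map_pow, aeval_X, aeval_C, map_one, hsr, sub_self]
  have hcr : rstar (RingHom.id F) s.charpoly = s.charpoly := rstar_charpoly_iso hS' s s' hss' hsQ
  have hsL : ¬ (X - C (1 : F)) ∣ s.charpoly := by
    intro hdvd
    have hroot := Polynomial.dvd_iff_isRoot.mp hdvd
    rw [Polynomial.IsRoot, Matrix.eval_charpoly] at hroot
    obtain ⟨v, hv0, hv⟩ := Matrix.exists_mulVec_eq_zero_iff.mpr hroot
    rw [Matrix.sub_mulVec, map_one, Matrix.one_mulVec, sub_eq_zero] at hv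
    have hw : φ (b.equivFun.symm v) = b.equivFun.symm v := by
      rw [← hkey, ← hv]
    have hmem : ((b.equivFun.symm v : E) : M d → F) ∈ E ⊓ FxM Xm := by
      refine ⟨(b.equivFun.symm v).2, ?_⟩
      exact (mem_FxJ Xm _).mpr (by rw [← hφ, hw])
    rw [hfix, Submodule.mem_bot] at hmem
    have h0 : b.equivFun.symm v = 0 := Subtype.ext hmem
    apply hv0
    have := congrArg b.equivFun h0
    rw [LinearEquiv.apply_symm_apply, map_zero] at this
    exact this
  -- arithmetic of `i`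
  obtain ⟨i, hi⟩ : ∃ i, i = orderOf ((Fintype.card F : ℕ) : ZMod r) := ⟨_, rfl⟩
  rw [← hi] at hiodd
  have hq0 : ((Fintype.card F : ℕ) : ZMod r) ≠ 0 := by
    intro h0
    rw [ZMod.natCast_eq_zero_iff] at h0
    obtain ⟨m, hp, hm⟩ := FiniteField.card F p
    rw [hm] at h0
    have := (Nat.prime_dvd_prime_iff_eq hr hp).mp (hr.dvd_of_dvd_pow h0)
    exact hrp this
  have hidvd : i ∣ r - 1 := by
    rw [hi]
    apply orderOf_dvd_of_pow_eq_one
    exact ZMod.pow_card_sub_one_eq_one hq0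
  obtain ⟨t, ht⟩ := hidvd
  obtain ⟨-, hf2⟩ := facts (F := F) (p := p) r i t hr hr2 hrp hi (by rw [ht]; ring)
  obtain ⟨c₁, hc₁m, hc₁0, hc, hcop, hL1, hL2⟩ := hf2 hiodd s.charpoly hcm hcf hcr hsL
  have hdeg : n = 2 * c₁.natDegree := by
    have h3 : s.charpoly.natDegree = n := by
      rw [Matrix.charpoly_natDegree_eq_dim, Fintype.card_fin]
    rw [hc, Polynomial.Monic.natDegree_mul hc₁m (rstar_monic _ c₁ hc₁0),
      rstar_natDegree _ c₁ hc₁0] at h3
    omega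
  have hnpos : n ≠ 0 := by
    intro h0
    apply hEbot
    rw [h0] at hn
    exact Submodule.finrank_eq_zero.mp hn.symm
  obtain ⟨k, hk⟩ : ∃ k, c₁.natDegree = k + 1 := ⟨c₁.natDegree - 1, by omega⟩
  have hfin : finrank F E = 2 * (k + 1) := by
    rw [← hn, hdeg, hk]
  have hann : aeval φ (c₁ * rstar (RingHom.id F) c₁) = 0 := by
    have h := LinearMap.aeval_self_charpoly φ
    rw [← LinearMap.charpoly_toMatrix φ b, ← hs, hc] at h
    exact h
  obtain ⟨c₂, hc₂⟩ : ∃ c₂, c₂ = rstar (RingHom.id F) c₁ := ⟨_, rfl⟩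
  rw [← hc₂] at hcop hann hL2
  have hid2 : ∀ x : F, (RingHom.id F) ((RingHom.id F) x) = x := fun x => rfl
  have hrev1 : c₁.reverse = C (c₁.coeff 0) * c₂ := by
    rw [hc₂]
    unfold rstar
    rw [Polynomial.map_id, RingHom.id_apply, ← mul_assoc, ← C_mul, mul_inv_cancel₀ hc₁0, C_1,
      one_mul]
  have hc₂0 : c₂.coeff 0 ≠ 0 := by
    rw [hc₂, rstar_coeff_zero _ c₁ hc₁m]
    exact inv_ne_zero hc₁0
  have hrev2 : c₂.reverse = C (c₂.coeff 0) * c₁ := by
    have hss : rstar (RingHom.id F) c₂ = c₁ := by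
      rw [hc₂]
      exact rstar_star _ hid2 c₁ hc₁m hc₁0
    conv_rhs => rw [← hss]
    unfold rstar
    rw [Polynomial.map_id, RingHom.id_apply, ← mul_assoc, ← C_mul, mul_inv_cancel₀ hc₂0, C_1,
      one_mul]
  have hW₁ : ∀ x ∈ LinearMap.ker (aeval φ c₁), res (minusQ (d - 1) F a₀ b₀) E x = 0 := fun x hx =>
    ts_ker (res (minusQ (d - 1) F a₀ b₀) E) φ (φ ^ (r - 1)) h1 h2 hφQ c₁ c₂ _ hc₁0 hrev1 hcop hL1 x
      (LinearMap.mem_ker.mp hx)
  have hW₂ : ∀ x ∈ LinearMap.ker (aeval φ c₂), res (minusQ (d - 1) F a₀ b₀) E x = 0 := fun x hx =>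
    ts_ker (res (minusQ (d - 1) F a₀ b₀) E) φ (φ ^ (r - 1)) h1 h2 hφQ c₂ c₁ _ hc₂0 hrev2 hcop.symm hL2 x
      (LinearMap.mem_ker.mp hx)
  have hsup : LinearMap.ker (aeval φ c₁) ⊔ LinearMap.ker (aeval φ c₂) = ⊤ := by
    rw [Polynomial.sup_ker_aeval_eq_ker_aeval_mul_of_coprime φ hcop, hann, LinearMap.ker_zero]
  have hdim := Submodule.finrank_sup_add_finrank_inf_eq (LinearMap.ker (aeval φ c₁))
    (LinearMap.ker (aeval φ c₂))
  rw [hsup, finrank_top, hfin] at hdim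
  have hhalf : ∀ W : Submodule F E, (∀ x ∈ W, res (minusQ (d - 1) F a₀ b₀) E x = 0) →
      2 * finrank F W ≤ finrank F E := by
    intro W hW
    have hle : W ≤ LinearMap.BilinForm.orthogonal (polarBilin (res (minusQ (d - 1) F a₀ b₀) E)) W := by
      intro w hw u hu
      show polar (res (minusQ (d - 1) F a₀ b₀) E) u w = 0
      unfold polar
      rw [hW _ (W.add_mem hu hw), hW _ hu, hW _ hw]
      simp
    have h3 := LinearMap.BilinForm.finrank_orthogonal (nondegenerate_of_sep hSE) W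
    have h4 : finrank F W ≤ finrank F E - finrank F W :=
      le_of_le_of_eq (Submodule.finrank_mono hle) h3
    have h5 : finrank F W ≤ finrank F E := Submodule.finrank_le W
    omega
  have hd1 := hhalf _ hW₁
  have hd2 := hhalf _ hW₂
  rw [hfin] at hd1 hd2
  have hfW : finrank F (LinearMap.ker (aeval φ c₁)) = k + 1 := by omega
  have hcomm : aeval φ c₁ * φ = φ * aeval φ c₁ := by
    have h6 : aeval φ (c₁ * X) = aeval φ (X * c₁) := by rw [mul_comm]
    rw [map_mul, map_mul, aeval_X] at h6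
    exact h6
  refine ⟨(LinearMap.ker (aeval φ c₁)).map E.subtype, Submodule.map_subtype_le _ _, ?_, ?_, ?_⟩
  · rintro _ ⟨_, ⟨v, hv, rfl⟩, rfl⟩
    refine ⟨φ v, ?_, ?_⟩
    · rw [SetLike.mem_coe, LinearMap.mem_ker, ← Module.End.mul_apply, hcomm,
        Module.End.mul_apply, LinearMap.mem_ker.mp hv, map_zero]
    · show ((φ v : E) : M d → F) = Matrix.toLin' Xm (v : M d → F)
      rw [hφ, Matrix.toLin'_apply]
  · rintro _ ⟨v, hv, rfl⟩
    show minusQ (d - 1) F a₀ b₀ ((v : E) : M d → F) = 0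
    have h5 := hW₁ v hv
    rw [res_apply] at h5
    exact h5
  · rw [Submodule.finrank_map_subtype_eq, hfW, hfin]

end Cfsg.Agent.Lib.Helper66.TMHALFODD
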