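import Mathlib
import Cfsg.Agent.Lib.Helper44.TPStmt

set_option autoImplicit false

/-!
Piece BLOCKSK of S5973 (plus form, all q): `k` pairwise orthogonal invariant nondegenerate blocks inside an
invariant nondegenerate subspace without fixed vectors.
-/

universe u

open scoped Matrix

namespace Cfsg.Agent.Lib.Helper66.TPBLOCKSK

open Cfsg.Agent.Lib.Helper44.TPStmt

theorem main (hSP : SubPerp.{u}) (hBF : BlockFindE.{u}) : BlocksK.{u} := by
  intro F _ _ p _ _ d r _ hr2 hrp hev x hx hxr Y hY hND hYF k
  by_cases hi : orderOf ((Fintype.card F : ℕ) : ZMod r) = 0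
  · intro _
    refine ⟨fun _ => ⊥, ?_, ?_⟩
    · intro a
      refine ⟨bot_le, ?_, ?_, ?_⟩
      · unfold Stab
        rw [Submodule.map_bot]
      · intro w hw hw0
        exact absurd ((Submodule.mem_bot F).mp hw) hw0
      · rw [hi]
        exact finrank_bot F _
    · intro a b _ u hu v hv
      rw [(Submodule.mem_bot F).mp hu]
      simp [QuadraticMap.polar, Cfsg.quadFormPlus]
  induction k generalizing Y with
  | zero =>
    intro _
    exact ⟨Fin.elim0, fun a => a.elim0, fun a => a.elim0⟩
  | succ k ih =>
    intro hk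
    have hYne : Y ≠ ⊥ := by
      rintro rfl
      rw [finrank_bot] at hk
      have : 0 < (k + 1) * orderOf ((Fintype.card F : ℕ) : ZMod r) :=
        Nat.mul_pos (Nat.succ_pos k) (Nat.pos_of_ne_zero hi)
      omega
    obtain ⟨B, hBY, hBst, hBnd, hBdim⟩ :=
      hBF F p d r hr2 hrp hev x hx hxr Y hY hND hYF hYne
    obtain ⟨Y', hY'Y, hY'nd, hBY', horth, hdim, hstab⟩ := hSP F d Y B hND hBnd hBY
    have hY'st := hstab x hx hY hBst
    have hY'F : Y' ⊓ Fx (x : Matrix (J d) (J d) F) = ⊥ := by
      rw [eq_bot_iff, ← hYF]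
      exact inf_le_inf_right _ hY'Y
    have hk' : k * orderOf ((Fintype.card F : ℕ) : ZMod r) ≤ Module.finrank F ↥Y' := by
      rw [Nat.succ_mul] at hk
      omega
    obtain ⟨Bs, hBs, hBorth⟩ := ih Y' hY'st hY'nd hY'F hk'
    refine ⟨(Fin.cons B Bs : Fin (k + 1) → Submodule F (J d → F)), ?_, ?_⟩
    · intro a
      refine Fin.cases ?_ (fun a' => ?_) a
      · simp only [Fin.cons_zero]
        exact ⟨hBY, hBst, hBnd, hBdim⟩
      · simp only [Fin.cons_succ]
        obtain ⟨h1, h2, h3, h4⟩ := hBs a'
        exact ⟨h1.trans hY'Y, h2, h3, h4⟩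
    · intro a b
      refine Fin.cases ?_ (fun a' => ?_) a
      · refine Fin.cases ?_ (fun b' => ?_) b
        · intro h
          exact absurd rfl h
        · intro _ u hu v hv
          simp only [Fin.cons_zero] at hu
          simp only [Fin.cons_succ] at hv
          exact horth u hu v ((hBs b').1 hv)
      · refine Fin.cases ?_ (fun b' => ?_) b
        · intro _ u hu v hv
          simp only [Fin.cons_succ] at hu
          simp only [Fin.cons_zero] at hv
          rw [QuadraticMap.polar_comm]
          exact horth v hv u ((hBs a').1 hu)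
        · intro hab u hu v hv
          simp only [Fin.cons_succ] at hu hv
          exact hBorth a' b' (fun h => hab (by rw [h])) u hu v hv

end Cfsg.Agent.Lib.Helper66.TPBLOCKSK
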