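import Mathlib
import Cfsg.Agent.Lib.Helper44.TPStmt

set_option autoImplicit false

/-!
Piece PAIRFIND of S5973 (plus form, all q): in a large enough invariant nondegenerate subspace without fixed vectors
two orthogonal blocks have the same type; their sum contains an invariant totally singular
subspace of half its dimension.
-/

universe u

open scoped Matrix

namespace Cfsg.Agent.Lib.Helper66.TPPAIRFIND

open Cfsg.Agent.Lib.Helper44.TPStmt
open Cfsg.Agent.Lib.Helper37.HypStmt (cc IPos)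
open Cfsg.Agent.Lib.Helper44.TSStmt (Fac NumTypes)

theorem main (hIPos : IPos.{u}) (hNum : NumTypes.{u}) (hType : TypeOf.{u}) (hPair : PairE.{u})
    (hOrth : OrthSum.{u}) (hBlocks : BlocksK.{u}) : PairFind.{u} := by
  intro F _ _ p _ _ d r _ hr2 hrp hev x hx hxr Y hY hND hYF hdim
  have hi : 0 < orderOf ((Fintype.card F : ℕ) : ZMod r) := hIPos F p r hrp
  obtain ⟨hfin, hcard⟩ := hNum F p r hrp
  have hdim' : ((r - 1) / orderOf ((Fintype.card F : ℕ) : ZMod r) + 1) *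
      orderOf ((Fintype.card F : ℕ) : ZMod r) ≤ Module.finrank F ↥Y := by
    rw [mul_comm]
    exact hdim
  obtain ⟨Bs, hBs, hBorth⟩ := hBlocks F p d r hr2 hrp hev x hx hxr Y hY hND hYF
    ((r - 1) / orderOf ((Fintype.card F : ℕ) : ZMod r) + 1) hdim'
  have hBF : ∀ a, Bs a ⊓ Fx (x : Matrix (J d) (J d) F) = ⊥ := by
    intro a
    rw [eq_bot_iff, ← hYF]
    exact inf_le_inf_right _ (hBs a).1
  have hT : ∀ a, ∃ P ∈ Fac r F, Kills (x : Matrix (J d) (J d) F) P (Bs a) := fun a =>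
    hType F p d r hrp x hxr (Bs a) (hBs a).2.1 (hBF a) (hBs a).2.2.2
  choose P hPF hPK using hT
  -- pigeonhole
  have hnc : (Fac r F).ncard = (r - 1) / orderOf ((Fintype.card F : ℕ) : ZMod r) := by
    rw [← hcard, Nat.mul_div_cancel _ hi]
  have hlt : hfin.toFinset.card <
      (Finset.univ : Finset (Fin ((r - 1) / orderOf ((Fintype.card F : ℕ) : ZMod r) + 1))).card := by
    rw [← Set.ncard_eq_toFinset_card (Fac r F) hfin, hnc, Finset.card_univ, Fintype.card_fin]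
    exact Nat.lt_succ_self _
  obtain ⟨a, -, b, -, hab, hPab⟩ := Finset.exists_ne_map_eq_of_card_lt_of_maps_to hlt
    (f := P) (fun a _ => hfin.mem_toFinset.mpr (hPF a))
  obtain ⟨U, hUle, hUst, hUts, hUdim⟩ := hPair F p d r hr2 hrp hev x hx hxr (P a) (hPF a)
    (Bs a) (Bs b) (hBs a).2.1 (hBs b).2.1 (hBs a).2.2.1 (hBs b).2.2.1 (hBF a) (hBF b)
    (hBs a).2.2.2 (hBs b).2.2.2 (hBorth a b hab) (hPK a) (hPab ▸ hPK b)
  obtain ⟨hGnd, -, hGdim⟩ := hOrth F d (Bs a) (Bs b) (hBs a).2.2.1 (hBs b).2.2.1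
    (hBorth a b hab)
  refine ⟨U, Bs a ⊔ Bs b, hUle, sup_le (hBs a).1 (hBs b).1, hUst, hUts, hUdim, ?_, hGnd, ?_⟩
  · unfold Stab
    rw [Submodule.map_sup]
    exact sup_le_sup (hBs a).2.1 (hBs b).2.1
  · rw [hGdim, (hBs a).2.2.2, (hBs b).2.2.2]
    ring

end Cfsg.Agent.Lib.Helper66.TPPAIRFIND
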