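import Mathlib
import Cfsg.Agent.Lib.Helper44.TSStmt

set_option autoImplicit false

/-!
Piece INVGOOD of S5972: an involution of `Omega` fixes a totally singular `m`-space when `m < d`
or `q ≡ 1 (mod 4)`.
-/

universe u

open scoped Matrix

namespace Cfsg.Agent.Lib.Helper66.TSINVGOOD

open Cfsg.Agent.Lib.Helper37.HypStmt Cfsg.Agent.Lib.Helper37.HypStmt2 Cfsg.Agent.Lib.Helper44.TSStmt

theorem main (hDec : InvDec.{u}) (hPar : InvPar.{u}) (hSpin : SpinInv.{u}) (hTsIn : TsIn.{u}) :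
    InvGood.{u} := by
  intro F _ _ hodd d m hd hm hmd hcase x hx hord
  have hxiso : x ∈ Cfsg.isometryGroup F (Cfsg.quadFormOdd d F) := by
    obtain ⟨y, -, rfl⟩ := hx
    exact y.2
  have hx2 : x ^ 2 = 1 := by
    rw [← hord]
    exact pow_orderOf_eq_one x
  obtain ⟨hFxND, hFmND, horth, hinf, hdim⟩ := hDec F hodd d x hxiso hx2
  obtain ⟨e, he⟩ := hPar F hodd d x hx hx2
  -- the two pieces
  have key : ∃ U₁ U₂ : Submodule F (I d → F), U₁ ≤ Fx (x : Matrix (I d) (I d) F) ∧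
      U₂ ≤ Fm (x : Matrix (I d) (I d) F) ∧ TSub d F U₁ ∧ TSub d F U₂ ∧
      Module.finrank F ↥U₁ + Module.finrank F ↥U₂ = m := by
    by_cases hlt : m < d
    · by_cases h1 : 2 * m < Module.finrank F ↥(Fx (x : Matrix (I d) (I d) F))
      · obtain ⟨U₁, hU₁, hts₁, hd₁⟩ := hTsIn F hodd d _ m hFxND h1
        refine ⟨U₁, ⊥, hU₁, bot_le, hts₁, ?_, ?_⟩
        · intro w hw
          rw [(Submodule.mem_bot F).mp hw]
          simp [Cfsg.quadFormOdd]
        · rw [hd₁, finrank_bot, add_zero]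
      · have h2 : 2 * (d - e) < Module.finrank F ↥(Fx (x : Matrix (I d) (I d) F)) := by omega
        have h3 : 2 * (m - (d - e)) < Module.finrank F ↥(Fm (x : Matrix (I d) (I d) F)) := by
          omega
        obtain ⟨U₁, hU₁, hts₁, hd₁⟩ := hTsIn F hodd d _ (d - e) hFxND h2
        obtain ⟨U₂, hU₂, hts₂, hd₂⟩ := hTsIn F hodd d _ (m - (d - e)) hFmND h3
        refine ⟨U₁, U₂, hU₁, hU₂, hts₁, hts₂, ?_⟩
        rw [hd₁, hd₂]
        omega
    · have hq : Fintype.card F % 4 = 1 := by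
        rcases hcase with h | h
        · exact absurd h hlt
        · exact h
      obtain ⟨U₂, hU₂, hts₂, hd₂⟩ := hSpin F hodd hq d hd x hx hx2
      have h2 : 2 * (d - e) < Module.finrank F ↥(Fx (x : Matrix (I d) (I d) F)) := by omega
      obtain ⟨U₁, hU₁, hts₁, hd₁⟩ := hTsIn F hodd d _ (d - e) hFxND h2
      refine ⟨U₁, U₂, hU₁, hU₂, hts₁, hts₂, ?_⟩
      rw [hd₁]
      omega
  obtain ⟨U₁, U₂, hU₁, hU₂, hts₁, hts₂, hsum⟩ := key
  refine ⟨U₁ ⊔ U₂, ?_, ?_, ?_⟩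
  · -- dimension
    have h1 := Submodule.finrank_sup_add_finrank_inf_eq U₁ U₂
    have h2 : U₁ ⊓ U₂ = ⊥ := by
      rw [eq_bot_iff, ← hinf]
      exact inf_le_inf hU₁ hU₂
    rw [h2, finrank_bot, add_zero] at h1
    rw [h1, hsum]
  · -- totally singular
    intro w hw
    obtain ⟨u₁, hu₁, u₂, hu₂, rfl⟩ := Submodule.mem_sup.mp hw
    have h1 := horth u₁ (hU₁ hu₁) u₂ (hU₂ hu₂)
    have h2 := hts₁ u₁ hu₁
    have h3 := hts₂ u₂ hu₂
    unfold QuadraticMap.polar at h1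
    rw [h2, h3, sub_zero, sub_zero] at h1
    exact h1
  · -- invariant
    rintro _ ⟨w, hw, rfl⟩
    obtain ⟨u₁, hu₁, u₂, hu₂, rfl⟩ := Submodule.mem_sup.mp hw
    rw [map_add]
    apply Submodule.add_mem
    · apply Submodule.mem_sup_left
      have h1 := (mem_Fx _ u₁).mp (hU₁ hu₁)
      rw [Matrix.toLin'_apply, h1]
      exact hu₁
    · apply Submodule.mem_sup_right
      have h1 : u₂ ∈ Fm (x : Matrix (I d) (I d) F) := hU₂ hu₂
      unfold Fm at h1
      rw [LinearMap.mem_ker, LinearMap.add_apply, LinearMap.id_apply] at h1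
      rw [eq_neg_of_add_eq_zero_left h1]
      exact Submodule.neg_mem _ hu₂

end Cfsg.Agent.Lib.Helper66.TSINVGOOD
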